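import Mathlib
import Cfsg.Agent.H6.CExt

/-! Lifting root elements indexed by pairs to central extensions. -/

set_option autoImplicit false

namespace CfsgH6

open scoped commutatorElement

/-- root elements indexed by pairs -/
structure PSys (J Ψ F Γ : Type*) [Field F] [Group Γ] where
  ν : J → J
  ix : J → ℕ
  ok : J → J → Prop
  ρ : J → J → Ψ
  x : Ψ → F → Γ
  νν : ∀ a, ν (ν a) = a
  ix_ν : ∀ a, ix (ν a) = ix a
  eq_of_ix : ∀ {a b c}, ok a b → ok a c → ix b = ix c → b = c ∨ c = ν b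
  symm : ∀ {a b}, ok a b → ok b a
  neg : ∀ {a b}, ok a b → ok (ν a) (ν b)
  ne : ∀ {a b}, ok a b → ix a ≠ ix b
  ρ_comm : ∀ a b, ρ a b = ρ b a
  ρ_inj : ∀ {a b c d}, ok a b → ok c d → ρ a b = ρ c d → (a = c ∧ b = d) ∨ (a = d ∧ b = c)
  comp : ∀ {a b c}, ok a b → ok (ν b) c → ix a ≠ ix c → ok a c
  add : ∀ r t u, x r (t + u) = x r t * x r u
  inj : ∀ r t u, x r t = x r u → t = u
  sm : ∀ {a b c}, ok a b → ok (ν b) c → ix a ≠ ix c →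
    ∃ ε : F, ε ≠ 0 ∧ ∀ t u, ⁅x (ρ a b) t, x (ρ (ν b) c) u⁆ = x (ρ a c) (ε * t * u)
  cmm1 : ∀ {a b d}, ok a b → ok a d → ∀ t u, Commute (x (ρ a b) t) (x (ρ a d) u)
  cmm0 : ∀ {a b c d}, ok a b → ok c d → ix a ≠ ix c → ix a ≠ ix d → ix b ≠ ix c → ix b ≠ ix d →
    ∀ t u, Commute (x (ρ a b) t) (x (ρ c d) u)
  room : ∀ {a c}, ok a c → ∀ i, ∃ b, ok a b ∧ ok (ν b) c ∧ ix b ≠ i

namespace PSys

variable {J Ψ F Γ E : Type*} [Field F] [Group Γ] [Group E] (P : PSys J Ψ F Γ) {π : E →* Γ} (X : CExt π)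

/-- the lifts commute -/
def Com (r s : Ψ) : Prop := ∀ t u, X.cm (P.x r t) (P.x s u) = 1

/-- the lifts commute for disjoint pairs -/
def Good : Prop := ∀ {a b c d}, P.ok a b → P.ok c d → P.ix a ≠ P.ix c → P.ix a ≠ P.ix d → P.ix b ≠ P.ix c →
  P.ix b ≠ P.ix d → P.Com X (P.ρ a b) (P.ρ c d)

theorem x_zero (r : Ψ) : P.x r 0 = 1 := by simpa using P.add r 0 0

theorem x_neg (r : Ψ) (t : F) : P.x r (-t) = (P.x r t)⁻¹ := by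
  rw [eq_inv_iff_mul_eq_one, ← P.add, neg_add_cancel, x_zero]

variable {P}

theorem dec {a b c : J} (h1 : P.ok a b) (h2 : P.ok (P.ν b) c) (h3 : P.ix a ≠ P.ix c) (w : F) :
    ∃ u, ⁅P.x (P.ρ a b) 1, P.x (P.ρ (P.ν b) c) u⁆ = P.x (P.ρ a c) w := by
  obtain ⟨ε, h0, h⟩ := P.sm h1 h2 h3
  exact ⟨ε⁻¹ * w, by rw [h, mul_one, mul_inv_cancel_left₀ h0]⟩

theorem ok_of {a b c : J} (h1 : P.ok a b) (h2 : P.ok a c) (h : P.ix b ≠ P.ix c) : P.ok (P.ν b) c :=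
  P.comp (P.neg (P.symm h1)) (by rwa [P.νν]) (by rwa [P.ix_ν])

theorem good_of_room (h : ∀ {a c}, P.ok a c → ∀ i j, ∃ b, P.ok a b ∧ P.ok (P.ν b) c ∧ P.ix b ≠ i ∧ P.ix b ≠ j) :
    P.Good X := fun {a b c d} h1 h2 k1 k2 k3 k4 t u => by
  obtain ⟨e, e1, e2, e3, e4⟩ := h h2 (P.ix a) (P.ix b)
  obtain ⟨v, hv⟩ := dec e1 e2 (P.ne h2) u
  rw [← hv]
  exact X.cm_comm (P.cmm0 h1 e1 k1 e3.symm k3 e4.symm _ _)
    (P.cmm0 h1 e2 (by rw [P.ix_ν]; exact e3.symm) k2 (by rw [P.ix_ν]; exact e4.symm) k4 _ _)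

theorem com1 {a b d : J} (h1 : P.ok a b) (h2 : P.ok a d) (h : d ≠ P.ν b) : P.Com X (P.ρ a b) (P.ρ a d) := fun t u => by
  obtain ⟨e, e1, e2, e3⟩ := P.room h2 (P.ix b)
  obtain ⟨v, hv⟩ := dec e1 e2 (P.ne h2) u
  rw [← hv]
  refine X.cm_comm (P.cmm1 h1 e1 _ _) ?_
  by_cases k : P.ix b = P.ix d
  · obtain rfl := (P.eq_of_ix h1 h2 k).resolve_right h
    rw [P.ρ_comm a, P.ρ_comm (P.ν e)]
    exact P.cmm1 (P.symm h1) (P.symm e2) _ _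
  · exact P.cmm0 h1 e2 (by rw [P.ix_ν]; exact P.ne e1) (P.ne h2) (by rw [P.ix_ν]; exact e3.symm) k _ _

theorem com1' {a b d : J} (h1 : P.ok b a) (h2 : P.ok d a) (h : P.ix b ≠ P.ix d) : P.Com X (P.ρ b a) (P.ρ d a) := by
  rw [P.ρ_comm b, P.ρ_comm d]
  exact com1 X (P.symm h1) (P.symm h2) fun e => h (by rw [e, P.ix_ν])

variable {X} (H : P.Good X)
include H

theorem half {a c b b' : J} (h : P.ix a ≠ P.ix c) (h1 : P.ok a b) (h2 : P.ok (P.ν b) c) (h3 : P.ok a b')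
    (h4 : P.ok (P.ν b') c) (h5 : P.ix b' ≠ P.ix b) (s t : F) :
    ∃ w, X.cm (P.x (P.ρ a b) s) (P.x (P.ρ (P.ν b) c) t) = X.cm (P.x (P.ρ a b') 1) (P.x (P.ρ (P.ν b') c) w) := by
  have h6 := ok_of h3 h1 h5
  have n1 := P.ne h1
  have n2 := P.ne h2
  have n3 := P.ne h3
  have n4 := P.ne h4
  rw [P.ix_ν] at n2
  obtain ⟨v, hv⟩ := dec h3 h6 n1 s
  obtain ⟨ε, -, e1⟩ := P.sm h1 h2 h
  obtain ⟨ε', -, e2⟩ := P.sm h6 h2 n4
  rw [P.ix_ν] at n4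
  have := X.cm_assoc (u := P.x (P.ρ a b') 1) (v := P.x (P.ρ (P.ν b') b) v) (w := P.x (P.ρ (P.ν b) c) t)
    (H h3 h2 (by rwa [P.ix_ν]) h (by rwa [P.ix_ν]) n4 _ _)
    (by rw [hv]; exact com1' X h6 h1 (by rw [P.ix_ν]; exact n3.symm) _ _)
    (by rw [hv, e1]; exact H h6 (P.comp h1 h2 h) (by rw [P.ix_ν]; exact n3.symm) (by rwa [P.ix_ν]) n1.symm n2 _ _)
  rw [hv, e2] at this
  exact ⟨_, this⟩

theorem ind {a c b b' : J} (h : P.ix a ≠ P.ix c) (h1 : P.ok a b) (h2 : P.ok (P.ν b) c) (h3 : P.ok a b')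
    (h4 : P.ok (P.ν b') c) {s t s' t' : F}
    (e : ⁅P.x (P.ρ a b) s, P.x (P.ρ (P.ν b) c) t⁆ = ⁅P.x (P.ρ a b') s', P.x (P.ρ (P.ν b') c) t'⁆) :
    X.cm (P.x (P.ρ a b) s) (P.x (P.ρ (P.ν b) c) t) = X.cm (P.x (P.ρ a b') s') (P.x (P.ρ (P.ν b') c) t') := by
  have k : ∀ {b}, P.ok a b → P.ok (P.ν b) c → ∀ s t, ∃ w, X.cm (P.x (P.ρ a b) s) (P.x (P.ρ (P.ν b) c) t) =
      X.cm (P.x (P.ρ a b') 1) (P.x (P.ρ (P.ν b') c) w) := fun {b} h1 h2 s t => by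
    by_cases k : P.ix b' = P.ix b
    · obtain ⟨e, e1, e2, e3⟩ := P.room (P.comp h1 h2 h) (P.ix b)
      obtain ⟨w, hw⟩ := half H h h1 h2 e1 e2 e3 s t
      obtain ⟨w', hw'⟩ := half H h e1 e2 h3 h4 (k ▸ e3.symm) 1 w
      exact ⟨w', hw.trans hw'⟩
    · exact half H h h1 h2 h3 h4 k s t
  obtain ⟨w, hw⟩ := k h1 h2 s t
  obtain ⟨w', hw'⟩ := k h3 h4 s' t'
  obtain ⟨ε, h0, hε⟩ := P.sm h3 h4 h
  rw [← X.π_cm, ← X.π_cm, hw, hw', X.π_cm, X.π_cm, hε, hε] at e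
  rw [hw, hw', mul_left_cancel₀ (mul_ne_zero h0 one_ne_zero) (P.inj _ _ _ e)]

theorem com_bad {a b : J} (h1 : P.ok a b) (h2 : P.ok a (P.ν b)) : P.Com X (P.ρ a b) (P.ρ a (P.ν b)) := fun t u => by
  obtain ⟨e, e1, e2, -⟩ := P.room h1 0
  have n1 := P.ne h1
  have n2 := P.ne e1
  have n3 := P.ne e2
  have e3 := ok_of e1 h2 (by rwa [P.ix_ν] at n3 ⊢)
  obtain ⟨v, hv⟩ := dec e1 e2 n1 (-t)
  obtain ⟨w, hw⟩ := dec e1 e3 (P.ne h2) (-u)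
  rw [← commutatorElement_inv, P.x_neg, inv_inj] at hv hw
  have k := congrArg (X.cm · (P.x (P.ρ a e) 1)) (P.cmm1 e3 e2 w v).eq
  have k1 : ∀ g b c : Γ, X.cj g (X.cm b c) = X.cm g ⁅b, c⁆ * X.cm b c := fun g b c => by
    rw [X.cm_cj (X.π_cm b c), inv_mul_cancel_right]
  simp only [X.cm_mul_left, k1, hv, hw] at k
  have k2 := congrArg π k
  simp only [map_mul, X.π_cm, hv, hw] at k2
  rw [mul_assoc, mul_assoc, (P.cmm1 h1 h2 _ _).eq, mul_left_inj] at k2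
  have k3 := ind H (a := P.ν e) (c := a) (b := P.ν b) (b' := b) (by rw [P.ix_ν]; exact n2.symm) e3
    (by rw [P.νν]; exact P.symm h1) e2 (P.symm h2) (s := w) (t := t) (s' := v) (t' := u)
    (by rwa [P.νν, P.ρ_comm b, P.ρ_comm (P.ν b)])
  rw [P.νν, P.ρ_comm b, P.ρ_comm (P.ν b)] at k3
  rw [k3, mul_assoc, mul_assoc, mul_right_inj] at k
  rw [X.cm_eq ((X.π_cm _ _).trans hv) ((X.π_cm _ _).trans hw)]
  exact commutatorElement_eq_one_iff_mul_comm.2 k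

theorem com {a b d : J} (h1 : P.ok a b) (h2 : P.ok a d) : P.Com X (P.ρ a b) (P.ρ a d) := by
  by_cases h : d = P.ν b
  · subst h; exact com_bad H h1 h2
  · exact com1 X h1 h2 h

theorem exists_y : ∃ y : Ψ → F → E, ∀ a c, P.ok a c → (∀ t, π (y (P.ρ a c) t) = P.x (P.ρ a c) t) ∧
    (∀ t u, y (P.ρ a c) (t + u) = y (P.ρ a c) t * y (P.ρ a c) u) ∧ ∀ b, P.ok a b → P.ok (P.ν b) c → ∀ t u w,
      ⁅P.x (P.ρ a b) t, P.x (P.ρ (P.ν b) c) u⁆ = P.x (P.ρ a c) w →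
        X.cm (P.x (P.ρ a b) t) (P.x (P.ρ (P.ν b) c) u) = y (P.ρ a c) w := by
  have k : ∀ a c, P.ok a c → ∃ y : F → E, (∀ t, π (y t) = P.x (P.ρ a c) t) ∧ (∀ t u, y (t + u) = y t * y u) ∧
      ∀ b, P.ok a b → P.ok (P.ν b) c → ∀ t u w, ⁅P.x (P.ρ a b) t, P.x (P.ρ (P.ν b) c) u⁆ = P.x (P.ρ a c) w →
        X.cm (P.x (P.ρ a b) t) (P.x (P.ρ (P.ν b) c) u) = y w := fun a c h => by
    obtain ⟨e, e1, e2, -⟩ := P.room h 0
    obtain ⟨ε, h0, hε⟩ := P.sm e1 e2 (P.ne h)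
    have k : ∀ t, ⁅P.x (P.ρ a e) 1, P.x (P.ρ (P.ν e) c) (ε⁻¹ * t)⁆ = P.x (P.ρ a c) t := fun t => by
      rw [hε, mul_one, mul_inv_cancel_left₀ h0]
    refine ⟨fun t => X.cm (P.x (P.ρ a e) 1) (P.x (P.ρ (P.ν e) c) (ε⁻¹ * t)), fun t => by rw [X.π_cm, k],
      fun t u => ?_, fun b b1 b2 t u w hw => ind H (P.ne h) b1 b2 e1 e2 (hw.trans (k w).symm)⟩
    beta_reduce
    rw [mul_add, P.add, X.cm_mul_right, X.cj_of_cm]
    rw [X.π_cm, k]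
    exact com1' X e2 h (by rw [P.ix_ν]; exact (P.ne e1).symm) _ _
  choose! y h1 h2 h3 using k
  have hs : ∀ a c, P.ok a c → y c a = y a c := fun a c h => funext fun w => by
    obtain ⟨e, e1, e2, -⟩ := P.room h 0
    obtain ⟨u, hu⟩ := dec e1 e2 (P.ne h) (-w)
    have k1 := h3 a c h e e1 e2 _ _ _ hu
    have k2 := h3 c a (P.symm h) (P.ν e) (P.symm e2) (by rw [P.νν]; exact P.symm e1) u 1 w (by
      rw [P.νν, P.ρ_comm c, P.ρ_comm e, P.ρ_comm c, ← commutatorElement_inv, hu, P.x_neg, inv_inv])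
    rw [P.νν, P.ρ_comm c, P.ρ_comm e, ← X.cm_inv, k1] at k2
    rw [← k2, inv_eq_iff_mul_eq_one, ← h2 a c h, neg_add_cancel]
    simpa using h2 a c h 0 0
  classical
  let Y : Ψ → F → E := fun r => if h : ∃ p : J × J, P.ok p.1 p.2 ∧ P.ρ p.1 p.2 = r then y h.choose.1 h.choose.2 else 1
  have hY : ∀ a c, P.ok a c → Y (P.ρ a c) = y a c := fun a c h => by
    have k : ∃ p : J × J, P.ok p.1 p.2 ∧ P.ρ p.1 p.2 = P.ρ a c := ⟨(a, c), h, rfl⟩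
    simp only [Y, dif_pos k]
    rcases P.ρ_inj k.choose_spec.1 h k.choose_spec.2 with e | e <;> rw [e.1, e.2]
    exact hs a c h
  exact ⟨Y, fun a c h => by rw [hY a c h]; exact ⟨h1 a c h, h2 a c h, h3 a c h⟩⟩

end PSys

end CfsgH6
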