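import Mathlib
import Cfsg.Agent.H6.RA

/-! The root data of types B, C, D. -/

set_option autoImplicit false
set_option linter.unusedSectionVars false

namespace CfsgH6

open Matrix Cfsg.Lie

/-- index data for the classical types -/
structure CD (m : ℕ) (J : Type) where
  ix : J → ℕ
  sg : J → ℤ
  ν : J → J
  ε : ℤ
  δ : ℕ
  p : ℕ → J
  z : J
  ext : ∀ a b, ix a = ix b → sg a = sg b → a = b
  sgc : ∀ a, (ix a < m ∧ (sg a = 1 ∨ sg a = -1)) ∨ (ix a = m ∧ sg a = 0)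
  ix_ν : ∀ a, ix (ν a) = ix a
  sg_ν : ∀ a, sg (ν a) = - sg a
  ix_p : ∀ i < m, ix (p i) = i
  sg_p : ∀ i < m, sg (p i) = 1
  hm : 2 + δ ≤ m
  ty : (ε = 1 ∧ δ = 0 ∧ sg z = 0) ∨ ((ε = -1 ∧ δ = 0 ∨ ε = 1 ∧ δ = 1) ∧ z = p (m - 1) ∧ ∀ a, sg a ≠ 0)

namespace CD

variable {m : ℕ} {J : Type} (C : CD m J)

theorem eq_iff (a b : J) : a = b ↔ C.ix a = C.ix b ∧ C.sg a = C.sg b := ⟨fun h => h ▸ ⟨rfl, rfl⟩, fun h => C.ext a b h.1 h.2⟩

@[simp] theorem νν (a : J) : C.ν (C.ν a) = a := C.ext _ _ (by simp [C.ix_ν]) (by simp [C.sg_ν])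

theorem ν_inj {a b : J} : C.ν a = C.ν b ↔ a = b := ⟨fun h => by rw [← C.νν a, h, C.νν], fun h => h ▸ rfl⟩

/-- weights -/
def wt (a : J) : Fin m → ℤ := fun k => if (k : ℕ) = C.ix a then C.sg a else 0

theorem wt_ν (a : J) : C.wt (C.ν a) = - C.wt a := by
  ext k; simp only [wt, C.ix_ν, C.sg_ν, Pi.neg_apply]; split_ifs <;> simp

theorem dot (a b : J) : C.wt a ⬝ᵥ C.wt b = if C.ix a = C.ix b then C.sg a * C.sg b else 0 := by
  rcases C.sgc a with ⟨h, -⟩ | ⟨-, h⟩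
  · rw [dotProduct, Finset.sum_eq_single ⟨_, h⟩ (fun k _ hk => by
      rw [wt, if_neg fun e => hk (Fin.ext e), zero_mul]) (by simp)]
    simp [wt]
  · simp [dotProduct, wt, h]

theorem psum_wt (a : J) (i : Fin m) : psum (C.wt a) i = if C.ix a ≤ i then C.sg a else 0 := by
  rcases C.sgc a with ⟨h, -⟩ | ⟨-, h⟩
  · simp only [psum, LinearMap.coe_mk, AddHom.coe_mk, wt]
    rw [Finset.sum_eq_single ⟨_, h⟩ (fun k _ hk => by rw [if_neg fun e : (k : ℕ) = _ => hk (Fin.ext e), ite_self])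
      (by simp)]
    simp
  · simp [psum, wt, h]

theorem pair {a b c d : J} (h : C.wt a + C.wt b = C.wt c + C.wt d) (h0 : a ≠ C.ν b) :
    (a = c ∧ b = d) ∨ (a = d ∧ b = c) := by
  have ha := C.sgc a
  have hb := C.sgc b
  have hc := C.sgc c
  have hd := C.sgc d
  have k : ∀ k : ℕ, (if k = C.ix a then C.sg a else 0) + (if k = C.ix b then C.sg b else 0) =
      (if k = C.ix c then C.sg c else 0) + (if k = C.ix d then C.sg d else 0) := fun k => by
    by_cases hk : k < m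
    · exact congrFun h ⟨k, hk⟩
    · split_ifs <;> omega
  have h1 := k (C.ix a)
  have h2 := k (C.ix b)
  have h3 := k (C.ix c)
  have h4 := k (C.ix d)
  simp only [Ne, C.eq_iff, C.ix_ν, C.sg_ν, if_true, @eq_comm _ (C.ix b) (C.ix a), @eq_comm _ (C.ix c) (C.ix a),
    @eq_comm _ (C.ix d) (C.ix a), @eq_comm _ (C.ix c) (C.ix b), @eq_comm _ (C.ix d) (C.ix b),
    @eq_comm _ (C.ix d) (C.ix c)] at h0 h1 h2 h3 h4 ⊢
  split_ifs at h1 h2 h3 h4 <;> omega

/-- the roots -/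
abbrev Φ : Type := {r : J × J // C.ix r.1 < C.ix r.2 ∨ (C.ε = -1 ∧ r.1 = r.2)}

variable {C}

theorem Φ.sg1 (r : C.Φ) : C.ix r.1.1 < m ∧ (C.sg r.1.1 = 1 ∨ C.sg r.1.1 = -1) := by
  have := C.sgc r.1.1
  have := C.sgc r.1.2
  rcases r.2 with h | ⟨h, -⟩
  · omega
  · rcases C.ty with k | ⟨-, -, k⟩
    · omega
    · have := k r.1.1; omega

theorem Φ.le (r : C.Φ) : C.ix r.1.1 ≤ C.ix r.1.2 := by
  rcases r.2 with h | ⟨-, h⟩
  exacts [h.le, h ▸ le_rfl]

theorem Φ.ne1 (r : C.Φ) : r.1.1 ≠ C.ν r.1.2 := by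
  have := r.sg1
  rcases r.2 with h | ⟨-, h⟩
  · simp only [Ne, C.eq_iff, C.ix_ν]; omega
  · simp only [← h, Ne, C.eq_iff, C.sg_ν]; omega

theorem Φ.ne2 (r : C.Φ) : C.ν r.1.1 ≠ r.1.2 := fun h => r.ne1 (by rw [← h, C.νν])

theorem Φ.ne3 (r : C.Φ) : C.ν r.1.1 ≠ r.1.1 := by
  have := r.sg1
  simp only [Ne, C.eq_iff, C.sg_ν]; omega

variable (C) [DecidableEq J]

/-- Gram coefficients -/
def γ (a : J) : ℤ := if C.ε = 1 then 2 - C.sg a ^ 2 else C.sg a

/-- first coefficient -/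
def c1 (a b : J) : ℤ := if C.ε = 1 then C.sg a * (2 - C.sg b ^ 2) else if C.sg a = C.sg b then 1 else C.sg b

/-- second coefficient -/
def c2 (a b : J) : ℤ := if C.ε = 1 then - C.sg a else if a = b then 0 else if C.sg a = C.sg b then 1 else C.sg a

/-- simple roots -/
def sm (i : Fin m) : C.Φ :=
  if h : (i : ℕ) + 1 < m then ⟨(C.p i, C.ν (C.p (i + 1))), Or.inl (by rw [C.ix_ν, C.ix_p _ h, C.ix_p _ i.2]; omega)⟩
  else ⟨(C.p (m - 1 - C.δ), C.z), by
    have := C.hm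
    have h1 := C.ix_p (m - 1 - C.δ) (by omega)
    have h2 := C.ix_p (m - 1) (by omega)
    have := C.sgc C.z
    rcases C.ty with k | ⟨k | k, k1, -⟩
    · left; dsimp only; omega
    · right; simp [k.1, k.2, k1]
    · left; rw [k1]; dsimp only; omega⟩

/-- root vectors -/
def v (r : C.Φ) : Fin m → ℤ := C.wt r.1.1 + C.wt r.1.2

/-- last index -/
def lst : Fin m := ⟨m - 1, by have := C.hm; omega⟩

/-- correction -/
def w (j : Fin m) : ℤ := if (j : ℕ) + 1 = m then C.sg C.z else if (j : ℕ) + 2 = m then C.δ else 0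

theorem zc : (C.sg C.z = 0 ∧ C.ix C.z = m ∧ C.δ = 0) ∨ (C.sg C.z = 1 ∧ C.ix C.z + 1 = m ∧ C.δ ≤ 1 ∧ ∀ a, C.sg a ≠ 0) := by
  have := C.hm
  have := C.sgc C.z
  rcases C.ty with k | ⟨k, k1, k2⟩
  · omega
  · exact Or.inr ⟨by rw [k1, C.sg_p _ (by omega)], by rw [k1, C.ix_p _ (by omega)]; omega, by omega, k2⟩

theorem psum_sm (i j : Fin m) : psum (C.v (C.sm i)) j = uv i j + if i = C.lst then C.w j else 0 := by
  have := C.hm
  have := i.2
  have := j.2
  unfold sm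
  split_ifs with h h1 h1
  · simp [lst, Fin.ext_iff] at h1; omega
  · simp only [v, map_add, Pi.add_apply, psum_wt, C.ix_ν, C.sg_ν, C.ix_p _ h, C.sg_p _ h, C.ix_p _ i.2, C.sg_p _ i.2,
      uv_apply, Fin.ext_iff]
    split_ifs <;> omega
  · simp only [v, map_add, Pi.add_apply, psum_wt, C.ix_p (m - 1 - C.δ) (by omega), C.sg_p (m - 1 - C.δ) (by omega),
      uv_apply, Fin.ext_iff, w]
    rcases C.zc with k | ⟨k1, k2, k3, -⟩ <;> split_ifs <;> omega
  · simp [lst, Fin.ext_iff] at h1; omega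

theorem psum_comb (c : Fin m → ℤ) (j : Fin m) : psum (∑ i, c i • C.v (C.sm i)) j = c j + c C.lst * C.w j := by
  simp only [map_sum, map_smul, Finset.sum_apply, Pi.smul_apply, psum_sm, smul_eq_mul, mul_add, Finset.sum_add_distrib,
    uv_apply, mul_ite, mul_one, mul_zero, Finset.sum_ite_eq, Finset.sum_ite_eq', Finset.mem_univ, if_true]

/-- coordinates -/
def vec (r : C.Φ) (i : Fin m) : ℤ := psum (C.v r) i - (C.sg r.1.1 + C.sg r.1.2) / (1 + C.sg C.z) * C.w i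

theorem vec_lst (r : C.Φ) : C.vec r C.lst = (C.sg r.1.1 + C.sg r.1.2) / (1 + C.sg C.z) := by
  have := C.hm
  have := r.sg1
  have := C.sgc r.1.2
  rw [vec, w, if_pos (by simp [lst]; omega)]
  simp only [v, map_add, Pi.add_apply, psum_wt, lst]
  rcases C.zc with ⟨k, -⟩ | ⟨k, -, -, k1⟩
  · rw [k]; split_ifs <;> omega
  · have := k1 r.1.2
    rw [k]; split_ifs <;> omega

/-- root matrices -/
def e (r : C.Φ) : Matrix J J ℤ := single r.1.1 (C.ν r.1.2) (C.c1 r.1.1 r.1.2) + single r.1.2 (C.ν r.1.1) (C.c2 r.1.1 r.1.2)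

/-- negative root -/
def neg (r : C.Φ) : C.Φ := ⟨(C.ν r.1.1, C.ν r.1.2), by simpa [C.ix_ν, C.ν_inj] using r.2⟩

theorem diag (a : J) : diagonal (fun c => C.wt a ⬝ᵥ C.wt c) = single a a 1 - single (C.ν a) (C.ν a) 1 := by
  ext x y
  have := C.sgc a
  have := C.sgc x
  by_cases h : x = y
  · subst h
    simp only [diagonal_apply_eq, dot, Matrix.sub_apply, single_apply, and_self, C.eq_iff _ x, C.ix_ν, C.sg_ν]
    rcases C.sgc a with ⟨-, k | k⟩ | ⟨-, k⟩ <;> rw [k] <;> split_ifs <;> omega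
  · simp [h, single_apply_of_ne, fun c => show ¬ (c = x ∧ c = y) from fun e => h (e.1.symm.trans e.2)]

theorem εc : C.ε = 1 ∨ (C.ε = -1 ∧ ∀ a, C.sg a = 1 ∨ C.sg a = -1) := by
  rcases C.ty with k | ⟨k | k, -, k2⟩
  exacts [Or.inl k.1, Or.inr ⟨k.1, fun a => by have := C.sgc a; have := k2 a; omega⟩, Or.inl k.1]

theorem γ_ne (a : J) : C.γ a ≠ 0 := by
  unfold γ
  rcases C.εc with k | ⟨k, k1⟩
  · rcases C.sgc a with ⟨-, h | h⟩ | ⟨-, h⟩ <;> simp [k, h]
  · rcases k1 a with h | h <;> simp [k, h]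

theorem cc {r : C.Φ} (h : r.1.1 ≠ r.1.2) :
    C.c1 r.1.1 r.1.2 * C.c2 (C.ν r.1.1) (C.ν r.1.2) = 2 - C.sg r.1.2 ^ 2 ∧
    C.c2 r.1.1 r.1.2 * C.c1 (C.ν r.1.1) (C.ν r.1.2) = 2 - C.sg r.1.2 ^ 2 ∧
    C.c2 r.1.1 r.1.2 * C.c2 r.1.1 r.1.2 = 1 ∧
    C.γ (C.ν r.1.1) * C.c1 r.1.1 r.1.2 + C.γ r.1.2 * C.c2 r.1.1 r.1.2 = 0 ∧
    C.c1 (C.ν r.1.1) (C.ν r.1.2) = (2 - C.sg r.1.2 ^ 2) * C.c2 r.1.1 r.1.2 ∧
    (2 - C.sg r.1.2 ^ 2) * C.c2 (C.ν r.1.1) (C.ν r.1.2) = C.c1 r.1.1 r.1.2 ∧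
    (C.sg r.1.2 = 0 → C.c1 r.1.1 r.1.2 * C.c2 r.1.1 r.1.2 = -2) := by
  simp only [c1, c2, γ, C.sg_ν, C.ν_inj, h, if_false]
  rcases C.εc with k | ⟨k, k1⟩
  · rcases r.sg1.2 with h1 | h1 <;> rcases C.sgc r.1.2 with ⟨-, h2 | h2⟩ | ⟨-, h2⟩ <;> simp [k, h1, h2]
  · rcases k1 r.1.1 with h1 | h1 <;> rcases k1 r.1.2 with h2 | h2 <;> simp [k, h1, h2]

theorem e_long {r : C.Φ} (h : r.1.1 = r.1.2) : C.ε = -1 ∧ C.e r = single r.1.1 (C.ν r.1.1) 1 := by
  have k : C.ε = -1 := by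
    rcases r.2 with k | k
    exacts [absurd k (by rw [h]; omega), k.1]
  simp [e, c1, c2, ← h, k]

theorem lt_of_ne {r : C.Φ} (h : r.1.1 ≠ r.1.2) : C.ix r.1.1 < C.ix r.1.2 := r.2.resolve_right fun k => h k.2

variable [Fintype J]

/-- Gram matrix -/
def Γ : Matrix J J ℤ := of fun b a => if b = C.ν a then C.γ a else 0

theorem mem_iff (x : Matrix J J ℤ) : xᵀ * C.Γ + C.Γ * x = 0 ↔ ∀ a b, C.γ (C.ν a) * x a (C.ν b) + C.γ b * x b (C.ν a) = 0 := by
  have k : ∀ a b, (xᵀ * C.Γ + C.Γ * x) (C.ν b) (C.ν a) = C.γ (C.ν a) * x a (C.ν b) + C.γ b * x b (C.ν a) := fun a b => by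
    simp [Γ, mul_apply, C.ν_inj, mul_comm]
  refine ⟨fun h a b => by rw [← k, h]; rfl, fun h => Matrix.ext fun b a => ?_⟩
  rw [← C.νν a, ← C.νν b, k, h]; rfl

theorem len (r : C.Φ) : C.v r ⬝ᵥ C.v r = if r.1.1 = r.1.2 then 4 else 1 + C.sg r.1.2 ^ 2 := by
  simp only [v, add_dotProduct, dotProduct_add, dot, if_true]
  by_cases h : r.1.1 = r.1.2
  · rw [← h]; rcases r.sg1.2 with k | k <;> simp [k]
  · have := C.lt_of_ne h
    rcases r.sg1.2 with k | k <;> simp [k, sq, h, this.ne, this.ne']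

theorem γ_ν (a : J) : C.γ (C.ν a) = C.ε * C.γ a := by
  rcases C.εc with k | ⟨k, -⟩ <;> simp [γ, k, C.sg_ν]

theorem e_apply {r : C.Φ} (k : r.1.1 ≠ r.1.2) (x y : J) : C.e r x (C.ν y) = if r.1.1 = x ∧ r.1.2 = y then C.c1 r.1.1 r.1.2
    else if r.1.2 = x ∧ r.1.1 = y then C.c2 r.1.1 r.1.2 else 0 := by
  simp only [e, Matrix.add_apply, single_apply, C.ν_inj]
  split_ifs with h1 h2 <;> simp
  exact absurd (h1.1.trans h2.1.symm) k

theorem exists_root {a b : J} (h : a ≠ C.ν b) (h1 : a = b → C.ε = -1) : ∃ r : C.Φ, r.1 = (a, b) ∨ r.1 = (b, a) := by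
  rcases lt_trichotomy (C.ix a) (C.ix b) with k | k | k
  · exact ⟨⟨(a, b), Or.inl k⟩, Or.inl rfl⟩
  · have : a = b := by
      have := C.sgc a
      have := C.sgc b
      simp only [Ne, C.eq_iff, C.ix_ν, C.sg_ν] at h ⊢
      omega
    exact ⟨⟨(a, b), Or.inr ⟨h1 this, this⟩⟩, Or.inl rfl⟩
  · exact ⟨⟨(b, a), Or.inl k⟩, Or.inr rfl⟩

theorem sq_eq (r : C.Φ) : C.e r * C.e r = (2 : ℤ) • if C.sg r.1.2 = 0 then single r.1.1 (C.ν r.1.1) (-1) else 0 := by
  by_cases k : r.1.1 = r.1.2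
  · have := r.sg1
    rw [(C.e_long k).2, single_mul_single_of_ne _ _ _ _ r.ne3, if_neg (by rw [← k]; omega), smul_zero]
  · simp only [e, mul_add, add_mul, single_mul_single_of_ne _ _ _ _ r.ne1.symm, single_mul_single_of_ne _ _ _ _ r.ne2,
      single_mul_single_of_ne _ _ _ _ r.ne3, zero_add, add_zero]
    split_ifs with h
    · have : C.ν r.1.2 = r.1.2 := C.ext _ _ (C.ix_ν _) (by rw [C.sg_ν, h, neg_zero])
      rw [this, single_mul_single_same, (C.cc k).2.2.2.2.2.2 h, smul_single]; rfl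
    · rw [single_mul_single_of_ne, smul_zero]
      have := C.sgc r.1.2
      simp only [Ne, C.eq_iff, C.sg_ν]; omega

/-- the root datum -/
def rd : RD m (Fin m) C.Φ J where
  v := C.v
  inj r s h := by
    rcases C.pair h r.ne1 with k | k
    · exact Subtype.ext (Prod.ext k.1 k.2)
    · have h1 := r.le
      have h2 := s.le
      rcases r.2 with k1 | ⟨-, k1⟩
      · rw [← k.1, ← k.2] at h2; omega
      · exact Subtype.ext (Prod.ext (k1.trans k.2) (k1.symm.trans k.1))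
  neg := C.neg
  v_neg r := by simp [v, neg, wt_ν, add_comm]
  a := if C.ε = 1 then 1 else 2
  a_pos := by split_ifs <;> norm_num
  nrm r := by
    rw [len]
    by_cases h : r.1.1 = r.1.2
    · simp [h, (C.e_long h).1]
    · rcases C.εc with k | ⟨k, k1⟩
      · rcases C.sgc r.1.2 with ⟨-, h2 | h2⟩ | ⟨-, h2⟩ <;> simp [k, h, h2]
      · rcases k1 r.1.2 with h2 | h2 <;> simp [k, h, h2]
  sm := C.sm
  vec := C.vec
  v_eq r := sub_eq_zero.1 (psum_inj (funext fun j => by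
    rw [map_sub, Pi.sub_apply, psum_comb, vec_lst, vec]; simp))
  indep c h := by
    have k : ∀ j, c j + c C.lst * C.w j = 0 := fun j => by rw [← psum_comb, h]; simp
    have k1 := k C.lst
    have := C.hm
    rw [w, if_pos (by simp [lst]; omega)] at k1
    have k2 : c C.lst = 0 := by rcases C.zc with ⟨h, -⟩ | ⟨h, -⟩ <;> rw [h] at k1 <;> omega
    exact funext fun j => by simpa [k2] using k j
  pos_or_neg r := by
    have h1 := r.le
    have h2 := C.sgc r.1.2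
    have h3 : C.δ = 1 → C.ix r.1.1 < C.ix r.1.2 := fun h => r.2.resolve_right fun k => by
      rcases C.ty with k1 | ⟨k1, -⟩ <;> omega
    simp only [vec, v, map_add, Pi.add_apply, psum_wt, w]
    refine r.sg1.2.imp (fun h i => ?_) fun h i => ?_
    all_goals
      have := i.2
      have := r.sg1.1
      rcases C.zc with ⟨k, -, k1⟩ | ⟨k, -, k1, k2⟩
      · rw [k, k1]; split_ifs <;> omega
      · have := k2 r.1.2
        rcases Nat.le_one_iff_eq_zero_or_eq_one.1 k1 with k1 | k1 <;> rw [k, k1] <;> rw [k1] at h3 <;>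
          split_ifs <;> omega
  two_le := by have := C.hm; omega
  noiso i := by
    have := C.hm
    have hz := C.zc
    have hi := i.2
    have hp : ∀ i < m, C.ix (C.p i) = i := C.ix_p
    have hs : ∀ i < m, C.sg (C.p i) = 1 := C.sg_p
    by_cases h : (i : ℕ) + 1 < m
    · by_cases h0 : (i : ℕ) = 0
      · refine ⟨⟨1, by omega⟩, fun e => by simp [← e] at h0, ?_⟩
        by_cases h2 : 2 < m
        · simp [sm, h0, h2, v, dot, C.ix_ν, C.sg_ν, hp, hs, show 0 < m by omega, show 1 < m by omega]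
        · obtain rfl : m = 2 := by omega
          have k : C.δ = 0 := by omega
          rcases hz with hz | ⟨k1, k2, -⟩
          · simp [sm, h0, v, dot, C.ix_ν, C.sg_ν, hp, hs, k, hz]
          · simp [sm, h0, v, dot, C.ix_ν, C.sg_ν, hp, hs, k, k1, show C.ix C.z = 1 by omega]
      · refine ⟨⟨i - 1, by omega⟩, fun e => by simp [Fin.ext_iff] at e; omega, ?_⟩
        simp only [sm, dif_pos h, dif_pos (show (i : ℕ) - 1 + 1 < m by omega), v, add_dotProduct, dotProduct_add, dot,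
          C.ix_ν, C.sg_ν, hp _ h, hs _ h, hp _ hi, hs _ hi, hp (i - 1) (by omega), hs (i - 1) (by omega),
          hp (i - 1 + 1) (by omega), hs (i - 1 + 1) (by omega)]
        split_ifs <;> omega
    · refine ⟨⟨m - 2 - C.δ, by omega⟩, fun e => by simp [Fin.ext_iff] at e; omega, ?_⟩
      simp only [sm, dif_neg h, dif_pos (show m - 2 - C.δ + 1 < m by omega), v, add_dotProduct, dotProduct_add, dot,
        C.ix_ν, C.sg_ν, hp (m - 1 - C.δ) (by omega), hs (m - 1 - C.δ) (by omega), hp (m - 2 - C.δ) (by omega),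
        hs (m - 2 - C.δ) (by omega), hp (m - 2 - C.δ + 1) (by omega), hs (m - 2 - C.δ + 1) (by omega)]
      rcases hz with hz | ⟨k1, k2, k3, -⟩ <;> split_ifs <;> omega
  wt := C.wt
  pr r c := if r.1.1 = r.1.2 then C.wt r.1.1 ⬝ᵥ C.wt c else (2 - C.sg r.1.2 ^ 2) * (C.v r ⬝ᵥ C.wt c)
  pr_eq r c := by
    rw [len]
    split_ifs with h
    · rw [v, ← h, add_dotProduct]; ring
    · rcases C.sgc r.1.2 with ⟨-, h2 | h2⟩ | ⟨-, h2⟩ <;> rw [h2] <;> ring
  e := C.e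
  e2 r := if C.sg r.1.2 = 0 then single r.1.1 (C.ν r.1.1) (-1) else 0
  e_ne r h := by
    by_cases k : r.1.1 = r.1.2
    · simpa [(C.e_long k).2] using congrFun (congrFun h r.1.1) (C.ν r.1.1)
    · have := congrFun (congrFun h r.1.2) (C.ν r.1.1)
      have h2 := (C.cc k).2.2.1
      simp [e, k] at this
      simp [this] at h2
  e_wt r a b h := by
    by_cases h1 : r.1.1 = a ∧ C.ν r.1.2 = b
    · rw [← h1.1, ← h1.2, wt_ν, v]; abel
    · by_cases h2 : r.1.2 = a ∧ C.ν r.1.1 = b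
      · rw [← h2.1, ← h2.2, wt_ν, v]; abel
      · simp [e, single_apply, h1, h2] at h
  br_neg r := by
    by_cases k : r.1.1 = r.1.2
    · rw [(C.e_long k).2, (C.e_long (r := C.neg r) (congrArg C.ν k)).2]
      simp only [k, if_true, diag, neg, νν, single_mul_single_same, mul_one]
    · obtain ⟨h1, h2, -⟩ := C.cc k
      have : (diagonal fun c => (2 - C.sg r.1.2 ^ 2) * (C.v r ⬝ᵥ C.wt c)) = (2 - C.sg r.1.2 ^ 2) •
          ((diagonal fun c => C.wt r.1.1 ⬝ᵥ C.wt c) + diagonal fun c => C.wt r.1.2 ⬝ᵥ C.wt c) := by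
        rw [diagonal_add, ← diagonal_smul]; congr; ext c; simp [v]
      simp only [k, if_false, this, diag, e, neg, νν, mul_add, add_mul, single_mul_single_same, h1, h2,
        single_mul_single_of_ne _ _ _ _ (C.ν_inj.not.2 k), single_mul_single_of_ne _ _ _ _ (C.ν_inj.not.2 (Ne.symm k)),
        single_mul_single_of_ne _ _ _ _ k, single_mul_single_of_ne _ _ _ _ (Ne.symm k), mul_comm (C.c1 (C.ν _) _),
        mul_comm (C.c2 (C.ν _) _), smul_add, smul_sub, smul_single, smul_eq_mul, mul_one]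
      abel
  g := {x | xᵀ * C.Γ + C.Γ * x = 0}
  e_mem r := (C.mem_iff _).2 fun a b => by
    by_cases k : r.1.1 = r.1.2
    · obtain ⟨h1, h2⟩ := C.e_long k
      simp only [h2, single_apply, C.ν_inj, γ, h1, C.sg_ν]
      by_cases h : r.1.1 = a ∧ r.1.1 = b
      · simp [← h.1, ← h.2]
      · simp [h, mt And.symm h]
    · have h4 := (C.cc k).2.2.2.1
      simp only [C.e_apply k, @and_comm (r.1.1 = b), @and_comm (r.1.2 = b)]
      split_ifs with h1 h2 h2
      · exact absurd (h1.1.trans h2.1.symm) k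
      · rw [← h1.1, ← h1.2, h4]
      · rw [← h2.1, ← h2.2, γ_ν]
        rw [γ_ν] at h4
        rcases C.εc with k | ⟨k, -⟩ <;> simp only [k] at h4 ⊢ <;> linarith
      · simp
  br_mem x hx y hy := by
    have h1 : xᵀ * C.Γ = - (C.Γ * x) := eq_neg_of_add_eq_zero_left hx
    have h2 : yᵀ * C.Γ = - (C.Γ * y) := eq_neg_of_add_eq_zero_left hy
    change _ = _
    rw [transpose_sub, transpose_mul, transpose_mul, sub_mul, mul_assoc, mul_assoc, h1, h2, mul_neg, mul_neg,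
      ← mul_assoc, ← mul_assoc, h1, h2]
    noncomm_ring
  wsp x hx μ h0 h := by
    by_cases h1 : x = 0
    · exact Or.inl h1
    obtain ⟨a, b, h2⟩ : ∃ a b, x a (C.ν b) ≠ 0 := by
      by_contra! h2; exact h1 (Matrix.ext fun a b => by rw [← C.νν b, h2]; rfl)
    have hx := (C.mem_iff x).1 hx
    have k : ∀ a b, x a (C.ν b) ≠ 0 → μ = C.wt a + C.wt b := fun a b h2 => by rw [h _ _ h2, wt_ν]; abel
    have h3 : a ≠ C.ν b := by rintro rfl; exact h0 (by rw [k _ _ h2, wt_ν, neg_add_cancel])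
    obtain ⟨r, hr⟩ := C.exists_root h3 fun e => by
      subst e
      have := hx a a
      rw [γ_ν] at this
      refine C.εc.elim (fun k => ?_) And.left
      rw [k, one_mul, ← two_mul] at this
      exact absurd this (mul_ne_zero two_ne_zero (mul_ne_zero (C.γ_ne a) h2))
    have h4 : C.v r = μ := by rcases hr with hr | hr <;> simp [v, hr, k _ _ h2, add_comm]
    have h5 : ∀ c d, ¬ (r.1.1 = c ∧ r.1.2 = d) → ¬ (r.1.2 = c ∧ r.1.1 = d) → x c (C.ν d) = 0 := fun c d k1 k2 => by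
      by_contra k3
      exact (C.pair (h4.trans (k _ _ k3)) r.ne1).elim k1 fun e => k2 e.symm
    refine Or.inr ⟨r, h4, ?_⟩
    by_cases e : r.1.1 = r.1.2
    · refine ⟨x r.1.1 (C.ν r.1.1), Matrix.ext fun c d => ?_⟩
      rw [← C.νν d, (C.e_long e).2]
      by_cases k1 : r.1.1 = c ∧ r.1.1 = C.ν d
      · simp [← k1.1, ← k1.2]
      · rw [h5 _ _ (e ▸ k1) (e ▸ k1), Matrix.smul_apply, single_apply, if_neg (by rwa [C.ν_inj]), smul_zero]
    · refine ⟨C.c2 r.1.1 r.1.2 * x r.1.2 (C.ν r.1.1), Matrix.ext fun c d => ?_⟩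
      obtain ⟨-, -, k3, k4, -⟩ := C.cc e
      rw [← C.νν d, Matrix.smul_apply, C.e_apply e, smul_eq_mul]
      split_ifs with k1 k2
      · rw [← k1.1, ← k1.2]
        refine mul_left_cancel₀ (C.γ_ne (C.ν r.1.1)) ?_
        linear_combination hx r.1.1 r.1.2 - C.c2 r.1.1 r.1.2 * x r.1.2 (C.ν r.1.1) * k4 +
          C.γ r.1.2 * x r.1.2 (C.ν r.1.1) * k3
      · rw [← k2.1, ← k2.2]
        linear_combination - x r.1.2 (C.ν r.1.1) * k3
      · rw [h5 _ _ k1 k2, mul_zero]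
  dd a := 2 - C.sg a ^ 2
  dd_ne a := by rcases C.sgc a with ⟨-, h | h⟩ | ⟨-, h⟩ <;> simp [h]
  e_neg r a b := by
    have h0 : 2 - C.sg r.1.1 ^ 2 = 1 := by rcases r.sg1.2 with h | h <;> simp [h]
    by_cases k : r.1.1 = r.1.2
    · rw [(C.e_long k).2, (C.e_long (r := C.neg r) (congrArg C.ν k)).2]
      simp only [neg, νν, single_apply, @and_comm (r.1.1 = b)]
      split_ifs with h
      · rw [← h.1, ← h.2, C.sg_ν, neg_sq]
      · simp
    · obtain ⟨-, -, -, -, k1, k2, -⟩ := C.cc k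
      rw [← C.νν a, ← C.νν b, C.e_apply k, C.e_apply (r := C.neg r) (C.ν_inj.not.2 k)]
      simp only [neg, νν, C.ν_inj, @and_comm (r.1.1 = b), @and_comm (r.1.2 = b), C.sg_ν, neg_sq,
        fun x => show C.ν x = a ↔ x = C.ν a from ⟨fun h => by rw [← h, νν], fun h => by rw [h, νν]⟩]
      have h1 : ∀ {c}, c = C.ν a → C.sg a ^ 2 = C.sg c ^ 2 := by rintro _ rfl; rw [C.sg_ν, neg_sq]
      split_ifs with h2 h3 h3
      · exact absurd (h3.2.trans h2.2.symm) k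
      · rw [h1 h2.1, h0, k1, one_mul, h2.2]
      · rw [h1 h3.1, k2, ← h3.2, h0, one_mul]
      · simp
  sq := C.sq_eq
  cube r := by
    split_ifs with h
    · simp only [e, add_mul, single_mul_single_of_ne _ _ _ _ r.ne1.symm, single_mul_single_of_ne _ _ _ _ r.ne3, add_zero]
    · exact mul_zero _

end CD

end CfsgH6
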