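import Mathlib
import Cfsg.Agent.H6.RD3
import Cfsg.Agent.H6.Univ3

/-! Commutator relations and Schur multipliers for covers given by root data. -/

set_option autoImplicit false

namespace CfsgH6

open Matrix Cfsg.Lie
open scoped commutatorElement

namespace RD

variable {l n : ℕ} {ι J : Type} [Fintype ι] [Fintype J] [DecidableEq J] {R : RD l ι (Fin n) J}

theorem terms_none {r s : Fin n} (h : ∀ k, R.v k ≠ R.v r + R.v s) : R.D.commTerms r s = [] := by
  have h' : ∀ k, R.v k ≠ R.v s + R.v r := by simpa [add_comm] using h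
  simp [ChevalleyDatum.commTerms, R.cr_none h, R.cr_none h']

theorem terms_one {r s k : Fin n} (h : R.v k = R.v r + R.v s) (h1 : ∀ k', R.v k' ≠ R.v r + R.v k)
    (h2 : ∀ k', R.v k' ≠ R.v s + R.v k) : R.D.commTerms r s = [((k : ℕ), R.N r s, 1, 1)] := by
  simp [ChevalleyDatum.commTerms, (R.cr_one h).1, R.cM_one, R.cr_two_none h h1, R.cr_two_none (R.sum_comm h) h2,
    R.cr_three]

theorem not_both {r s k k' : Fin n} (h : R.v k = R.v r + R.v s) (h1 : R.v k' = R.v r + R.v k) (k'' : Fin n) :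
    R.v k'' ≠ R.v s + R.v k := fun h2 => by
  have a := R.three h h1
  have b := R.three (R.sum_comm h) h2
  have := R.a_pos
  omega

theorem terms_two {r s k k' : Fin n} (h : R.v k = R.v r + R.v s) (h1 : R.v k' = R.v r + R.v k) :
    R.D.commTerms r s = [((k : ℕ), R.N r s, 1, 1), ((k' : ℕ), R.N r s * R.N r k / 2, 2, 1)] := by
  simp [ChevalleyDatum.commTerms, (R.cr_one h).1, R.cM_one, (R.cr_two h h1).1, (R.cr_two h h1).2,
    R.cr_two_none (R.sum_comm h) (not_both h h1), R.cr_three]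

theorem terms_two' {r s k k' : Fin n} (h : R.v k = R.v r + R.v s) (h1 : R.v k' = R.v s + R.v k) :
    R.D.commTerms r s = [((k : ℕ), R.N r s, 1, 1), ((k' : ℕ), R.N s r * R.N s k / 2, 1, 2)] := by
  simp [ChevalleyDatum.commTerms, (R.cr_one h).1, R.cM_one, (R.cr_two (R.sum_comm h) h1).1, (R.cr_two (R.sum_comm h) h1).2,
    R.cr_two_none h (not_both (R.sum_comm h) h1), R.cr_three]

theorem two_unit {r s k k' : Fin n} (h : R.v k = R.v r + R.v s) (h1 : R.v k' = R.v r + R.v k) :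
    (R.N r s = 1 ∨ R.N r s = -1) ∧ (R.N r s * R.N r k / 2 = 1 ∨ R.N r s * R.N r k / 2 = -1) := by
  have a := R.N_first h fun m => (R.no_four h h1 m).2
  refine ⟨a, ?_⟩
  rcases a with a | a <;> rcases R.N_mid h h1 with b | b <;> simp [a, b]

variable (S : R.Sorted)

theorem Sorted.rf_eq (r s : Fin n) : S.good.rf r s = R.rf r s :=
  R.vec_inj fun i => by
    have := S.good.rf_vec r s i
    rw [S.vec_eq, S.A_eq] at this
    rw [this]
    exact (R.vec_comb.1 (by rw [R.v_rf]; module) i).symm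

variable {S} {F : Type*} [Field F] {Γ : Type*} [Group Γ] (C : Cover S.good F Γ)

theorem Sorted.cmm {r s : Fin n} (h0 : R.v r + R.v s ≠ 0) (h : ∀ k, R.v k ≠ R.v r + R.v s) : C.Cmm r s :=
  C.cmm_of_nil (fun e => h0 (by rw [e, ← S.neg_rev, R.v_neg, add_neg_cancel])) (terms_none h)

theorem Sorted.nil2 (S : R.Sorted) {r s : Fin n} (h0 : R.v r + R.v s ≠ 0) (h : ∀ k, R.v k ≠ R.v r + R.v s) : Nil2 R.D r s :=
  ⟨fun e => h0 (by rw [e, ← S.neg_rev, R.v_neg, add_neg_cancel]), terms_none h⟩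

theorem Sorted.comm_one {r s k : Fin n} (h : R.v k = R.v r + R.v s) (h1 : ∀ k', R.v k' ≠ R.v r + R.v k)
    (h2 : ∀ k', R.v k' ≠ R.v s + R.v k) (t u : F) : ⁅C.x r t, C.x s u⁆ = C.x k (R.N r s * t * u) := by
  have := C.comm_one (terms_one (R.sum_comm h) h2 h1) (-u) (-t)
  rw [C.x_neg, C.x_neg, inv_inv, inv_inv, R.N_as] at this
  rw [this]; congr 1; push_cast; ring

theorem Sorted.comm_two {r s k k' : Fin n} (h : R.v k = R.v r + R.v s) (h1 : R.v k' = R.v r + R.v k) :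
    ∃ c c' : F, c * c = 1 ∧ c' * c' = 1 ∧ ∀ t u, ⁅C.x s u, C.x r t⁆ = C.x k (c * t * u) * C.x k' (c' * t ^ 2 * u) := by
  obtain ⟨a, b⟩ := two_unit h h1
  refine ⟨-R.N r s, -(R.N r s * R.N r k / 2 : ℤ), by rcases a with a | a <;> simp [a], by rcases b with b | b <;> simp [b],
    fun t u => ?_⟩
  have := C.comm_two (terms_two h h1) (-t) (-u)
  rw [C.x_neg, C.x_neg, inv_inv, inv_inv] at this
  rw [this]; congr 2 <;> ring

end RD

universe u

variable {D : ChevalleyDatum} {G : Good D}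

theorem Cover.hom_ext_top {F : Type*} [Field F] {Γ Δ : Type*} [Group Γ] [Group Δ] (C : Cover G F Γ) (hG : C.Gr = ⊤)
    {φ ψ : Γ →* Δ} (h : ∀ r t, φ (C.x r t) = ψ (C.x r t)) : φ = ψ :=
  MonoidHom.eq_of_eqOn_dense (s := {g | ∃ r ∈ Set.univ, ∃ t, g = C.x r t}) hG (by rintro _ ⟨r, -, t, rfl⟩; exact h r t)

/-- every central extension of the Steinberg cover splits -/
def Good.Univ (G : Good D) (F : Type u) [Field F] : Prop := ∀ (E : Type u) [Group E] (π : E →* D.SteinbergCover F),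
  CExt π → ∃ y : Fin D.nroots → F → E, (∀ r t, π (y r t) = (G.sc F).x r t) ∧ Rel D y

variable {F : Type u} [Field F] [Finite F]

theorem Cover.exists_st {Γ : Type*} [Group Γ] (C : Cover G F Γ) (hG : C.Gr = ⊤) : ∃ θ : D.SteinbergGroup F →* Γ,
    Function.Surjective θ ∧ C.π.comp θ = (G.st F).π ∧ ∀ c, θ ((G.st_R3 F).τ c) = (C.R3_of_finite hG).τ c := by
  have h3 := C.R3_of_finite hG
  refine ⟨G.stLift C.rel h3, ?_, (G.st F).hom_ext_top (G.st_Gr F) fun r t => Units.ext ?_, fun c => ?_⟩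
  · rw [← MonoidHom.range_eq_top, eq_top_iff, ← hG]
    exact (Subgroup.closure_le _).2 (by rintro _ ⟨r, -, t, rfl⟩; exact ⟨_, G.stLift_x C.rel h3 r t⟩)
  · rw [MonoidHom.comp_apply, G.stLift_x C.rel h3, C.π_x, Cover.π_x]
  · rw [Cover.R3.τ_eq, Cover.R3.τ_eq, map_list_prod, List.map_map]
    congr 1
    refine List.map_congr_left fun i _ => ?_
    rw [Function.comp_apply, ← Cover.hG_eq, map_hG, ← Cover.hG_eq]
    exact congrArg (fun x => CfsgH6.hG x _ _) (funext fun r => funext fun t => G.stLift_x C.rel h3 r t)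

theorem Cover.hasSM {G₀ : Type u} [Group G₀] (C : Cover G F G₀) (hG : C.Gr = ⊤) (hπ : Function.Injective C.π)
    (hp : commutator (D.SteinbergGroup F) = ⊤) (hU : G.Univ F) {A : Type*} [CommGroup A]
    (e : Subgroup.center (D.SteinbergGroup F) ≃* A) : Cfsg.HasSchurMultiplier G₀ A := by
  have := (G.st F).finite (G.st_R3 F) (G.st_Gr F)
  obtain ⟨θ, h1, h2, -⟩ := C.exists_st hG
  have hk : θ.ker = Subgroup.center _ := by
    rw [← (G.st F).π_ker (G.st_Gr F), ← h2, ← MonoidHom.comap_ker, (MonoidHom.ker_eq_bot_iff _).2 hπ]; rfl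
  obtain ⟨f, -⟩ := G.exists_scEquiv (F := F)
  refine hasSM_of_univ ⟨h1, hk.le, hp ▸ le_top⟩ ((MulEquiv.subgroupCongr hk).trans e) fun Γ _ _ σ X => ?_
  obtain ⟨τ, h⟩ := G.lift_of_rel (hU _ _ (X.pullback (θ.comp f.toMonoidHom)))
  refine ⟨(((MonoidHom.snd _ _).comp (Subgroup.subtype _)).comp τ).comp f.symm.toMonoidHom, MonoidHom.ext fun d => ?_⟩
  refine (τ (f.symm d)).2.symm.trans ?_
  have := DFunLike.congr_fun h (f.symm d)
  simp only [MonoidHom.comp_apply, MonoidHom.id_apply, MonoidHom.coe_fst, Subgroup.coe_subtype] at this ⊢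
  rw [this]; simp

theorem Cover.exists_stEquiv {Γ : Type*} [Group Γ] (C : Cover G F Γ) (hG : C.Gr = ⊤)
    (h : Function.Injective (C.R3_of_finite hG).τ) : Nonempty (D.SteinbergGroup F ≃* Γ) := by
  obtain ⟨θ, h1, h2, h3⟩ := C.exists_st hG
  refine ⟨MulEquiv.ofBijective θ ⟨(injective_iff_map_eq_one _).2 fun a ha => ?_, h1⟩⟩
  have : a ∈ Subgroup.center _ := by
    rw [← (G.st F).π_ker (G.st_Gr F), ← h2, MonoidHom.mem_ker, MonoidHom.comp_apply, ha, map_one]
  rw [(G.st F).center_eq (G.st_Gr F) (G.st_R3 F)] at this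
  obtain ⟨c, -, rfl⟩ := this
  rw [h ((h3 c).symm.trans (ha.trans (map_one _).symm)), map_one]

end CfsgH6
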