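import Mathlib
import Cfsg.Agent.H6.PS
import Cfsg.Agent.H6.RD4
import Cfsg.Agent.H6.RC

/-! Pair systems from root data. -/

set_option autoImplicit false
set_option linter.unusedSectionVars false

namespace CfsgH6

open Matrix Cfsg.Lie
open scoped commutatorElement

namespace CD

variable {m : ℕ} {J : Type} (C : CD m J)

theorem dot_self {a : J} (h : C.sg a ≠ 0) : C.wt a ⬝ᵥ C.wt a = 1 := by
  rcases C.sgc a with ⟨-, k | k⟩ | ⟨-, k⟩ <;> simp_all [dot]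

theorem dot_ne {a b : J} (h : C.ix a ≠ C.ix b) : C.wt a ⬝ᵥ C.wt b = 0 := by simp [dot, h]

theorem no3 {e f a b c : J} {x : Fin m → ℤ} (hx : C.wt e + C.wt f = x) (h1 : C.ix a ≠ C.ix b) (h2 : C.ix a ≠ C.ix c)
    (h3 : C.ix b ≠ C.ix c) (k1 : C.wt a ⬝ᵥ x ≠ 0) (k2 : C.wt b ⬝ᵥ x ≠ 0) (k3 : C.wt c ⬝ᵥ x ≠ 0) : False := by
  have k : ∀ a, C.wt a ⬝ᵥ x ≠ 0 → C.ix a = C.ix e ∨ C.ix a = C.ix f := fun a h => by
    by_contra! h1
    exact h (by rw [← hx, dotProduct_add, C.dot_ne h1.1, C.dot_ne h1.2, add_zero])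
  have := k a k1
  have := k b k2
  have := k c k3
  omega

theorem eq_of_ix {b c : J} (h : C.ix b = C.ix c) : b = c ∨ c = C.ν b := by
  have := C.sgc b
  have := C.sgc c
  simp only [C.eq_iff, C.ix_ν, C.sg_ν]
  omega

variable {l n : ℕ} {J₀ : Type} [Fintype J₀] [DecidableEq J₀] (R : RD l (Fin m) (Fin n) J₀)

/-- a family of pairs giving roots -/
structure Pairs (ok : J → J → Prop) : Prop where
  root : ∀ k, ∃ a b, C.wt a + C.wt b = R.v k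
  ne : ∀ {a b}, ok a b → C.ix a ≠ C.ix b
  sg : ∀ {a b}, ok a b → C.sg a ≠ 0
  ex : ∀ {a b}, ok a b → ∃ r, R.v r = C.wt a + C.wt b
  symm : ∀ {a b}, ok a b → ok b a
  neg : ∀ {a b}, ok a b → ok (C.ν a) (C.ν b)
  comp : ∀ {a b c}, ok a b → ok (C.ν b) c → C.ix a ≠ C.ix c → ok a c

/-- room for decompositions -/
def Room (ok : J → J → Prop) : Prop := ∀ {a c}, ok a c → ∀ i, ∃ b, ok a b ∧ ok (C.ν b) c ∧ C.ix b ≠ i

open Classical in
/-- the root of a pair -/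
noncomputable def ρ (a b : J) : Fin n :=
  if h : ∃ r, R.v r = C.wt a + C.wt b then h.choose else R.sm ⟨0, by have := R.two_le; omega⟩

variable {C R} {ok : J → J → Prop}

theorem ρ_eq {a b : J} {r : Fin n} (h : R.v r = C.wt a + C.wt b) : C.ρ R a b = r := by
  have k : ∃ r, R.v r = C.wt a + C.wt b := ⟨r, h⟩
  rw [ρ, dif_pos k]
  exact R.inj (k.choose_spec.trans h.symm)

namespace Pairs

variable (H : C.Pairs R ok)
include H

theorem v_ρ {a b : J} (h : ok a b) : R.v (C.ρ R a b) = C.wt a + C.wt b := by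
  obtain ⟨r, hr⟩ := H.ex h
  rwa [ρ_eq hr]

theorem ne_share {a b d : J} (h1 : ok a b) (h2 : ok a d) (h : C.ix b ≠ C.ix d) (k : Fin n) :
    R.v k ≠ C.wt a + C.wt b + (C.wt a + C.wt d) := fun e => by
  obtain ⟨x, y, hx⟩ := H.root k
  have a1 := H.ne h1
  have a2 := H.ne h2
  refine C.no3 (hx.trans e) a1 a2 h ?_ ?_ ?_ <;>
    simp [C.dot_ne, a1, a2, h, a1.symm, a2.symm, h.symm, C.dot_self, H.sg h1, H.sg (H.symm h1), H.sg (H.symm h2)]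

theorem ne_disj {a b c d : J} (h1 : ok a b) (h2 : ok c d) (a1 : C.ix a ≠ C.ix c) (a2 : C.ix a ≠ C.ix d)
    (a3 : C.ix b ≠ C.ix c) (a4 : C.ix b ≠ C.ix d) (k : Fin n) : R.v k ≠ C.wt a + C.wt b + (C.wt c + C.wt d) := fun e => by
  obtain ⟨x, y, hx⟩ := H.root k
  have a5 := H.ne h1
  have a6 := H.ne h2
  refine C.no3 (hx.trans e) a5 a1 a3 ?_ ?_ ?_ <;>
    simp [C.dot_ne, a1, a2, a3, a4, a5, a6, a1.symm, a3.symm, a5.symm, C.dot_self, H.sg h1, H.sg (H.symm h1), H.sg h2]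

theorem sum_ne {a b c d : J} (h1 : ok a b) (a1 : a ≠ C.ν c) (a2 : a ≠ C.ν d) : C.wt a + C.wt b + (C.wt c + C.wt d) ≠ 0 :=
  fun e => by
    have k : C.wt a + C.wt b = C.wt (C.ν c) + C.wt (C.ν d) := by
      rw [wt_ν, wt_ν, ← neg_add, eq_neg_iff_add_eq_zero, e]
    rcases C.pair k (fun e => H.ne h1 (by rw [e, C.ix_ν])) with k | k
    exacts [a1 k.1, a2 k.1]

theorem N_unit {a b c : J} (h1 : ok a b) (h2 : ok (C.ν b) c) (h : C.ix a ≠ C.ix c) :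
    R.v (C.ρ R a c) = R.v (C.ρ R a b) + R.v (C.ρ R (C.ν b) c) ∧
    (∀ k, R.v k ≠ R.v (C.ρ R a b) + R.v (C.ρ R a c)) ∧ (∀ k, R.v k ≠ R.v (C.ρ R (C.ν b) c) + R.v (C.ρ R a c)) ∧
    (R.N (C.ρ R a b) (C.ρ R (C.ν b) c) = 1 ∨ R.N (C.ρ R a b) (C.ρ R (C.ν b) c) = -1) := by
  have h3 := H.comp h1 h2 h
  have n2 := H.ne h2
  have e : R.v (C.ρ R a c) = R.v (C.ρ R a b) + R.v (C.ρ R (C.ν b) c) := by
    rw [H.v_ρ h1, H.v_ρ h2, H.v_ρ h3, wt_ν]; abel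
  refine ⟨e, fun k => ?_, fun k => ?_, R.N_first e fun k e => ?_⟩
  · rw [H.v_ρ h1, H.v_ρ h3]; exact H.ne_share h1 h3 (by rwa [C.ix_ν] at n2) k
  · rw [H.v_ρ h2, H.v_ρ h3, add_comm (C.wt (C.ν b)), add_comm (C.wt a)]
    exact H.ne_share (H.symm h2) (H.symm h3) (by rw [C.ix_ν]; exact (H.ne h1).symm) k
  · refine H.ne_share h2 (H.neg (H.symm h1)) (by rw [C.ix_ν]; exact h.symm) k ?_
    rw [H.v_ρ h1, H.v_ρ h2] at e
    rw [e, wt_ν, wt_ν]; abel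

variable {S : R.Sorted} {F : Type*} [Field F] {Γ : Type*} [Group Γ] (X : Cover S.good F Γ)

theorem sm {a b c : J} (h1 : ok a b) (h2 : ok (C.ν b) c) (h : C.ix a ≠ C.ix c) :
    X.Sm (C.ρ R a b) (C.ρ R (C.ν b) c) (C.ρ R a c) := by
  obtain ⟨k1, k2, k3, k4⟩ := H.N_unit h1 h2 h
  exact ⟨_, by rcases k4 with k | k <;> simp [k], RD.Sorted.comm_one X k1 k2 k3⟩

theorem cmm_share {a b d : J} (h1 : ok a b) (h2 : ok a d) (h : d ≠ C.ν b) : X.Cmm (C.ρ R a b) (C.ρ R a d) := by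
  by_cases k : C.ix b = C.ix d
  · obtain rfl := (C.eq_of_ix k).resolve_right h
    exact X.cmm_self _
  · refine RD.Sorted.cmm X ?_ fun k' => ?_ <;> rw [H.v_ρ h1, H.v_ρ h2]
    · refine H.sum_ne h1 (fun e => H.sg h1 ?_) fun e => H.ne h2 (by rw [e, C.ix_ν])
      have := congrArg C.sg e
      rw [C.sg_ν] at this; omega
    · exact H.ne_share h1 h2 k k'

theorem nil_disj (S : R.Sorted) {a b c d : J} (h1 : ok a b) (h2 : ok c d) (a1 : C.ix a ≠ C.ix c) (a2 : C.ix a ≠ C.ix d)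
    (a3 : C.ix b ≠ C.ix c) (a4 : C.ix b ≠ C.ix d) : Nil2 R.D (C.ρ R a b) (C.ρ R c d) := by
  refine S.nil2 ?_ fun k' => ?_ <;> rw [H.v_ρ h1, H.v_ρ h2]
  · exact H.sum_ne h1 (fun e => a1 (by rw [e, C.ix_ν])) fun e => a2 (by rw [e, C.ix_ν])
  · exact H.ne_disj h1 h2 a1 a2 a3 a4 k'

/-- the pair system -/
noncomputable def psys (hr : C.Room ok) (hb : ∀ {a b}, ok a b → ok a (C.ν b) → X.Cmm (C.ρ R a b) (C.ρ R a (C.ν b))) :
    PSys J (Fin n) F Γ where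
  ν := C.ν
  ix := C.ix
  ok := ok
  ρ := C.ρ R
  x := X.x
  νν := C.νν
  ix_ν := C.ix_ν
  eq_of_ix _ _ := C.eq_of_ix
  symm := H.symm
  neg := H.neg
  ne := H.ne
  ρ_comm a b := by simp only [ρ, add_comm]
  ρ_inj h1 h2 e := C.pair (by rw [← H.v_ρ h1, ← H.v_ρ h2, e]) fun e => H.ne h1 (by rw [e, C.ix_ν])
  comp := H.comp
  add := X.add
  inj _ _ _ := X.x_inj
  sm := H.sm X
  cmm1 {a b d} h1 h2 := by
    by_cases h : d = C.ν b
    · subst h; exact hb h1 h2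
    · exact H.cmm_share X h1 h2 h
  cmm0 h1 h2 a1 a2 a3 a4 := Cover.cmm_of_Nil2 (H.nil_disj S h1 h2 a1 a2 a3 a4)
  room := hr

theorem len_ρ {a b : J} (h : ok a b) : R.len (C.ρ R a b) = 2 := by
  have := H.ne h
  simp [RD.len, RD.ip, H.v_ρ h, C.dot_ne, this, this.symm, C.dot_self, H.sg h, H.sg (H.symm h)]

theorem A_ρ {a b : J} (h : ok a b) (s : Fin n) : R.A (C.ρ R a b) s = (C.wt a + C.wt b) ⬝ᵥ R.v s :=
  R.A_of (by rw [H.len_ρ h, RD.ip, H.v_ρ h, mul_comm])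

theorem rev_ρ (S : R.Sorted) {a b : J} (h : ok a b) : (C.ρ R a b).rev = C.ρ R (C.ν a) (C.ν b) := by
  rw [← S.neg_rev]; exact (ρ_eq (by rw [R.v_neg, H.v_ρ h, wt_ν, wt_ν, neg_add])).symm

variable {E : Type*} [Group E] {π : E →* Γ} (Y : CExt π)

theorem com_disj (hF : ∃ a : F, a ≠ 0 ∧ a ≠ 1) {a b c d : J} (h1 : ok a b) (h2 : ok c d) (a1 : C.ix a ≠ C.ix c)
    (a2 : C.ix a ≠ C.ix d) (a3 : C.ix b ≠ C.ix c) (a4 : C.ix b ≠ C.ix d)
    (h : (ok a (C.ν c) ∧ ok b (C.ν d)) ∨ (ok a (C.ν d) ∧ ok b (C.ν c))) : X.Com Y (C.ρ R a b) (C.ρ R c d) := by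
  have a5 := H.ne h1
  have a6 := H.ne h2
  rcases three_or F with h3 | ⟨v, v0, v1⟩
  · wlog h' : ok a (C.ν c) ∧ ok b (C.ν d) generalizing c d
    · have := this (H.symm h2) a2 a1 a4 a3 h.symm a6.symm (h.resolve_left h')
      rwa [show C.ρ R d c = C.ρ R c d by simp only [ρ, add_comm]] at this
    obtain ⟨k1, k2⟩ := h'
    have s1 := H.sg h1
    have s2 := H.sg (H.symm h1)
    refine Cover.com_of_Sw2 h3 (Cover.two_ne h3 hF) ⟨H.nil_disj S h1 h2 a1 a2 a3 a4, C.ρ R a (C.ν c), ?_, C.ρ R b (C.ν d),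
      ?_, ?_, ?_, fun i => ?_, ?_, ?_, ?_, ?_⟩
    iterate 4
      rw [S.A_eq, H.A_ρ (by assumption), H.v_ρ (by assumption)]
      simp [wt_ν, C.dot_ne, C.dot_self, a1, a2, a3, a4, a5, a6, a1.symm, a2.symm, a3.symm, a4.symm, a5.symm, a6.symm, s1, s2]
    · have e : ∑ i, (R.vec (C.ρ R a b) - R.vec (C.ρ R a (C.ν c)) - R.vec (C.ρ R b (C.ν d))) i • R.v (R.sm i) =
          R.v (C.ρ R c d) := by
        simp only [Pi.sub_apply, sub_smul, Finset.sum_sub_distrib, ← R.v_eq, H.v_ρ h1, H.v_ρ h2, H.v_ρ k1, H.v_ρ k2, wt_ν]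
        abel
      rw [S.vec_eq, R.vec_of e.symm]; rfl
    all_goals
      simp only [H.rev_ρ S k1, H.rev_ρ S k2]
      apply H.nil_disj S <;> first | assumption | exact H.neg ‹_› | (simp only [C.ix_ν]; omega)
  · refine Cover.com_of_tor (Cover.cmm_of_Nil2 (H.nil_disj S h1 h2 a1 a2 a3 a4))
      (Cover.tor_of_Tc (d := 2) ⟨C.ρ R a b, ?_, by rw [S.good.A_self]; rfl⟩ v0 v1)
    rw [S.A_eq, H.A_ρ h1, H.v_ρ h2]
    simp [C.dot_ne, a1, a2, a3, a4]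

include Y in
theorem exists_rel (hr : C.Room ok) (hb : ∀ {a b}, ok a b → ok a (C.ν b) → X.Cmm (C.ρ R a b) (C.ρ R a (C.ν b)))
    (hg : (H.psys X hr hb).Good Y) (hall : ∀ r, ∃ a b, ok a b ∧ R.v r = C.wt a + C.wt b) :
    ∃ y : Fin n → F → E, (∀ r t, π (y r t) = X.x r t) ∧ Rel R.D y := by
  obtain ⟨y, hy⟩ := PSys.exists_y hg
  have hall' : ∀ r, ∃ a b, ok a b ∧ r = C.ρ R a b := fun r => by
    obtain ⟨a, b, h1, h2⟩ := hall r
    exact ⟨a, b, h1, (ρ_eq h2).symm⟩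
  have cm : ∀ a b, C.ρ R a b = C.ρ R b a := (H.psys X hr hb).ρ_comm
  have L : Lifts X Y y := by
    refine ⟨fun r => ?_, fun r => ?_, fun k hk r c hc t => ?_⟩ <;> obtain ⟨a, b, h, rfl⟩ := hall' r
    · exact (hy a b h).1
    · exact (hy a b h).2.1
    · obtain ⟨e, e1, e2, -⟩ := hr h 0
      obtain ⟨u, hu⟩ := PSys.dec (P := H.psys X hr hb) e1 e2 (H.ne h) t
      obtain ⟨c1, k1⟩ := X.exists_act hk (C.ρ R a e)
      obtain ⟨c2, k2⟩ := X.exists_act hk (C.ρ R (C.ν e) b)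
      refine (congrArg (Y.cj k) ((hy a b h).2.2 e e1 e2 _ _ _ hu).symm).trans ?_
      rw [Y.cj_cm]
      refine (congrArg₂ Y.cm (k1 _) (k2 _)).trans ((hy a b h).2.2 e e1 e2 _ _ _ ?_)
      refine Eq.trans ?_ (hc t)
      refine (congrArg₂ _ (k1 _).symm (k2 _).symm).trans ?_
      rw [← show _ = X.x (C.ρ R a b) t from hu]
      simp only [← MulAut.conj_apply, map_commutatorElement]; rfl
  have dir : ∀ {a b c}, ok a b → ok (C.ν b) c → C.ix a ≠ C.ix c →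
      Dir S.good y (C.ρ R a b) (C.ρ R (C.ν b) c) := fun {a b c} h1 h2 h3 => by
    obtain ⟨ε, -, hε⟩ := H.sm X h1 h2 h3
    exact (L.dir_of_cm (l := C.ρ R a c) (by rw [S.vec_eq]; exact R.vec_sum.1 (H.N_unit h1 h2 h3).1)
      fun t u => ⟨_, (hy a c (H.comp h1 h2 h3)).2.2 b h1 h2 _ _ _ (hε t u)⟩).1
  have key : ∀ {a b c d}, ok a b → ok c d → C.ix a = C.ix c → C.ρ R c d ≠ (C.ρ R a b).rev →
      Dir S.good y (C.ρ R a b) (C.ρ R c d) := fun {a b c d} h1 h2 h3 h4 => by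
    rcases C.eq_of_ix h3 with rfl | rfl
    · exact L.dir_of_com (PSys.com hg h1 h2)
    · by_cases k : C.ix b = C.ix d
      · rcases C.eq_of_ix k with rfl | rfl
        · rw [cm a, cm (C.ν a)]; exact L.dir_of_com (PSys.com hg (H.symm h1) (H.symm h2))
        · exact absurd (H.rev_ρ S h1).symm h4
      · rw [cm a]; exact dir (H.symm h1) h2 k
  refine ⟨y, L.π_y, L.rel fun r s _ h2 => Or.inr (Or.inr (Or.inl ?_))⟩
  obtain ⟨a, b, h, rfl⟩ := hall' r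
  obtain ⟨c, d, h', rfl⟩ := hall' s
  by_cases a1 : C.ix a = C.ix c
  · exact key h h' a1 h2
  by_cases a2 : C.ix a = C.ix d
  · rw [cm c] at h2 ⊢; exact key h (H.symm h') a2 h2
  by_cases a3 : C.ix b = C.ix c
  · rw [cm a] at h2 ⊢; exact key (H.symm h) h' a3 h2
  by_cases a4 : C.ix b = C.ix d
  · rw [cm a, cm c] at h2 ⊢; exact key (H.symm h) (H.symm h') a4 h2
  exact L.dir_of_com (hg h h' a1 a2 a3 a4)

end Pairs

end CD

end CfsgH6
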