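import Mathlib
import Cfsg.Agent.H6.RC
import Cfsg.Agent.H6.R3f
import Cfsg.Agent.H5.Ch2

/-! Symplectic and split orthogonal groups as covers of Chevalley groups. -/

set_option autoImplicit false
set_option linter.unusedSectionVars false

namespace CfsgH6

open Matrix Cfsg.Lie CfsgH5 CForm

namespace CD

variable {m : ℕ} {J : Type} (C : CD m J) [DecidableEq J] [Fintype J] {F : Type*} [Field F] {P : FP F}

/-- a form adapted to the index data -/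
structure Ad (f : CForm P (J → F)) : Prop where
  ε : P.ε = C.ε
  B : ∀ v a t, f.B v (Pi.single a t) = C.γ a * t * v (C.ν a)
  Q : ∀ a t, f.Q (Pi.single a t) = P.t (if C.sg a = 0 then t ^ 2 else 0)
  t1 : C.ε = 1 → ∀ c, P.t c = 0 → c = 0
  t2 : C.ε = -1 → ∀ c, P.t c = 0
  wn : f.WN

theorem xm_mulVec (r : C.Φ) (t : F) (v : J → F) : C.rd.xm F r t *ᵥ v =
    v + Pi.single r.1.1 (t * C.c1 r.1.1 r.1.2 * v (C.ν r.1.2)) + Pi.single r.1.2 (t * C.c2 r.1.1 r.1.2 * v (C.ν r.1.1)) -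
      Pi.single r.1.1 (if C.sg r.1.2 = 0 then t ^ 2 * v (C.ν r.1.1) else 0) := by
  have k : ∀ (a b : J) (c : ℤ), (single a b c).map (Int.cast : ℤ → F) = single a b (c : F) := fun a b c => by
    ext x y; simp only [map_apply, single_apply]; split_ifs <;> simp
  have k1 : ∀ (a b : J) (c : F), single a b c *ᵥ v = Pi.single a (c * v b) := fun a b c => by
    ext x; simp [single_mulVec, Pi.single_apply, Function.update_apply]
  simp only [RD.xm, rd, e]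
  rw [Matrix.map_add _ Int.cast_add, k, k]
  split_ifs
  · simp only [k, add_mulVec, one_mulVec, smul_add, smul_single, k1, smul_eq_mul, sub_eq_add_neg, ← Pi.single_neg]
    simp [add_assoc]
  · simp [add_mulVec, smul_single, k1, add_assoc]

theorem γ_sq {a : J} (h : C.sg a ≠ 0) : C.γ a * C.γ a = 1 := by
  rcases C.sgc a with ⟨-, k | k⟩ | ⟨-, k⟩
  · simp [γ, k]
  · simp only [γ, k]; split_ifs <;> simp
  · exact absurd k h

variable {C} {f : CForm P (J → F)} (h : C.Ad f)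
include h

theorem Ad.eich_long {r : C.Φ} (k : r.1.1 = r.1.2) (t : F) {g : (J → F) ≃ₗ[F] (J → F)} :
    f.IsEich g (Pi.single r.1.1 1) 0 (C.γ r.1.1 * t) ↔ ∀ v, g v = C.rd.xm F r t *ᵥ v := by
  have h1 := (C.e_long k).1
  have h2 : C.sg r.1.1 ≠ 0 := by have := r.sg1; omega
  have h3 : (C.γ r.1.1 : F) * C.γ r.1.1 = 1 := by exact_mod_cast congrArg (Int.cast : ℤ → F) (C.γ_sq h2)
  have : ∀ v : J → F, C.rd.xm F r t *ᵥ v = v + f.B v 0 • Pi.single r.1.1 1 - (P.ε * f.B v (Pi.single r.1.1 1)) • 0 -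
      (P.ε * (C.γ r.1.1 * t) * f.B v (Pi.single r.1.1 1)) • Pi.single r.1.1 1 := fun v => by
    rw [xm_mulVec, h.B, h.ε, ← Pi.single_smul, ← Pi.single_smul]
    simp only [← k, c1, c2, h1, h2, if_false, if_true, show ¬ (-1 : ℤ) = 1 by decide]
    simp only [sub_eq_add_neg, ← Pi.single_neg, add_assoc, ← Pi.single_add, smul_zero, neg_zero, zero_add]
    congr 2
    simp only [B_zero_right, smul_eq_mul]
    push_cast
    linear_combination - t * v (C.ν r.1.1) * h3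
  simp only [this]
  exact ⟨IsEich.app, fun e => ⟨by simp [h.Q, h2], by simp, by simp [h.t2 h1], e⟩⟩

theorem Ad.eich {r : C.Φ} (k : r.1.1 ≠ r.1.2) (t : F) :
    (∃ g, f.IsEich g (Pi.single r.1.1 1) (Pi.single r.1.2 (-(C.γ (C.ν r.1.1) * C.c2 r.1.1 r.1.2) * t))
      (if C.sg r.1.2 = 0 then t ^ 2 else 0)) ∧ ∀ g, f.IsEich g (Pi.single r.1.1 1) (Pi.single r.1.2 (-(C.γ (C.ν r.1.1) * C.c2 r.1.1 r.1.2) * t))
      (if C.sg r.1.2 = 0 then t ^ 2 else 0) ↔ ∀ v, g v = C.rd.xm F r t *ᵥ v := by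
  have h2 : C.sg r.1.1 ≠ 0 := by have := r.sg1; omega
  obtain ⟨-, -, k1, k2, -⟩ := C.cc k
  have h3 : (C.γ r.1.1 : F) * C.γ r.1.1 = 1 := by exact_mod_cast congrArg (Int.cast : ℤ → F) (C.γ_sq h2)
  have h4 : (C.ε : F) * C.ε = 1 := by rcases C.εc with e | ⟨e, -⟩ <;> simp [e]
  have h5 : (C.c2 r.1.1 r.1.2 : F) * C.c2 r.1.1 r.1.2 = 1 := by exact_mod_cast congrArg (Int.cast : ℤ → F) k1
  have h6 : (C.ε : F) * C.γ r.1.1 * C.c1 r.1.1 r.1.2 + C.γ r.1.2 * C.c2 r.1.1 r.1.2 = 0 := by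
    rw [γ_ν] at k2; exact_mod_cast congrArg (Int.cast : ℤ → F) k2
  have h7 : C.sg r.1.2 = 0 → (C.ε : F) * C.γ r.1.1 = 1 := fun e => by
    rcases C.εc with e1 | ⟨-, e1⟩
    · rcases r.sg1.2 with e2 | e2 <;> norm_num [γ, e1, e2]
    · have := e1 r.1.2; omega
  have : ∀ v : J → F, C.rd.xm F r t *ᵥ v = v + f.B v (Pi.single r.1.2 (-(C.γ (C.ν r.1.1) * C.c2 r.1.1 r.1.2) * t)) •
      Pi.single r.1.1 1 - (P.ε * f.B v (Pi.single r.1.1 1)) • Pi.single r.1.2 (-(C.γ (C.ν r.1.1) * C.c2 r.1.1 r.1.2) * t) -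
      (P.ε * (if C.sg r.1.2 = 0 then t ^ 2 else 0) * f.B v (Pi.single r.1.1 1)) • Pi.single r.1.1 1 := fun v => by
    rw [xm_mulVec, h.B, h.B, h.ε, ← Pi.single_smul, ← Pi.single_smul, ← Pi.single_smul, sub_eq_add_neg (_ + _) (Pi.single r.1.2 _),
      ← Pi.single_neg, γ_ν]
    simp only [smul_eq_mul]
    push_cast
    congr 4
    · linear_combination (C.ε * C.γ r.1.1 * t * v (C.ν r.1.2)) * h6 - t * C.c1 r.1.1 r.1.2 * v (C.ν r.1.2) * h3 -
        t * C.c1 r.1.1 r.1.2 * v (C.ν r.1.2) * C.γ r.1.1 * C.γ r.1.1 * h4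
    · linear_combination - t * C.c2 r.1.1 r.1.2 * v (C.ν r.1.1) * h3 -
        t * C.c2 r.1.1 r.1.2 * v (C.ν r.1.1) * C.γ r.1.1 * C.γ r.1.1 * h4
    · split_ifs with e
      · linear_combination - t ^ 2 * v (C.ν r.1.1) * h7 e
      · simp
  simp only [this]
  suffices d : P.t (if C.sg r.1.2 = 0 then t ^ 2 else 0) = f.Q (Pi.single r.1.2 (-(C.γ (C.ν r.1.1) * C.c2 r.1.1 r.1.2) * t)) from
    ⟨exists_eich (by simp [h.Q, h2]) (by simp [h.B, r.ne2]) d,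
      fun g => ⟨IsEich.app, fun e => ⟨by simp [h.Q, h2], by simp [h.B, r.ne2], d, e⟩⟩⟩
  rw [h.Q, γ_ν]
  congr 2
  push_cast
  linear_combination - t ^ 2 * h5 - t ^ 2 * C.c2 r.1.1 r.1.2 ^ 2 * h3 - t ^ 2 * C.c2 r.1.1 r.1.2 ^ 2 * C.γ r.1.1 ^ 2 * h4

theorem Ad.exists_x (r : C.Φ) (t : F) : ∃ g ∈ f.E, ∀ v, g v = C.rd.xm F r t *ᵥ v := by
  have h2 : C.sg r.1.1 ≠ 0 := by have := r.sg1; omega
  by_cases k : r.1.1 = r.1.2
  · obtain ⟨g, hg⟩ := exists_eich (f := f) (x := Pi.single r.1.1 1) (a := 0) (c := C.γ r.1.1 * t) (by simp [h.Q, h2])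
      (by simp) (by simp [h.t2 (C.e_long k).1])
    exact ⟨g, hg.mem_E, (h.eich_long k t).1 hg⟩
  · obtain ⟨⟨g, hg⟩, h1⟩ := h.eich k t
    exact ⟨g, hg.mem_E, (h1 g).1 hg⟩

theorem Ad.E_le {K : Subgroup ((J → F) ≃ₗ[F] (J → F))}
    (hK : ∀ r t g, (∀ v, g v = C.rd.xm F r t *ᵥ v) → g ∈ K) : f.E ≤ K := by
  have hm := C.hm
  have key : ∀ i, C.ix i = 0 → ∀ g a c, f.IsEich g (Pi.single i 1) a c → g ∈ K := fun i hi => by
    have h2 : C.sg i ≠ 0 := by have := C.sgc i; omega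
    have h3 : (C.γ i : F) * C.γ i = 1 := by exact_mod_cast congrArg (Int.cast : ℤ → F) (C.γ_sq h2)
    refine Tx_le_of_basis (i' := C.ν i) (by simp [h.Q, h2])
      (fun a k => by simpa [h.B, left_ne_zero_of_mul_eq_one h3] using k) (fun g c k => ?_) fun j j1 j2 t => ?_
    · rcases C.εc with e | ⟨e, -⟩
      · obtain rfl := h.t1 e c (by simpa using k.hc)
        rw [k.unique (isEich_one k.hx)]; exact one_mem _
      · refine hK ⟨(i, i), Or.inr ⟨e, rfl⟩⟩ (C.γ i * c) g ((h.eich_long rfl _).1 ?_)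
        rwa [← mul_assoc, h3, one_mul]
    · have h4 : C.ix i < C.ix j := by
        have := C.sgc i
        have := C.sgc j
        simp only [Ne, C.eq_iff, C.ix_ν, C.sg_ν] at j1 j2
        omega
      have h5 : ((C.γ (C.ν i) : F) * C.c2 i j) * (C.γ (C.ν i) * C.c2 i j) = 1 := by
        have a := C.γ_sq (a := C.ν i) (by rwa [C.sg_ν, neg_ne_zero])
        have b := (C.cc (r := ⟨(i, j), Or.inl h4⟩) j1.symm).2.2.1
        rw [mul_mul_mul_comm]
        exact_mod_cast congrArg (Int.cast : ℤ → F) (show _ = 1 by rw [a, b, mul_one])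
      obtain ⟨⟨g, hg⟩, h1⟩ := h.eich (r := ⟨(i, j), Or.inl h4⟩) j1.symm (-(C.γ (C.ν i) * C.c2 i j) * t)
      have := hK _ _ g ((h1 g).1 hg)
      rw [← mul_assoc, neg_mul_neg, h5, one_mul] at hg
      exact ⟨g, _, hg, this⟩
  have p0 := C.ix_p 0 (by omega)
  have p1 := C.ix_p 1 (by omega)
  have s0 := C.sg_p 0 (by omega)
  have s1 := C.sg_p 1 (by omega)
  have H : f.IsHyp (Pi.single (C.ν (C.p 0)) 1) (Pi.single (C.p 0) 1) :=
    ⟨by simp [h.Q, C.sg_ν, s0], by simp [h.Q, s0], by norm_num [h.B, γ, s0]⟩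
  have h3 : (C.γ (C.ν (C.p 1)) : F) * C.γ (C.ν (C.p 1)) = 1 := by
    exact_mod_cast congrArg (Int.cast : ℤ → F) (C.γ_sq (by simp [C.sg_ν, s1]))
  refine E_le_of_two h.wn H ⟨Pi.single (C.p 1) 1 + Pi.single (C.ν (C.p 1)) 1, _, left_ne_zero_of_mul_eq_one h3, ?_, ?_, ?_⟩
    (key _ (by rw [C.ix_ν, p0])) (key _ p0)
  · simp [f.Q_add, h.Q, h.B, s1, C.sg_ν]
  all_goals simp [h.B, Pi.single_apply, C.eq_iff, C.ix_ν, p0, p1]

theorem Ad.exists_cover {n : ℕ} {e : Fin n ≃ C.Φ} (S : (C.rd.comap e).Sorted) :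
    ∃ X : Cover S.good F f.E, X.Gr = ⊤ ∧ ∀ r t v, (X.x r t).1 v = C.rd.xm F (e r) t *ᵥ v := by
  choose y hy1 hy2 using h.exists_x
  let ρ : f.E →* Matrix J J F := ((LinearMap.toMatrixAlgEquiv' (R := F) (n := J)).toMulEquiv.toMonoidHom.comp
    LinearEquiv.automorphismGroup.toLinearMapMonoidHom).comp f.E.subtype
  have hρ : ∀ g v, ρ g *ᵥ v = g.1 v := fun g v => LinearMap.toMatrix'_mulVec _ _
  refine (S.exists_cover (F := F) (fun r => ?_) ρ
    (fun a b k => Subtype.ext (LinearEquiv.ext fun v => by rw [← hρ, k, hρ])) (fun r t => ⟨y (e r) t, hy1 _ _⟩)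
    (fun r t => Matrix.ext_of_mulVec_single fun a => by rw [hρ, hy2]; rfl) ?_).imp fun X k =>
      ⟨k.1, fun r t v => by rw [k.2, hy2]⟩
  · by_cases k : (e r).1.1 = (e r).1.2
    · exact ⟨(e r).1.1, C.ν (e r).1.1, Or.inl (by simp [RD.comap, rd, (C.e_long k).2])⟩
    · exact ⟨(e r).1.2, C.ν (e r).1.1, by
        simpa [RD.comap, rd, C.e_apply k, k] using mul_self_eq_one_iff.1 (C.cc k).2.2.1⟩
  · refine eq_top_iff.2 fun g _ => ?_
    obtain ⟨g', h1, h2⟩ := h.E_le (K := (Subgroup.closure {g | ∃ r t, g = (⟨y (e r) t, hy1 _ _⟩ : f.E)}).map f.E.subtype)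
      (fun r t g k => ⟨⟨y r t, hy1 _ _⟩, Subgroup.subset_closure ⟨e.symm r, t, by simp⟩,
        LinearEquiv.ext fun v => by rw [k, ← hy2]; rfl⟩) g.2
    rwa [← Subtype.ext h2]

omit h in
theorem conn (C : CD m J) {n : ℕ} (e : Fin n ≃ C.Φ) : Good.ConnOK (C.rd.comap e).D (List.range m) := RD.connOK _ fun i => by
  refine (Nat.eq_zero_or_pos i).imp id fun h0 => ?_
  have := C.hm
  have hz := C.zc
  have hi := i.2
  have hp : ∀ i < m, C.ix (C.p i) = i := C.ix_p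
  have hs : ∀ i < m, C.sg (C.p i) = 1 := C.sg_p
  simp only [RD.ip, RD.comap, rd, Equiv.apply_symm_apply]
  by_cases h : (i : ℕ) + 1 < m
  · refine ⟨⟨i - 1, by omega⟩, by simp [Fin.lt_def]; omega, ?_⟩
    simp only [sm, dif_pos h, dif_pos (show (i : ℕ) - 1 + 1 < m by omega), v, add_dotProduct, dotProduct_add, dot,
      C.ix_ν, C.sg_ν, hp _ h, hs _ h, hp _ hi, hs _ hi, hp (i - 1) (by omega), hs (i - 1) (by omega),
      hp (i - 1 + 1) (by omega), hs (i - 1 + 1) (by omega)]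
    split_ifs <;> omega
  · refine ⟨⟨m - 2 - C.δ, by omega⟩, by simp [Fin.lt_def]; omega, ?_⟩
    simp only [sm, dif_neg h, dif_pos (show m - 2 - C.δ + 1 < m by omega), v, add_dotProduct, dotProduct_add, dot,
      C.ix_ν, C.sg_ν, hp (m - 1 - C.δ) (by omega), hs (m - 1 - C.δ) (by omega), hp (m - 2 - C.δ) (by omega),
      hs (m - 2 - C.δ) (by omega), hp (m - 2 - C.δ + 1) (by omega), hs (m - 2 - C.δ + 1) (by omega)]
    rcases hz with hz | ⟨k1, k2, k3, -⟩ <;> split_ifs <;> omega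

end CD

/-- the positive index -/
def pK {m : ℕ} (hm : 0 < m) (i : ℕ) : Fin m ⊕ Fin m := .inl (if h : i < m then ⟨i, h⟩ else ⟨0, hm⟩)

/-- types C and D -/
def cdK (m : ℕ) (ε : ℤ) (δ : ℕ) (h : ε = -1 ∧ δ = 0 ∨ ε = 1 ∧ δ = 1) (hm : 2 + δ ≤ m) : CD m (Fin m ⊕ Fin m) where
  ix := Sum.elim Fin.val Fin.val
  sg := Sum.elim (fun _ => 1) fun _ => -1
  ν := Sum.swap
  ε := ε
  δ := δ
  p := pK (by omega)
  z := pK (by omega) (m - 1)
  ext := by rintro (a | a) (b | b) <;> simp [Fin.ext_iff]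
  sgc := by rintro (a | a) <;> simp
  ix_ν := by rintro (a | a) <;> rfl
  sg_ν := by rintro (a | a) <;> rfl
  ix_p i h := by simp [pK, h]
  sg_p _ _ := rfl
  hm := hm
  ty := Or.inr ⟨h, rfl, by rintro (a | a) <;> simp⟩

/-- type C -/
abbrev cdC {m : ℕ} (hm : 2 ≤ m) : CD m (Fin m ⊕ Fin m) := cdK m (-1) 0 (Or.inl ⟨rfl, rfl⟩) hm

/-- type D -/
abbrev cdD {m : ℕ} (hm : 3 ≤ m) : CD m (Fin m ⊕ Fin m) := cdK m 1 1 (Or.inr ⟨rfl, rfl⟩) hm

/-- type B -/
def cdB {m : ℕ} (hm : 2 ≤ m) : CD m (Unit ⊕ (Fin m ⊕ Fin m)) where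
  ix := Sum.elim (fun _ => m) (Sum.elim Fin.val Fin.val)
  sg := Sum.elim (fun _ => 0) (Sum.elim (fun _ => 1) fun _ => -1)
  ν := Sum.map id Sum.swap
  ε := 1
  δ := 0
  p i := .inr (pK (by omega) i)
  z := .inl ()
  ext := by rintro (a | a | a) (b | b | b) <;> simp [Fin.ext_iff]
  sgc := by rintro (a | a | a) <;> simp
  ix_ν := by rintro (a | a | a) <;> rfl
  sg_ν := by rintro (a | a | a) <;> rfl
  ix_p i h := by simp [pK, h]
  sg_p _ _ := rfl
  hm := hm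
  ty := Or.inl ⟨rfl, rfl, rfl⟩

variable {F : Type*} [Field F] {m : ℕ}

theorem adaptC (hm : 2 ≤ m) : (cdC hm).Ad (spForm F m) where
  ε := by simp [cdK]
  B := by rintro v (a | a) t <;> simp [spForm_B, sympForm_apply, CD.γ, cdK, Pi.single_apply, mul_comm]
  Q _ _ := rfl
  t1 h := by simp [cdK] at h
  t2 _ _ := rfl
  wn := (spForm_nondeg m).wn

theorem adaptD (hm : 3 ≤ m) : (cdD hm).Ad (ofQuad (plusQ F m)) where
  ε := by simp [cdK]
  B := by rintro v (a | a) t <;> norm_num [ofQuad_B, plusQ_coe, polar_plus, CD.γ, cdK, Pi.single_apply, mul_comm] <;> simp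
  Q := by rintro (a | a) t <;> simp [plusQ_coe, Cfsg.quadFormPlus, cdK]
  t1 _ _ h := h
  t2 h := by simp [cdK] at h
  wn := (plusQ_nondeg F m).wn

theorem adaptB (hm : 2 ≤ m) (h2 : (2 : F) ≠ 0) : (cdB hm).Ad (ofQuad (oddQ F m)) where
  ε := by simp [cdB]
  B := by
    rintro v (a | a | a) t <;> norm_num [ofQuad_B, oddQ_coe, polar_odd, CD.γ, cdB, Pi.single_apply, mul_comm] <;>
      simp [mul_assoc]
  Q := by rintro (a | a | a) t <;> simp [oddQ_coe, Cfsg.quadFormOdd, cdB]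
  t1 _ _ h := h
  t2 h := by simp [cdB] at h
  wn := (oddQ_nondeg h2 m).wn

/-- the commutator subgroup as the Eichler group -/
noncomputable def omE {ι : Type} [Fintype ι] [DecidableEq ι] (Q : QuadraticForm F (ι → F))
    (h : ⁅(ofQuad Q).Isom, (ofQuad Q).Isom⁆ = (ofQuad Q).E) : Cfsg.Omega F ⇑Q ≃* (ofQuad Q).E :=
  (commutatorEquiv (orthEquiv Q)).trans (((commutator (ofQuad Q).Isom).equivMapOfInjective _
    (ofQuad Q).Isom.subtype_injective).trans (MulEquiv.subgroupCongr ((Subgroup.map_subtype_commutator _).trans h)))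

/-- the symplectic group as the Eichler group -/
noncomputable def spE' (m : ℕ) : symplecticGroup (Fin m) F ≃* (spForm F m).E :=
  (spEquiv m).trans (MulEquiv.subgroupCongr (symp_Isom_eq_E (spForm_nondeg m)))

theorem comm_plus [Finite F] (hm : 3 ≤ m) : ⁅(ofQuad (plusQ F m)).Isom, (ofQuad (plusQ F m)).Isom⁆ = (ofQuad (plusQ F m)).E :=
  comm_eq_E (plusQ_nondeg F m) (split_of_finrank (plusQ_nondeg F m) (by simp; omega)) (by simp; omega)

theorem comm_odd [Finite F] (hm : 2 ≤ m) (h2 : (2 : F) ≠ 0) :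
    ⁅(ofQuad (oddQ F m)).Isom, (ofQuad (oddQ F m)).Isom⁆ = (ofQuad (oddQ F m)).E :=
  comm_eq_E (oddQ_nondeg h2 m) (split_of_two_ne h2) (by simp; omega)

end CfsgH6
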