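import Mathlib
import Cfsg.Agent.H6.RD4

/-! The torus in a matrix realisation. -/

set_option autoImplicit false

namespace CfsgH6

open Matrix Cfsg.Lie

theorem h_formula {F A : Type*} [Field F] [Ring A] [Algebra F A] {a b : A} (ha : a * a = 0) (hb : b * b = 0)
    (h1 : a * b * a = a) (h2 : b * a * b = b) {t : F} (ht : t ≠ 0) :
    (1 + t • a) * (1 + (-t⁻¹) • b) * (1 + t • a) * ((1 + (-1 : F) • a) * (1 + (-(-1 : F)⁻¹) • b) * (1 + (-1 : F) • a)) =
      1 + (t - 1) • (a * b) + (t⁻¹ - 1) • (b * a) := by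
  have k : ∀ {t : F}, t ≠ 0 → (1 + t • a) * (1 + (-t⁻¹) • b) * (1 + t • a) = 1 - a * b - b * a + t • a - t⁻¹ • b :=
    fun {t} ht => by
      simp only [mul_add, add_mul, mul_one, one_mul, smul_mul_assoc, mul_smul_comm, smul_add, smul_smul, ha, h1, mul_neg, neg_mul,
        mul_inv_cancel₀ ht, inv_mul_cancel₀ ht, smul_zero]
      module
  have h3 : a * (b * a) = a := by rw [← mul_assoc, h1]
  have h4 : b * (a * b) = b := by rw [← mul_assoc, h2]
  have h5 : a * (a * b) = 0 := by rw [← mul_assoc, ha, zero_mul]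
  have h6 : b * (b * a) = 0 := by rw [← mul_assoc, hb, zero_mul]
  rw [k ht, k (by simp)]
  simp only [mul_add, add_mul, mul_sub, sub_mul, mul_one, one_mul, smul_mul_assoc, mul_smul_comm, mul_assoc, ha, hb, h3, h4,
    h5, h6, mul_zero, smul_zero, inv_neg, inv_one]
  module

namespace RD

variable {l : ℕ} {ι Φ J : Type} [Fintype ι] [Fintype J] [DecidableEq J] (R : RD l ι Φ J)

theorem efe {r : Φ} (h : R.e2 r = 0) : R.e r * R.e r = 0 ∧ R.e r * R.e (R.neg r) * R.e r = R.e r := by
  have h1 : R.e r * R.e r = 0 := by rw [R.sq, h, smul_zero]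
  have h2 := R.h_e r r
  rw [← R.br_neg, br, R.A_self, sub_mul, mul_sub, mul_assoc (R.e (R.neg r)), h1, ← mul_assoc (R.e r) (R.e r), h1,
    ← mul_assoc] at h2
  refine ⟨h1, smul_right_injective _ (two_ne_zero (α := ℤ)) ?_⟩
  simp only [← h2, two_smul]; simp

theorem h_diag {F : Type*} [Field F] {r : Φ} (h : R.e2 r = 0) (h' : R.e2 (R.neg r) = 0) {t : F} (ht : t ≠ 0) :
    R.xm F r t * R.xm F (R.neg r) (-t⁻¹) * R.xm F r t * (R.xm F r (-1) * R.xm F (R.neg r) (-(-1)⁻¹) * R.xm F r (-1)) =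
      diagonal fun a => t ^ R.pr r a := by
  obtain ⟨a1, a2⟩ := R.efe h
  obtain ⟨b1, b2⟩ := R.efe h'
  rw [R.neg_neg] at b2
  have k := R.br_neg r
  simp only [xm, h, h', Matrix.map_zero _ Int.cast_zero, smul_zero, add_zero]
  generalize R.e r = a at *
  generalize R.e (R.neg r) = b at *
  have c1 : ∀ x, a * (a * x) = 0 := fun x => by rw [← mul_assoc, a1, zero_mul]
  have c2 : ∀ x, b * (b * x) = 0 := fun x => by rw [← mul_assoc, b1, zero_mul]
  have c3 : ∀ x, a * (b * (a * x)) = a * x := fun x => by rw [← mul_assoc, ← mul_assoc, a2]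
  have c4 : ∀ x, b * (a * (b * x)) = b * x := fun x => by rw [← mul_assoc, ← mul_assoc, b2]
  have k1 : diagonal (R.pr r) * diagonal (R.pr r) = a * b + b * a := by
    rw [← k]; simp [sub_mul, mul_sub, mul_assoc, c1, c2, c3, c4]
  have k2 : diagonal (R.pr r) * diagonal (R.pr r) * diagonal (R.pr r) = diagonal (R.pr r) := by
    rw [k1, ← k]; simp [add_mul, mul_add, mul_assoc, c1, c2, c3, c4, sub_eq_add_neg]
  have m : ∀ x y : Matrix J J ℤ, (x * y).map (Int.cast : ℤ → F) = x.map Int.cast * y.map Int.cast := fun x y =>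
    Matrix.map_mul (f := Int.castRingHom F)
  rw [h_formula (by rw [← m, a1]; simp) (by rw [← m, b1]; simp) (by rw [← m, ← m, a2]) (by rw [← m, ← m, b2]) ht, ← m, ← m]
  ext x y
  have e1 := congrFun (congrFun k x) y
  have e2 := congrFun (congrFun k1 x) y
  have e3 := congrFun (congrFun k2 x) x
  simp only [diagonal_mul_diagonal, Matrix.sub_apply, Matrix.add_apply, diagonal_apply_eq, Matrix.smul_apply, map_apply,
    smul_eq_mul] at e1 e2 e3 ⊢
  by_cases e : x = y
  · subst e
    simp only [diagonal_apply_eq, one_apply_eq] at e1 e2 ⊢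
    have : R.pr r x * ((R.pr r x - 1) * (R.pr r x + 1)) = 0 := by linear_combination e3
    simp only [mul_eq_zero, sub_eq_zero, add_eq_zero_iff_eq_neg] at this
    rcases this with e | e | e <;> rw [e] at e1 e2 ⊢
    · simp [show (a * b) x x = 0 by omega, show (b * a) x x = 0 by omega]
    · simp [show (a * b) x x = 1 by omega, show (b * a) x x = 0 by omega]
    · simp [show (a * b) x x = 0 by omega, show (b * a) x x = 1 by omega]
  · simp only [diagonal_apply_ne _ e, one_apply_ne e] at e1 e2 ⊢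
    simp [show (a * b) x y = 0 by omega, show (b * a) x y = 0 by omega]

end RD

namespace RD

variable {l n : ℕ} {ι J : Type} [Fintype ι] [Fintype J] [DecidableEq J] {R : RD l ι (Fin n) J} {S : R.Sorted}
  {F : Type*} [Field F] {Γ : Type*} [Group Γ] {X : Cover S.good F Γ}

theorem Sorted.τ_diag (h3 : X.R3) (ρ : Γ →* Matrix J J F) (hy : ∀ r t, ρ (X.x r t) = R.xm F r t) (he : ∀ r, R.e2 r = 0)
    (c : Fin l → Fˣ) : ρ (h3.τ c) = diagonal fun a => (pw Fˣ (of fun i a => R.pr (R.sm i) a) c a : F) := by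
  induction c using Pi.mulSingle_induction with
  | one => rw [map_one, map_one, map_one]; simp
  | mul c d hc hd => rw [map_mul, map_mul, map_mul, hc, hd, diagonal_mul_diagonal]; rfl
  | mulSingle i t =>
    rw [Cover.R3.τ_single, Cover.h, Cover.n, Cover.n]
    simp only [map_mul, hy, ← S.neg_rev, S.sm_eq]
    rw [R.h_diag (he _) (he _) t.ne_zero]
    congr 1
    ext j
    rw [pw_apply, Finset.prod_eq_single i (fun k _ h => by simp [Pi.mulSingle_eq_of_ne h]) (by simp)]
    simp

theorem Sorted.τ_inj (h3 : X.R3) (ρ : Γ →* Matrix J J F) (hy : ∀ r t, ρ (X.x r t) = R.xm F r t) (he : ∀ r, R.e2 r = 0)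
    (N : Matrix J (Fin l) ℤ) (hN : (of fun i a => R.pr (R.sm i) a) * N = 1) : Function.Injective h3.τ := fun c d e =>
  pw_injective hN (funext fun a => Units.ext (congrFun (diagonal_injective
    ((Sorted.τ_diag h3 ρ hy he c).symm.trans ((congrArg ρ e).trans (Sorted.τ_diag h3 ρ hy he d)))) a))

end RD

end CfsgH6
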