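import Cfsg.Agent.H6.CExt
import Cfsg.Agent.H2.Trans
import Cfsg.Prelude.Def_KGroupFacts

/-! Central extensions: transfer and the weight argument. -/

set_option autoImplicit false

namespace CfsgH6

open Subgroup CfsgH2
open scoped commutatorElement

universe u

theorem sm_one {G : Type u} [Group G] [Finite G] (h : ∀ (E : Type u) [Group E] [Finite E] (π : E →* G), CExt π →
    ∀ p : ℕ, p.Prime → ∃ H : Subgroup G, ¬ p ∣ H.index ∧ ∀ z ∈ ⁅H.comap π, H.comap π⁆, π z = 1 → z = 1) :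
    Cfsg.HasCyclicSchurMultiplier G 1 := by
  haveI : Unique (Multiplicative (ZMod 1)) := inferInstanceAs (Unique (Fin 1))
  refine ⟨⟨G, inferInstance, inferInstance, MonoidHom.id G, ⟨fun x => ⟨x, rfl⟩, by simp, by simp⟩, ?_⟩,
    fun E _ _ π hπ => ⟨1, fun x => ⟨1, Subtype.ext (Eq.symm (by_contra fun e => ?_))⟩⟩⟩
  · rw [MonoidHom.ker_id]
    exact ⟨MulEquiv.ofUnique⟩
  · obtain ⟨p, hp, hd⟩ := Nat.exists_prime_and_dvd (mt orderOf_eq_one_iff.1 e)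
    obtain ⟨H, h1, h2⟩ := h E π ⟨hπ.1, hπ.2.1⟩ p hp
    exact h1 (index_comap_of_surjective H hπ.1 ▸ hd.trans (orderOf_dvd_of_pow_eq_one (h2 _ (central_pow_index_mem
      (hπ.2.1 x.2) (hπ.2.2 x.2)) (pow_mem x.2 _))))

/-- a biadditive map -/
structure Bi {K E : Type*} [Field K] [Group E] (f : K → K → E) : Prop where
  l : ∀ x x' y, f (x + x') y = f x y * f x' y
  r : ∀ x y y', f x (y + y') = f x y * f x y'

/-- adjoint pairs of scalars -/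
def FR {K E : Type*} [Field K] (f : K → K → E) (c d : K) : Prop := ∀ x y, f (c * x) y = f x (d * y)

namespace Bi

variable {K E : Type*} [Field K] [Group E] {f : K → K → E} (h : Bi f) {c d c' d' : K}
include h

theorem swap : Bi fun x y => f y x := ⟨fun _ _ _ => h.r .., fun _ _ _ => h.l ..⟩

theorem zl (y : K) : f 0 y = 1 := by simpa using h.l 0 0 y

theorem zr (y : K) : f y 0 = 1 := h.swap.zl y

omit h in
theorem one : FR f 1 1 := fun _ _ => by simp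

omit h in
theorem mul (h1 : FR f c d) (h2 : FR f c' d') : FR f (c * c') (d * d') := fun x y => by
  rw [mul_assoc, h1, h2, mul_left_comm, mul_assoc]

theorem add (h1 : FR f c d) (h2 : FR f c' d') : FR f (c + c') (d + d') := fun x y => by
  rw [add_mul, add_mul, h.l, h.r, h1, h2]

theorem neg (h1 : FR f c d) : FR f (-c) (-d) := fun x y => mul_left_cancel (a := f (c * x) y) (by
  rw [← h.l, h1, ← h.r]; simp [h.zl, h.zr])

theorem sub (h1 : FR f c d) (h2 : FR f c' d') : FR f (c - c') (d - d') := by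
  simpa [sub_eq_add_neg] using h.add h1 (h.neg h2)

omit h in
theorem of_inv (hd : d ≠ 0) (h1 : ∀ x y, f (c * x) (d * y) = f x y) : FR f c d⁻¹ := fun x y => by
  rw [← h1 x, mul_inv_cancel_left₀ hd]

theorem kill (h1 : FR f c d) (h2 : FR f c d') (hd : d ≠ d') (x y : K) : f x y = 1 := by
  rw [← mul_inv_cancel_left₀ (sub_ne_zero.2 hd) y, ← h.sub h1 h2, sub_self, zero_mul, h.zl]

theorem kill' (h1 : FR f c d) (h2 : FR f c' d) (hd : c ≠ c') (x y : K) : f x y = 1 := by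
  rw [← mul_inv_cancel_left₀ (sub_ne_zero.2 hd) x, h.sub h1 h2, sub_self, zero_mul, h.zr]

theorem kill_inv (h1 : ∀ c ≠ 0, FR f c c⁻¹) (h0 : c ≠ 0) (h2 : c + 1 ≠ 0) (h3 : c ^ 2 + c + 1 ≠ 0) (x y : K) : f x y = 1 :=
  h.kill (h1 _ h2) (h.add (h1 _ h0) one) (fun e => h3 (by field_simp at e; linear_combination -e)) x y

end Bi

namespace CExt

variable {E Γ : Type*} [Group E] [Group Γ] {π : E →* Γ} (X : CExt π)

/-- an invariant section over `M` -/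
structure Sec (B M : Subgroup Γ) (Q : Subgroup E) : Prop where
  surj : ∀ m ∈ M, ∃ e ∈ Q, π e = m
  mem : ∀ e ∈ Q, π e ∈ M
  inj : ∀ e ∈ Q, π e = 1 → e = 1
  inv : ∀ k ∈ B, ∀ e ∈ Q, X.cj k e ∈ Q

/-- invariant bimultiplicative maps vanish -/
def Van (E : Type*) [Group E] (B U M M' : Subgroup Γ) : Prop := ∀ F : Γ → Γ → E,
  (∀ a ∈ U, ∀ b ∈ U, ∀ y ∈ M', F (a * b) y = F a y * F b y) →
  (∀ a ∈ U, ∀ y ∈ M', ∀ y' ∈ M', F a (y * y') = F a y * F a y') →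
  (∀ k ∈ B, ∀ a ∈ U, ∀ y ∈ M', F (k * a * k⁻¹) (k * y * k⁻¹) = F a y) → (∀ a ∈ U, ∀ y ∈ M, F a y = 1) →
  (∀ a ∈ M, ∀ y ∈ M', F a y = 1) → ∀ a ∈ U, ∀ y ∈ M', F a y = 1

theorem sec_bot (B : Subgroup Γ) : X.Sec B ⊥ ⊥ :=
  ⟨fun _ h => ⟨1, one_mem _, by simpa [eq_comm] using h⟩, fun _ h => by simp [mem_bot.1 h], fun _ h _ => h,
    fun k _ _ h => by simpa using h⟩

theorem triv_of_cm {H : Subgroup Γ} (h : ∀ a ∈ H, ∀ b ∈ H, X.cm a b = 1) : ∀ z ∈ ⁅H.comap π, H.comap π⁆, π z = 1 → z = 1 :=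
  fun _ hz _ => mem_bot.1 (commutator_le.2 (fun _ ha _ hb => X.cm_eq rfl rfl ▸ mem_bot.2 (h _ ha _ hb)) hz)

include X in
theorem triv_of_cyc {H : Subgroup Γ} (h : IsCyclic H) : ∀ z ∈ ⁅H.comap π, H.comap π⁆, π z = 1 → z = 1 := by
  obtain ⟨x, rfl⟩ := (Subgroup.isCyclic_iff_exists_zpowers_eq_top H).1 h
  refine X.triv_of_cm ?_
  rintro _ ⟨i, rfl⟩ _ ⟨j, rfl⟩
  rw [X.cm_eq (a' := X.s x ^ i) (b' := X.s x ^ j) (by simp) (by simp)]
  exact (Commute.zpow_zpow_self ..).commutator_eq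

variable {X} {B U M M' : Subgroup Γ} {Q : Subgroup E} (h : X.Sec B M Q) (hU : U ≤ B) (hM : M' ≤ U)
  (hc : ∀ a ∈ U, ∀ y ∈ M', ⁅a, y⁆ ∈ M) (hv : Van E B U M M')
include h

theorem Sec.cm_left {a y : Γ} (ha : a ∈ B) (hy : y ∈ M) : X.cm a y ∈ Q := by
  obtain ⟨q, hq, e⟩ := h.surj _ hy
  exact X.cm_cj e ▸ mul_mem (h.inv a ha q hq) (inv_mem hq)

include hU hM hc hv

theorem Sec.cm_mem : ∀ a ∈ U, ∀ y ∈ M', X.cm a y ∈ Q := by
  have h1 : ∀ e, ∃ z, π e ∈ M → π z = 1 ∧ e * z⁻¹ ∈ Q := fun e => by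
    by_cases he : π e ∈ M
    · obtain ⟨q, hq, e'⟩ := h.surj _ he
      obtain ⟨z, hz, rfl⟩ := exists_z e'.symm
      exact ⟨z, fun _ => ⟨hz, by simpa⟩⟩
    · exact ⟨1, fun e => absurd e he⟩
  choose ρ hρ using h1
  have h2 : ∀ {e z}, π z = 1 → e * z⁻¹ ∈ Q → ρ e = z := fun {e z} hz hq => by
    have he : π e ∈ M := by simpa [hz] using h.mem _ hq
    exact mul_inv_eq_one.1 (h.inj _ (by simpa [mul_assoc] using mul_mem (inv_mem (hρ e he).2) hq) (by simp [hz, (hρ e he).1]))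
  have h3 : ∀ {e e'}, π e ∈ M → π e' ∈ M → ρ (e * e') = ρ e * ρ e' := fun {e e'} he he' =>
    h2 (by simp [(hρ e he).1, (hρ e' he').1]) (by
      convert mul_mem (hρ e he).2 (hρ e' he').2 using 1
      rw [mul_inv_rev, ← mul_assoc, mul_assoc e, mul_assoc e, mul_assoc e, X.comm (z := (ρ e)⁻¹) (by simp [(hρ e he).1])])
  have h4 : ∀ {k e}, k ∈ B → π e ∈ M → ρ (X.cj k e) = ρ e := fun {k e} hk he =>
    h2 (hρ e he).1 (by simpa [X.cj_z k (hρ e he).1] using h.inv k hk _ (hρ e he).2)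
  have h5 : ∀ a ∈ U, ∀ y ∈ M', π (X.cm a y) ∈ M := fun a ha y hy => X.π_cm a y ▸ hc a ha y hy
  have h6 := hv (fun a y => ρ (X.cm a y)) (fun a ha b hb y hy => ?_) (fun a ha y hy y' hy' => ?_)
    (fun k hk a ha y hy => by simp only [← X.cj_cm, h4 hk (h5 a ha y hy)])
    (fun a ha y hy => h2 (map_one π) (by simpa using h.cm_left (hU ha) hy))
    fun a ha y hy => h2 (map_one π) (by simpa [X.cm_inv] using inv_mem (h.cm_left (hU (hM hy)) ha))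
  · exact fun a ha y hy => by simpa [h6 a ha y hy] using (hρ _ (h5 a ha y hy)).2
  · have := (mul_mem_cancel_right (h5 a ha y hy)).1 (map_mul π _ _ ▸ X.cm_mul_left a b y ▸ h5 _ (mul_mem ha hb) y hy)
    simp only [X.cm_mul_left, h3 this (h5 a ha y hy), h4 (hU ha) (h5 b hb y hy)]
    exact X.comm (hρ _ (h5 a ha y hy)).1 _
  · have := (mul_mem_cancel_left (h5 a ha y hy)).1 (map_mul π _ _ ▸ X.cm_mul_right a y y' ▸ h5 a ha _ (mul_mem hy hy'))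
    simp only [X.cm_mul_right, h3 (h5 a ha y hy) this, h4 (hU (hM hy)) (h5 a ha y' hy')]

theorem Sec.top (hM' : U ≤ M') {z : E} (hz : z ∈ ⁅U.comap π, U.comap π⁆) (h1 : π z = 1) : z = 1 :=
  h.inj z (commutator_le.2 (fun _ ha _ hb => X.cm_eq rfl rfl ▸ h.cm_mem hU hM hc hv _ ha _ (hM' hb)) hz) h1

theorem Sec.step (hM' : M ≤ M') {g : Γ} (hg : g ∈ B) (hn : B ≤ N[M'])
    (hB : ∀ k ∈ B, ∃ u ∈ U, ∃ c ∈ B, c * g = g * c ∧ k = u * c) (h1 : ∀ y ∈ M', ⁅g, y⁆ ∈ M → y ∈ M)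
    (h2 : ∀ y ∈ M', ∃ y' ∈ M', y * ⁅g, y'⁆⁻¹ ∈ M) : ∃ Q', X.Sec B M' Q' := by
  have a1 := h.cm_mem hU hM hc hv
  have a2 : ∀ y ∈ M', π (X.cm g y) ∈ M' := fun y hy =>
    X.π_cm g y ▸ mul_mem (conj_mem_of_norm (hn hg) hy) (inv_mem hy)
  have a3 : ∀ u ∈ U, ∀ y ∈ M', X.cj u (X.cm g y) * (X.cm g y)⁻¹ ∈ Q := fun u hu y hy => X.cm_cj rfl ▸ a1 u hu _ (a2 y hy)
  have a4 : ∀ y ∈ M', ∀ q ∈ Q, X.cm g y * q * (X.cm g y)⁻¹ ∈ Q ∧ (X.cm g y)⁻¹ * q * (X.cm g y)⁻¹⁻¹ ∈ Q := fun y hy q hq =>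
    ⟨X.cj_eq rfl q ▸ h.inv _ (hU (hM (a2 y hy))) q hq,
      X.cj_eq (map_inv π _) q ▸ h.inv _ (inv_mem (hU (hM (a2 y hy)))) q hq⟩
  refine ⟨{ carrier := {e | ∃ y ∈ M', e * (X.cm g y)⁻¹ ∈ Q}
            one_mem' := ⟨1, one_mem _, by simp⟩
            mul_mem' := fun ⟨y, hy, he⟩ ⟨y', hy', he'⟩ => ⟨_, mul_mem hy hy', by
              convert mul_mem he (a4 y hy _ (mul_mem he' (inv_mem (a3 y (hM hy) y' hy')))).1 using 1
              rw [X.cm_mul_right]; group⟩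
            inv_mem' := fun ⟨y, hy, he⟩ => ⟨_, inv_mem hy, by
              convert mul_mem (a4 y hy _ (inv_mem he)).2 (a3 y (hM hy) _ (inv_mem hy)) using 1
              rw [eq_inv_of_mul_eq_one_right ((X.cm_mul_right g y y⁻¹).symm.trans (by simp))]; group⟩ },
    fun y hy => ?_, fun e ⟨y, hy, he⟩ => ?_, fun e ⟨y, hy, he⟩ e1 => ?_, fun k hk e ⟨y, hy, he⟩ => ?_⟩
  · obtain ⟨y', hy', h3⟩ := h2 y hy
    obtain ⟨q, hq, e⟩ := h.surj _ h3
    exact ⟨q * X.cm g y', ⟨y', hy', by simpa⟩, by rw [map_mul, e, X.π_cm, inv_mul_cancel_right]⟩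
  · simpa using mul_mem (hM' (h.mem _ he)) (a2 y hy)
  · have := h1 y hy (by simpa [e1, X.π_cm] using inv_mem (h.mem _ he))
    exact h.inj e (by simpa using mul_mem he (h.cm_left hg this)) e1
  · obtain ⟨u, hu, c, h3, h4, rfl⟩ := hB k hk
    have h5 := conj_mem_of_norm (hn h3) hy
    refine ⟨_, h5, ?_⟩
    convert mul_mem (h.inv _ hk _ he) (a3 u hu _ h5) using 1
    rw [map_mul (X.cj (u * c)), map_inv, map_mul X.cj u c, MulAut.mul_apply _ _ _ (X.cm g y), X.cj_cm, h4,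
      mul_inv_cancel_right]
    group

end CExt

end CfsgH6
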