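import Mathlib
import Cfsg.Agent.H6.Wt
import Cfsg.Agent.H6.Univ3
import Cfsg.Agent.H1.SL2P

/-! Central extensions of `SL₂`. -/

set_option autoImplicit false

namespace CfsgH6

open Matrix CfsgH1 Polynomial
open scoped MatrixGroups commutatorElement

variable {F : Type*} [Field F] {E : Type*} [Group E]

/-- diagonal elements -/
def sD (s : F) : SL(2, F) := sW s * sW (-1)

theorem sD_val {s : F} (h : s ≠ 0) : (sD s).1 = !![s, 0; 0, s⁻¹] := by
  show (sW s).1 * (sW (-1)).1 = _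
  rw [sW_val h, sW_val (by simp)]; simp

theorem sD_conj {s : F} (h : s ≠ 0) (t : F) : sD s * sU t * (sD s)⁻¹ = sU (s ^ 2 * t) := by
  rw [mul_inv_eq_iff_eq_mul]
  apply sl2_ext <;> simp [sl2_mul, sU_val, sD_val h]
  field_simp

theorem sD_comm {s t : F} (h : s ≠ 0) (h' : t ≠ 0) : sD s * sD t * (sD s)⁻¹ = sD t := by
  rw [mul_inv_eq_iff_eq_mul]
  apply sl2_ext <;> simp [sl2_mul, sD_val h, sD_val h', mul_comm]

theorem sW_conj (t : F) : sW 1 * sU t * (sW 1)⁻¹ = sL (-t) := by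
  rw [mul_inv_eq_iff_eq_mul]
  apply sl2_ext <;> simp [sl2_mul, sU_val, sL_val, sW_val]

theorem sW_eq {t : F} (h : t ≠ 0) : sW t = sW 1 * sD t⁻¹ := by
  apply sl2_ext <;> simp [sl2_mul, sW_val, sW_val h, sD_val (inv_ne_zero h)]

theorem CExt.cm_zpow {Γ : Type*} [Group Γ] {π : E →* Γ} (X : CExt π) (g : Γ) (a b : ℤ) : X.cm (g ^ a) (g ^ b) = 1 := by
  rw [X.cm_eq (a' := X.s g ^ a) (b' := X.s g ^ b) (by simp) (by simp)]
  exact ((Commute.refl _).zpow_zpow a b).commutator_eq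

theorem exists_eval_ne [Fintype F] {p : F[X]} (h0 : p ≠ 0) {n : ℕ} (h : p.natDegree ≤ n) (hn : n < Fintype.card F) :
    ∃ v, p.eval v ≠ 0 :=
  exists_eval_ne_zero_of_natDegree_lt_card p h0 (by rw [Cardinal.mk_fintype]; exact_mod_cast h.trans_lt hn)

theorem sU_zsmul (a : ℤ) (g : F) : sU (a • g) = sU g ^ a :=
  map_zsmul (AddMonoidHom.mk' (fun t : F => Additive.ofMul (sU t)) sU_add) a g

theorem com_SL2 [Fintype F] (h4 : Fintype.card F ≠ 4) (h9 : Fintype.card F ≠ 9) {π : E →* SL(2, F)} (X : CExt π)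
    (t u : F) : X.cm (sU t) (sU u) = 1 := by
  by_cases hp : (Fintype.card F).Prime
  · haveI := Fact.mk hp
    obtain ⟨g, hg⟩ := (isAddCyclic_of_prime_card (α := F) Nat.card_eq_fintype_card).exists_zsmul_surjective
    obtain ⟨a, rfl⟩ := hg t
    obtain ⟨b, rfl⟩ := hg u
    simp only [sU_zsmul, X.cm_zpow]
  have c : ∀ t u : F, Commute (sU t) (sU u) := fun t u => by rw [commute_iff_eq, ← sU_add, add_comm, sU_add]
  have B : Bi fun t u : F => X.cm (sU t) (sU u) := ⟨fun a b u => by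
    rw [add_comm, sU_add, X.cm_mul_left_of (c _ _)], fun a b u => by rw [sU_add, X.cm_mul_right_of (c _ _)]⟩
  have k : ∀ s : F, s ≠ 0 → FR (fun t u : F => X.cm (sU t) (sU u)) (s ^ 2) (s ^ 2)⁻¹ := fun s hs =>
    Bi.of_inv (pow_ne_zero _ hs) fun x y => by
      rw [← sD_conj hs, ← sD_conj hs, ← X.cj_cm, X.cj_z _ (X.π_cm_of (c _ _))]
  have h1 := Fintype.one_lt_card (α := F)
  by_cases h2 : ringChar F = 2
  · obtain ⟨v, hv⟩ := exists_eval_ne (F := F) (p := Polynomial.X * (Polynomial.X + 1) * (Polynomial.X ^ 2 + Polynomial.X + 1))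
      (Monic.ne_zero (by monicity!)) (n := 4) (by compute_degree) (by
        by_contra h
        generalize Fintype.card F = q at *
        have : q ≤ 4 := by omega
        interval_cases q <;> simp_all [Nat.prime_two, Nat.prime_three])
    simp only [eval_mul, eval_X, eval_add, eval_one, eval_pow, mul_ne_zero_iff] at hv
    refine B.kill_inv (fun c hc => ?_) hv.1.1 hv.1.2 hv.2 t u
    obtain ⟨s, rfl⟩ := FiniteField.isSquare_of_char_two h2 c
    exact sq s ▸ k s (left_ne_zero_of_mul hc)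
  · have h3 := FiniteField.odd_card_of_char_ne_two h2
    obtain ⟨v, hv⟩ := exists_eval_ne (F := F) (p := Polynomial.X * (Polynomial.X + 1) * (Polynomial.X - 1) *
      (Polynomial.X ^ 2 + 1) * (Polynomial.X ^ 4 - 3 * Polynomial.X ^ 2 + 1))
      (Monic.ne_zero (by monicity!)) (n := 9) (by compute_degree) (by
        by_contra h
        generalize Fintype.card F = q at *
        have : q ≤ 9 := by omega
        interval_cases q <;> first | omega | exact hp (by norm_num))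
    simp only [eval_mul, eval_X, eval_add, eval_sub, eval_one, eval_pow, mul_ne_zero_iff, eval_ofNat] at hv
    obtain ⟨⟨⟨⟨a1, a2⟩, a3⟩, a4⟩, a5⟩ := hv
    have e1 := B.add (k _ a2) (k _ a3)
    have e2 := B.add (B.add (k _ a1) Bi.one) (B.add (k _ a1) Bi.one)
    rw [show v ^ 2 + 1 + (v ^ 2 + 1) = (v + 1) ^ 2 + (v - 1) ^ 2 by ring] at e2
    refine B.kill e1 e2 (fun e => mul_ne_zero (Ring.two_ne_zero h2) (mul_ne_zero a4 a5) ?_) t u
    field_simp at e
    linear_combination -e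

theorem split_SL2 [Fintype F] (h3 : 4 ≤ Fintype.card F) (h4 : Fintype.card F ≠ 4) (h9 : Fintype.card F ≠ 9)
    {π : E →* SL(2, F)} (X : CExt π) : ∃ τ : SL(2, F) →* E, π.comp τ = MonoidHom.id _ := by
  obtain ⟨v, hv⟩ := exists_eval_ne (F := F) (p := Polynomial.X * (Polynomial.X ^ 2 - 1)) (Monic.ne_zero (by monicity!)) (n := 3)
    (by compute_degree) h3
  simp only [eval_mul, eval_X, eval_sub, eval_one, eval_pow, mul_ne_zero_iff] at hv
  let x : F → E := fun t => X.cm (sD v) (sU (t / (v ^ 2 - 1)))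
  have e : ∀ t, π (x t) = sU t := fun t => by
    rw [X.π_cm, commutatorElement_def, sD_conj hv.1, ← sU_neg, ← sU_add]
    congr 1; field_simp [hv.2]; ring
  have xa : ∀ s t, x (s + t) = x s * x t := fun s t => by
    simp only [x]
    rw [add_div, sU_add, X.cm_mul_right, X.cj_of_cm (by rw [e]; exact com_SL2 h4 h9 X _ _)]
  let y : F → E := fun t => X.cj (sW 1) (x (-t))
  have e' : ∀ t, π (y t) = sL t := fun t => by rw [X.π_cj, e, sW_conj, neg_neg]
  have H : St2 x y := ⟨xa, fun s t => by simp only [y]; rw [neg_add, xa, map_mul], fun t ht r => by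
    rw [← X.cj_eq (g := sW t) (by simp [stW, e, e', sW]), sW_eq ht, map_mul, MulAut.mul_apply]
    simp only [x, y]
    rw [X.cj_cm (sD t⁻¹), sD_comm (inv_ne_zero ht) hv.1, sD_conj (inv_ne_zero ht)]
    congr 3; field_simp⟩
  obtain ⟨φ, h1, h2⟩ := H.exists_hom H.relC
  refine ⟨φ, MonoidHom.ext fun g => ?_⟩
  exact (sl2_le_of (H := (π.comp φ).eqLocus (MonoidHom.id _)) (fun t => show π (φ (sU t)) = sU t by rw [h1, e])
    (fun t => show π (φ (sL t)) = sL t by rw [h2, e'])).ge (Subgroup.mem_top g)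

theorem lift_of_split {Δ Γ : Type*} [Group Δ] [Group Γ] {π : E →* Γ} (X : CExt π) (σ : Δ →* Γ)
    (h : ∃ τ : Δ →* _, ((MonoidHom.fst Δ E).comp
      (MonoidHom.eqLocus (σ.comp (MonoidHom.fst Δ E)) (π.comp (MonoidHom.snd Δ E))).subtype).comp τ = MonoidHom.id _) :
    ∃ τ : Δ →* E, π.comp τ = σ := by
  obtain ⟨τ, h⟩ := h
  exact ⟨(MonoidHom.snd _ _).comp ((Subgroup.subtype _).comp τ), MonoidHom.ext fun d =>
    (τ d).2.symm.trans (congrArg σ (DFunLike.congr_fun h d))⟩

theorem perfect_SL2 (h : ∃ v : F, v ≠ 0 ∧ v ^ 2 ≠ 1) : commutator SL(2, F) = ⊤ := by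
  obtain ⟨v, h0, h1⟩ := h
  have k : ∀ t : F, sU t ∈ commutator SL(2, F) := fun t => by
    have : ⁅sD v, sU (t / (v ^ 2 - 1))⁆ = sU t := by
      rw [commutatorElement_def, sD_conj h0, ← sU_neg, ← sU_add]
      congr 1; field_simp [sub_ne_zero.2 h1]; ring
    exact this ▸ Subgroup.commutator_mem_commutator trivial trivial
  exact sl2_le_of k fun t => by
    rw [← neg_neg t, ← sW_conj]; exact Subgroup.Normal.conj_mem inferInstance _ (k _) _

end CfsgH6
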