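import Mathlib
import Cfsg.Agent.H6.SM2
import Cfsg.Agent.H1.Schur2
import Cfsg.Agent.H8.PslC
import Cfsg.Agent.H5.SLBasic

/-! Schur multipliers of `SL₂` and `PSL₂`. -/

set_option autoImplicit false

universe u

namespace CfsgH6

open Matrix CfsgH1
open scoped MatrixGroups commutatorElement

theorem CExt.triv_q8 {E Γ : Type*} [Group E] [Group Γ] {π : E →* Γ} (X : CExt π) {a b : Γ} (h1 : a * a = b * b)
    (h2 : ⁅a, b⁆ = a * a) (h3 : a * a ≠ 1) :
    ∀ z ∈ ⁅(Subgroup.closure {a, b}).comap π, (Subgroup.closure {a, b}).comap π⁆, π z = 1 → z = 1 := by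
  have ca : X.cm a (a * a) = 1 := by rw [X.cm_mul_right_of (Commute.refl _)]; simp
  have cb : X.cm b (a * a) = 1 := by rw [h1, X.cm_mul_right_of (Commute.refl _)]; simp
  have k : ∀ g ∈ Subgroup.closure {a, b}, X.cj g (X.cm a b) = X.cm a b := fun g hg => by
    refine Subgroup.closure_induction (p := fun g _ => X.cj g (X.cm a b) = X.cm a b) ?_ (by simp) (fun x y _ _ hx hy => by
      rw [map_mul, MulAut.mul_apply, hy, hx]) (fun x _ hx => by rw [map_inv, MulAut.inv_apply, MulEquiv.symm_apply_eq, hx]) hg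
    rintro x (rfl | rfl) <;> exact X.cj_of_cm (by rwa [X.π_cm, h2])
  have c2 : X.cm a b * X.cm a b = 1 := by
    have := X.cm_mul_left a a b
    rw [X.cm_symm cb, k a (Subgroup.subset_closure (by simp))] at this
    exact this.symm
  let K : Subgroup E := Subgroup.zpowers (X.cm a b)
  have kK : ∀ g ∈ Subgroup.closure {a, b}, ∀ z ∈ K, X.cj g z ∈ K := by
    rintro g hg _ ⟨i, rfl⟩; exact ⟨i, by simp only [map_zpow, k g hg]⟩
  have r : ∀ x ∈ Subgroup.closure {a, b}, X.cm x a ∈ K → X.cm x b ∈ K → ∀ g ∈ Subgroup.closure {a, b}, X.cm x g ∈ K :=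
    fun x _ ha hb g hg => by
    refine Subgroup.closure_induction (p := fun g _ => X.cm x g ∈ K) (by rintro _ (rfl | rfl) <;> assumption) (by simp)
      (fun y z hy _ h h' => by rw [X.cm_mul_right]; exact K.mul_mem h (kK y hy _ h')) (fun y hy h => ?_) hg
    have := X.cm_mul_right x y⁻¹ y
    rw [inv_mul_cancel, X.cm_one_right, eq_comm, mul_eq_one_iff_eq_inv] at this
    exact this ▸ K.inv_mem (kK _ (inv_mem hy) _ h)
  have m : X.cm a b ∈ K := Subgroup.mem_zpowers _
  have sy : ∀ x y, X.cm x y ∈ K → X.cm y x ∈ K := fun x y h => X.cm_inv x y ▸ K.inv_mem h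
  have ha : a ∈ Subgroup.closure {a, b} := Subgroup.subset_closure (by simp)
  have hb : b ∈ Subgroup.closure {a, b} := Subgroup.subset_closure (by simp)
  intro z hz h
  obtain ⟨i, rfl⟩ : z ∈ K := (Subgroup.commutator_le.2 fun x hx y hy => by
    rw [← X.cm_eq rfl rfl]
    exact r _ hx (sy _ _ (r a ha (by simp) m _ hx)) (sy _ _ (r b hb (sy _ _ m) (by simp) _ hx)) _ hy) hz
  obtain ⟨j, rfl | rfl⟩ := Int.even_or_odd' i
  · simp only [_root_.zpow_mul, zpow_two, c2, _root_.one_zpow]
  · simp only [_root_.zpow_add, _root_.zpow_mul, zpow_two, c2, _root_.one_zpow, one_mul, zpow_one] at h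
    exact absurd (by rw [← h, X.π_cm, h2]) h3

theorem sm_SL2_two : Cfsg.HasCyclicSchurMultiplier SL(2, ZMod 2) 1 := sm_one fun E _ _ π X p hp => by
  haveI := Fact.mk hp
  obtain ⟨P⟩ : Nonempty (Sylow p SL(2, ZMod 2)) := inferInstance
  refine ⟨P, P.not_dvd_index, X.triv_of_cyc ?_⟩
  have h : Nat.card SL(2, ZMod 2) = 6 := by simpa [Fin.prod_univ_two] using CfsgH5.card_SL (F := ZMod 2) 2 one_le_two
  have h2 := P.card_eq_multiplicity
  rw [h, show 6 = 2 * 3 from rfl, Nat.factorization_mul (by simp) (by simp), Nat.prime_two.factorization,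
    Nat.prime_three.factorization] at h2
  by_cases a : p = 2
  · subst a; exact isCyclic_of_prime_card (p := 2) (by simpa using h2)
  by_cases b : p = 3
  · subst b; exact isCyclic_of_prime_card (p := 3) (by simpa using h2)
  rw [show P.toSubgroup = ⊥ by simpa [Ne.symm a, Ne.symm b] using h2]
  infer_instance

theorem sm_SL2_three : Cfsg.HasCyclicSchurMultiplier SL(2, ZMod 3) 1 := sm_one fun E _ _ π X p hp => by
  haveI := Fact.mk hp
  obtain ⟨P⟩ : Nonempty (Sylow p SL(2, ZMod 3)) := inferInstance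
  have h : Nat.card SL(2, ZMod 3) = 24 := by
    have := CfsgH5.card_SL (F := ZMod 3) 2 one_le_two
    simp only [Fin.prod_univ_two, ZMod.card] at this
    generalize Nat.card SL(2, ZMod 3) = c at *
    norm_num at this; omega
  have h2 := P.card_eq_multiplicity
  rw [h, show 24 = 2 ^ 3 * 3 from rfl, Nat.factorization_mul (by simp) (by simp), Nat.prime_two.factorization_pow,
    Nat.prime_three.factorization] at h2
  by_cases a : p = 2
  · subst a
    let a : SL(2, ZMod 3) := ⟨!![0, 1; -1, 0], by decide⟩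
    let b : SL(2, ZMod 3) := ⟨!![1, 1; 1, -1], by decide⟩
    refine ⟨Subgroup.closure {a, b}, fun h => P.not_dvd_index (h.trans (Subgroup.index_dvd_of_le fun g hg => ?_)),
      X.triv_q8 (by decide) (by decide +kernel) (by decide)⟩
    have : ∀ g : SL(2, ZMod 3), g ^ 8 = 1 → ∃ i : Fin 4, ∃ j : Fin 2, g = a ^ (i : ℕ) * b ^ (j : ℕ) := by decide +kernel
    obtain ⟨i, j, rfl⟩ := this g (by
      have := congrArg Subtype.val (pow_card_eq_one' (x := (⟨g, hg⟩ : (P : Subgroup SL(2, ZMod 3)))))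
      rw [h2] at this; simpa using this)
    exact mul_mem (pow_mem (Subgroup.subset_closure (by simp)) _) (pow_mem (Subgroup.subset_closure (by simp)) _)
  refine ⟨P, P.not_dvd_index, X.triv_of_cyc ?_⟩
  by_cases b : p = 3
  · subst b; exact isCyclic_of_prime_card (p := 3) (by simpa using h2)
  rw [show P.toSubgroup = ⊥ by simpa [Ne.symm a, Ne.symm b] using h2]
  infer_instance

theorem perfect_SL2' {F : Type*} [Field F] [Fintype F] (h : 4 ≤ Fintype.card F) : commutator SL(2, F) = ⊤ := by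
  obtain ⟨v, hv⟩ := exists_eval_ne (F := F) (p := Polynomial.X * (Polynomial.X ^ 2 - 1))
    (Polynomial.Monic.ne_zero (by monicity!)) (n := 3) (by compute_degree) h
  simp only [Polynomial.eval_mul, Polynomial.eval_X, Polynomial.eval_sub, Polynomial.eval_one, Polynomial.eval_pow,
    mul_ne_zero_iff, sub_ne_zero] at hv
  exact perfect_SL2 ⟨v, hv⟩

/-- from a perfect group whose central extensions split -/
theorem hasSM_of_split {Δ : Type u} [Group Δ] [Finite Δ] (hp : commutator Δ = ⊤)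
    (h : ∀ (E : Type u) [Group E] (π : E →* Δ), CExt π → ∃ τ : Δ →* E, π.comp τ = MonoidHom.id _)
    {G₀ : Type u} [Group G₀] (θ : Δ →* G₀) (hθ : CExt θ) {A : Type*} [CommGroup A] (e : θ.ker ≃* A) :
    Cfsg.HasSchurMultiplier G₀ A :=
  hasSM_of_univ ⟨hθ.surj, hθ.cent, hp ▸ le_top⟩ e fun _ _ _ _ X => lift_of_split X θ (h _ _ (X.pullback θ))

theorem center_SL_equiv {F : Type*} [Field F] [Fintype F] (n : ℕ) [NeZero n] :
    Nonempty (Subgroup.center SL(n, F) ≃* Multiplicative (ZMod (Nat.gcd n (Fintype.card F - 1)))) := by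
  haveI : IsCyclic (Subgroup.center SL(n, F)) :=
    (SpecialLinearGroup.center_equiv_rootsOfUnity' (R := F) (0 : Fin n)).symm.isCyclic.1 inferInstance
  have := CfsgH5.card_center_SL (ι := Fin n) (F := F)
  rw [Fintype.card_fin, Nat.card_eq_fintype_card (α := F)] at this
  exact ⟨this ▸ (zmodCyclicMulEquiv ‹_›).symm⟩

end CfsgH6
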