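import Mathlib
import Cfsg.Agent.H6.PS2
import Cfsg.Agent.H6.RD5
import Cfsg.Agent.H6.RC2
import Cfsg.Agent.H6.SM3

/-! Schur multipliers of linear groups. -/

set_option autoImplicit false

universe u

namespace CfsgH6

open Matrix Cfsg.Lie
open scoped commutatorElement MatrixGroups

theorem Cover.tor_of_A {D : ChevalleyDatum} {G : Good D} {F : Type*} [Field F] {Γ : Type*} [Group Γ] (C : Cover G F Γ)
    {r s : Fin D.nroots} {c : ℤ} (h : G.A s r = c) (h' : G.A r s = c) (hc : c = 1 ∨ c = -1) {v : F} (h0 : v ≠ 0)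
    (h3 : v ^ 3 ≠ 1) : C.Tor r s := by
  have k := zpow_ne_zero (-2 * c) h0
  refine ⟨C.h s v * C.h r (v ^ (-2 * c)), mul_mem (C.h_mem_HH _ h0) (C.h_mem_HH _ k), ?_, _, ?_,
    (C.act_h s r h0).mul (C.act_h r r k)⟩
  · convert (C.act_h s s h0).mul (C.act_h r s k) using 1
    rw [G.A_self, h', ← _root_.zpow_mul, ← zpow_add₀ h0]
    rcases hc with rfl | rfl <;> simp
  · rw [G.A_self, h, ← _root_.zpow_mul, ← zpow_add₀ h0]
    exact zpow_ne_one_of (by rcases hc with rfl | rfl <;> rfl) h3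

theorem Cover.hasSM_quot {D : ChevalleyDatum} {G : Good D} {F : Type u} [Field F] [Finite F] {Γ : Type u} [Group Γ]
    (C : Cover G F Γ) (hG : C.Gr = ⊤) (h : Function.Injective (C.R3_of_finite hG).τ)
    (hp : commutator (D.SteinbergGroup F) = ⊤) (hU : G.Univ F) {A : Type*} [CommGroup A] (e : Subgroup.center Γ ≃* A) :
    Cfsg.HasSchurMultiplier (Γ ⧸ Subgroup.center Γ) A := by
  obtain ⟨f⟩ := C.exists_stEquiv hG h
  obtain ⟨C', h1, h2, -⟩ := C.exists_quot hG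
  exact C'.hasSM h1 h2 hp hU ((Subgroup.centerCongr f).trans e)

theorem avoid3 {m : ℕ} (h : 3 ≤ m) (a b : ℕ) : ∃ k < m, k ≠ a ∧ k ≠ b := by
  by_contra! k
  have := k 0; have := k 1; have := k 2; omega

theorem avoid4 {m : ℕ} (h : 4 ≤ m) (a b c : ℕ) : ∃ k < m, k ≠ a ∧ k ≠ b ∧ k ≠ c := by
  by_contra! k
  have := k 0; have := k 1; have := k 2; have := k 3; omega

theorem avoid5 {m : ℕ} (h : 5 ≤ m) (a b c d : ℕ) : ∃ k < m, k ≠ a ∧ k ≠ b ∧ k ≠ c ∧ k ≠ d := by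
  by_contra! k
  have := k 0; have := k 1; have := k 2; have := k 3; have := k 4; omega

theorem arithA {i j k l : ℕ} {a b c d : ℤ} (h1 : i < 3) (h2 : j < 3) (h3 : k < 3) (h4 : l < 3) (ha : a = 1 ∨ a = -1)
    (hb : b = 1 ∨ b = -1) (hc : c = 1 ∨ c = -1) (hd : d = 1 ∨ d = -1) (h5 : i ≠ j) (h6 : a ≠ b) (h7 : k ≠ l) (h8 : c ≠ d)
    (k1 : ¬ ((k = i ∧ c = a) ∧ l = j ∧ d = b) ∧ ¬ ((k = j ∧ c = b) ∧ l = i ∧ d = a))
    (k2 : ¬ ((k = i ∧ c = -a) ∧ l = j ∧ d = -b) ∧ ¬ ((k = j ∧ c = -b) ∧ l = i ∧ d = -a)) :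
    ((if k = i then c * a else 0) + if l = i then d * a else 0) + ((if k = j then c * b else 0) + if l = j then d * b else 0) = 1 ∨
    ((if k = i then c * a else 0) + if l = i then d * a else 0) + ((if k = j then c * b else 0) + if l = j then d * b else 0) = -1 := by
  rcases ha with rfl | rfl <;> rcases hb with rfl | rfl <;> rcases hc with rfl | rfl <;> rcases hd with rfl | rfl <;>
    (try contradiction) <;> interval_cases i <;> interval_cases j <;> (try contradiction) <;> interval_cases k <;>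
    interval_cases l <;> revert h7 k1 k2 <;> decide

namespace CD

variable {m : ℕ} {J : Type} (C : CD m J)

theorem exists_ix {k : ℕ} (h : k < m) {s : ℤ} (hs : s = 1 ∨ s = -1) : ∃ b, C.ix b = k ∧ C.sg b = s := by
  rcases hs with rfl | rfl
  · exact ⟨C.p k, C.ix_p k h, C.sg_p k h⟩
  · exact ⟨C.ν (C.p k), by rw [C.ix_ν, C.ix_p k h], by rw [C.sg_ν, C.sg_p k h]⟩

variable {l n : ℕ} {J₀ : Type} [Fintype J₀] [DecidableEq J₀] {R : RD l (Fin m) (Fin n) J₀} {C} {ok : J → J → Prop}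
  (H : C.Pairs R ok) {S : R.Sorted} {F : Type*} [Field F] {Γ : Type*} [Group Γ] (X : Cover S.good F Γ)
include H

theorem Pairs.x_mem {a b c : J} (h1 : ok a b) (h2 : ok (C.ν b) c) (h : C.ix a ≠ C.ix c) (t : F) :
    X.x (C.ρ R a c) t ∈ ⁅X.Gr, X.Gr⁆ := by
  obtain ⟨t1, t2, e⟩ := (H.sm X h1 h2 h).dec t
  exact e ▸ Subgroup.commutator_mem_commutator (X.x_mem_Gr _ _) (X.x_mem_Gr _ _)

theorem Pairs.perfect (hG : X.Gr = ⊤) (hall : ∀ r, ∃ a b, ok a b ∧ R.v r = C.wt a + C.wt b)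
    (hr : ∀ {a c}, ok a c → ∃ b, ok a b ∧ ok (C.ν b) c) : commutator Γ = ⊤ :=
  Cover.perfect_top hG (X.perfect_of_sm fun i t => by
    obtain ⟨a, c, h, e⟩ := hall (S.good.sm i)
    obtain ⟨b, h1, h2⟩ := hr h
    exact ρ_eq e ▸ H.x_mem X h1 h2 (H.ne h) t)

theorem Pairs.com_self {E : Type*} [Group E] {π : E →* Γ} (Y : CExt π) {a b c : J} (h1 : ok a b) (h2 : ok (C.ν b) c)
    (h : C.ix a ≠ C.ix c) : X.Com Y (C.ρ R a c) (C.ρ R a c) := by
  have cm : ∀ a b, C.ρ R a b = C.ρ R b a := fun a b => by simp only [ρ, add_comm]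
  have k := H.ne h2
  refine Cover.com_of_dec (H.cmm_share X (H.comp h1 h2 h) h1 fun e => k (by rw [e, C.νν])) ?_ (H.sm X h1 h2 h).dec
  rw [cm a, cm _ c]
  exact H.cmm_share X (H.symm (H.comp h1 h2 h)) (H.symm h2) fun e => H.ne h1 (by rw [C.ν_inj.1 e])

end CD

section
variable {l : ℕ} (hl : 2 ≤ l)

/-- index data for type A -/
abbrev cdA : CD (l + 1) (Fin (l + 1) ⊕ Fin (l + 1)) := cdD (by omega)

/-- admissible pairs for type A -/
def okA (a b : Fin (l + 1) ⊕ Fin (l + 1)) : Prop := (cdA hl).ix a ≠ (cdA hl).ix b ∧ (cdA hl).sg a ≠ (cdA hl).sg b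

theorem sgA (a : Fin (l + 1) ⊕ Fin (l + 1)) : (cdA hl).sg a = 1 ∨ (cdA hl).sg a = -1 := by
  rcases a with a | a <;> simp [cdK]

theorem wtA (a : Fin (l + 1)) : (cdA hl).wt (.inl a) = uv a ∧ (cdA hl).wt (.inr a) = - uv a := by
  constructor <;> ext k <;> simp [CD.wt, cdK, uv_apply, Fin.ext_iff] <;> split_ifs <;> simp

theorem roomA {a c : Fin (l + 1) ⊕ Fin (l + 1)} (h : okA hl a c) {k : ℕ} (hk : k < l + 1) (h1 : k ≠ (cdA hl).ix a)
    (h2 : k ≠ (cdA hl).ix c) : ∃ b, okA hl a b ∧ okA hl ((cdA hl).ν b) c ∧ (cdA hl).ix b = k := by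
  obtain ⟨b, e1, e2⟩ := (cdA hl).exists_ix hk (sgA hl c)
  have := sgA hl c
  exact ⟨b, ⟨by omega, e2 ▸ h.2⟩, ⟨by rw [CD.ix_ν]; omega, by rw [CD.sg_ν]; omega⟩, e1⟩

variable {n : ℕ} (e : Fin n ≃ ΦA l)

theorem hallA (r : Fin n) : ∃ a b, okA hl a b ∧ ((rdA l hl).comap e).v r = (cdA hl).wt a + (cdA hl).wt b :=
  ⟨.inl (e r).1.1, .inr (e r).1.2, ⟨Fin.val_ne_of_ne (e r).2, by simp [cdK]⟩, by
    rw [(wtA hl _).1, (wtA hl _).2, ← sub_eq_add_neg]; rfl⟩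

theorem pairsA : (cdA hl).Pairs ((rdA l hl).comap e) (okA hl) where
  root k := by obtain ⟨a, b, -, h⟩ := hallA hl e k; exact ⟨a, b, h.symm⟩
  ne := And.left
  sg {a _} _ := by have := sgA hl a; omega
  ex := by
    rintro (a | a) (b | b) ⟨h1, h2⟩
    · exact absurd rfl h2
    · exact ⟨e.symm ⟨(a, b), Fin.ne_of_val_ne h1⟩, by simp [RD.comap, rdA, wtA, sub_eq_add_neg]⟩
    · exact ⟨e.symm ⟨(b, a), Fin.ne_of_val_ne h1.symm⟩, by simp [RD.comap, rdA, wtA, sub_eq_add_neg, add_comm]⟩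
    · exact absurd rfl h2
  symm h := ⟨h.1.symm, h.2.symm⟩
  neg h := ⟨by rw [CD.ix_ν, CD.ix_ν]; exact h.1, by rw [CD.sg_ν, CD.sg_ν, neg_inj.ne]; exact h.2⟩
  comp {a b c} h1 h2 h := ⟨h, by
    have := sgA hl a; have := sgA hl b; have := sgA hl c; have := h1.2; have := h2.2; rw [CD.sg_ν] at this; omega⟩

variable {e} (S : ((rdA l hl).comap e).Sorted) {F : Type u} [Field F]

theorem perfectA {Γ : Type*} [Group Γ] (X : Cover S.good F Γ) (hG : X.Gr = ⊤) : commutator Γ = ⊤ :=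
  (pairsA hl e).perfect X hG (hallA hl e) fun {a c} h => by
    obtain ⟨k, h0, h1, h2⟩ := avoid3 (m := l + 1) (by omega) ((cdA hl).ix a) ((cdA hl).ix c)
    obtain ⟨b, h3, h4, -⟩ := roomA hl h h0 h1 h2
    exact ⟨b, h3, h4⟩

theorem univA (h : 4 ≤ l ∨ (l = 3 ∧ ∃ a : F, a ≠ 0 ∧ a ≠ 1) ∨ (l = 2 ∧ ∃ v : F, v ≠ 0 ∧ v ^ 3 ≠ 1)) : S.good.Univ F :=
  fun E _ π Y => by
  have H := pairsA hl e
  by_cases h2 : l = 2
  · obtain ⟨v, v0, v3⟩ : ∃ v : F, v ≠ 0 ∧ v ^ 3 ≠ 1 := by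
      rcases h with h | h | h; omega; omega; exact h.2
    have hall : ∀ r, ∃ a b, okA hl a b ∧ r = (cdA hl).ρ ((rdA l hl).comap e) a b := fun r => by
      obtain ⟨a, b, h1, h2⟩ := hallA hl e r
      exact ⟨a, b, h1, (CD.ρ_eq h2).symm⟩
    refine Cover.exists_rel_of_tor (X := Y) (S.good.sc_Gr F) (perfectA hl S _ (S.good.sc_Gr F)) (fun r => ?_) (fun r => ?_)
      fun r s k1 k2 => Or.inl ?_
    · obtain ⟨a, c, h, rfl⟩ := hall r
      obtain ⟨k, h0, h1, h2⟩ := avoid3 (m := l + 1) (by omega) ((cdA hl).ix a) ((cdA hl).ix c)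
      obtain ⟨b, h3, h4, h5⟩ := roomA hl h h0 h1 h2
      exact H.com_self _ Y h3 h4 h.1
    · obtain ⟨a, c, h, rfl⟩ := hall r
      obtain ⟨k, h0, h1, h2⟩ := avoid3 (m := l + 1) (by omega) ((cdA hl).ix a) ((cdA hl).ix c)
      obtain ⟨b, h3, h4, h5⟩ := roomA hl h h0 h1 h2
      refine Cover.move_of (g := (cdA hl).ρ ((rdA l hl).comap e) a b) (d := 1) ?_ v0 fun e => v3 (by rw [pow_one] at e; simp [e])
      rw [S.A_eq, H.A_ρ h3, H.v_ρ h]
      simp [CD.dot_ne, CD.dot_self, H.sg h, h.1, h3.1.symm, show (cdA hl).ix b ≠ (cdA hl).ix c by omega]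
    obtain ⟨a, b, h1, rfl⟩ := hall r
    obtain ⟨c, d, h3, rfl⟩ := hall s
    refine Cover.tor_of_A _ rfl (by rw [S.A_eq, S.A_eq, H.A_ρ h1, H.A_ρ h3, H.v_ρ h1, H.v_ρ h3, dotProduct_comm]) ?_ v0 v3
    have k : ∀ {a b c d}, (cdA hl).ρ ((rdA l hl).comap e) c d ≠ (cdA hl).ρ ((rdA l hl).comap e) a b →
        ¬ (c = a ∧ d = b) ∧ ¬ (c = b ∧ d = a) := fun k => by
      constructor <;> rintro ⟨rfl, rfl⟩ <;> exact k (by simp only [CD.ρ, add_comm])
    rw [H.rev_ρ S h1] at k2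
    have k1 := k k1
    have k2 := k k2
    simp only [(cdA hl).eq_iff, CD.ix_ν, CD.sg_ν] at k1 k2
    rw [S.A_eq, H.A_ρ h3, H.v_ρ h1]
    simp only [add_dotProduct, dotProduct_add, CD.dot]
    have b3 : ∀ a, (cdA hl).ix a < 3 := fun a => by have := (cdA hl).sgc a; have := sgA hl a; omega
    exact arithA (b3 a) (b3 b) (b3 c) (b3 d) (sgA hl a) (sgA hl b) (sgA hl c) (sgA hl d) h1.1 h1.2 h3.1 h3.2 k1 k2
  have hr : (cdA hl).Room (okA hl) := fun {a c} h i => by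
    obtain ⟨k, h0, h1, h2, h3⟩ := avoid4 (m := l + 1) (by omega) ((cdA hl).ix a) ((cdA hl).ix c) i
    obtain ⟨b, h5, h6, rfl⟩ := roomA hl h h0 h1 h2
    exact ⟨b, h5, h6, h3⟩
  refine H.exists_rel (S.good.sc F) Y hr (fun {a b} h1 h2 => ?_) ?_ (hallA hl e)
  · have := sgA hl a; have := sgA hl b; have := h1.2; have := h2.2; rw [CD.sg_ν] at this; omega
  rcases h with h | h | h
  · refine PSys.good_of_room _ fun {a c} k i j => ?_
    obtain ⟨k, h0, h1, h2, h3, h4⟩ := avoid5 (m := l + 1) (by omega) ((cdA hl).ix a) ((cdA hl).ix c) i j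
    obtain ⟨b, h5, h6, rfl⟩ := roomA hl ‹_› h0 h1 h2
    exact ⟨b, h5, h6, h3, h4⟩
  · intro a b c d h1 h2 a1 a2 a3 a4
    refine H.com_disj (S.good.sc F) Y h.2 h1 h2 a1 a2 a3 a4 ?_
    simp only [okA, CD.ix_ν, CD.sg_ν]
    have := sgA hl a; have := sgA hl b; have := sgA hl c; have := sgA hl d; have := h1.2; have := h2.2
    change (cdA hl).ix _ ≠ (cdA hl).ix _ at a1 a2 a3 a4
    omega
  · exact absurd h.1 h2

include hl in
theorem hasSM_PSL [Fintype F]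
    (h : 4 ≤ l ∨ (l = 3 ∧ ∃ a : F, a ≠ 0 ∧ a ≠ 1) ∨ (l = 2 ∧ ∃ v : F, v ≠ 0 ∧ v ^ 3 ≠ 1)) :
    Cfsg.HasCyclicSchurMultiplier (ProjectiveSpecialLinearGroup (Fin (l + 1)) F) (Nat.gcd (l + 1) (Fintype.card F - 1)) := by
  obtain ⟨n, e, ⟨S⟩⟩ := (rdA l hl).exists_sorted
  obtain ⟨C, h1, h2⟩ := exists_cover_SL hl S F
  refine C.hasSM_quot h1 (RD.Sorted.τ_inj _ SpecialLinearGroup.coeMonoidHom (fun r t => ?_) (fun _ => rfl)
    (of fun a j => if (a : ℕ) ≤ j then 1 else 0) ?_) (perfectA hl S _ (S.good.st_Gr F)) (univA hl S h)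
    (center_SL_equiv (l + 1)).some
  · rw [h2]
    ext a b
    change (1 + single (e r).1.1 (e r).1.2 t) a b = _
    simp [RD.comap, rdA, RD.xm, single]
  · ext i j
    have := congrFun (psum_sm i) j
    simp only [psum, LinearMap.coe_mk, AddHom.coe_mk] at this
    simp [mul_apply, RD.comap, rdA, one_apply, uv_apply, eq_comm] at this ⊢
    exact this

end

end CfsgH6
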