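import Mathlib
import Cfsg.Agent.H6.SMA

/-! The spin covers. -/

set_option autoImplicit false
set_option linter.unusedSectionVars false

universe u

namespace CfsgH6

open Matrix Cfsg.Lie CfsgH5 CForm CliffordAlgebra

theorem pow_eq_one_of_add {F E : Type*} [Field F] [Group E] {x : F → E} (h : ∀ t u, x (t + u) = x t * x u) {p : ℕ}
    (hp : (p : F) = 0) (t : F) : x t ^ p = 1 := by
  have := map_nsmul (AddMonoidHom.mk' (fun t : F => Additive.ofMul (x t)) h) p t
  rw [nsmul_eq_mul, hp, zero_mul, map_zero] at this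
  exact this.symm

theorem Good.Univ.pow_eq {D : ChevalleyDatum} {G : Good D} {F : Type u} [Field F] [Finite F] (hU : G.Univ F) {E : Type u}
    [Group E] {π : E →* D.SteinbergCover F} (X : CExt π) {y : Fin D.nroots → F → E} (hy : ∀ r t, π (y r t) = (G.sc F).x r t)
    (ha : ∀ r t u, y r (t + u) = y r t * y r u) {p : ℕ} (hp : (p : F) = 0) (L : List (Fin D.nroots)) (t : F)
    (h : (L.map fun r => (G.st F).h r t).prod = 1) : (L.map fun r => hG y r t).prod ^ p = 1 := by
  obtain ⟨y', h1, h2⟩ := hU E π X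
  obtain ⟨f, hf⟩ := G.exists_scEquiv (F := F)
  let N : Subgroup E :=
    { carrier := {z | π z = 1 ∧ z ^ p = 1}
      one_mem' := by simp
      mul_mem' := fun {a b} ha hb => ⟨by simp [ha.1, hb.1], by
        rw [Commute.mul_pow (X.comm hb.1 a), ha.2, hb.2, one_mul]⟩
      inv_mem' := fun {a} ha => ⟨by simp [ha.1], by simp [ha.2]⟩ }
  haveI : N.Normal := ⟨fun z hz g => by rwa [X.comm hz.1 g, mul_inv_cancel_right]⟩
  have k : ∀ r t, QuotientGroup.mk' N (y r t) = QuotientGroup.mk' N (y' r t) := fun r t => by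
    obtain ⟨z, z1, z2⟩ := CExt.exists_z ((h1 r t).trans (hy r t).symm)
    have := pow_eq_one_of_add (h2.add r) hp t
    rw [z2, Commute.mul_pow (X.comm z1 _), pow_eq_one_of_add (ha r) hp, one_mul] at this
    exact (QuotientGroup.mk'_eq_mk' _).2 ⟨z, ⟨z1, this⟩, z2.symm⟩
  have k1 : (L.map fun r => hG y' r t).prod = 1 := by
    have := congrArg ((G.scLift h2).comp f.symm.toMonoidHom) h
    rw [map_list_prod, List.map_map, map_one] at this
    refine Eq.trans (congrArg _ (List.map_congr_left fun r _ => ?_)) this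
    simp only [Function.comp, ← Cover.hG_eq, map_hG, ← hf]
    simp [G.scLift_x]
  refine ((QuotientGroup.eq_one_iff (N := N) _).1 ?_).2
  have := congrArg (QuotientGroup.mk' N) k1
  rw [map_list_prod, List.map_map, map_one] at this
  refine Eq.trans ?_ this
  rw [← QuotientGroup.mk'_apply, map_list_prod, List.map_map]
  simp only [Function.comp_def, map_hG, k]

theorem eich_cl {F V : Type*} [Field F] [AddCommGroup V] [Module F V] {Q : QuadraticForm F V} {g : V ≃ₗ[F] V} {x a : V}
    {c : F} (h : (ofQuad Q).IsEich g x a c) (v : V) :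
    (1 + ι Q x * ι Q a) * ι Q v = ι Q (g v) * (1 + ι Q x * ι Q a) := by
  have h1 : ι Q x * ι Q x = 0 := by rw [ι_sq_scalar, show Q x = 0 from h.hx, map_zero]
  have h2 : ι Q a * ι Q x = - (ι Q x * ι Q a) := by rw [ι_mul_ι_comm, show QuadraticMap.polar Q a x = 0 from h.ha]; simp
  have h3 : ι Q a * ι Q a = c • 1 := by rw [ι_sq_scalar, ← show c = Q a from h.hc, Algebra.algebraMap_eq_smul_one]
  have h4 : ι Q a * ι Q v = (ofQuad Q).B v a • 1 - ι Q v * ι Q a := by
    rw [ι_mul_ι_comm, Algebra.algebraMap_eq_smul_one, QuadraticMap.polar_comm]; rfl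
  have h5 : ι Q x * (ι Q v * ι Q a) = (ofQuad Q).B v x • ι Q a - ι Q v * (ι Q x * ι Q a) := by
    rw [← mul_assoc, ι_mul_ι_comm, Algebra.algebraMap_eq_smul_one, QuadraticMap.polar_comm, sub_mul, smul_one_mul, mul_assoc]; rfl
  have h6 : ι Q a * (ι Q x * ι Q a) = - c • ι Q x := by rw [← mul_assoc, h2, neg_mul, mul_assoc, h3]; simp
  have h7 : ι Q x * (ι Q x * ι Q a) = 0 := by rw [← mul_assoc, h1, zero_mul]
  rw [h.app, show (FP.orth F).ε = 1 from rfl]
  simp only [map_add, map_sub, map_smul, add_mul, sub_mul, mul_add, mul_sub, one_mul, mul_one, smul_mul_assoc, mul_smul_comm,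
    mul_assoc, h4, h5, h6, h7]
  module

namespace CD

variable {m : ℕ} {J : Type} {C : CD m J} [DecidableEq J] [Fintype J] {F : Type u} [Field F] (Q : QuadraticForm F (J → F))

/-- the basis in the Clifford algebra -/
noncomputable def cl (a : J) : CliffordAlgebra Q := ι Q (Pi.single a 1)

variable (C) in
/-- the root elements in the Clifford algebra -/
noncomputable def cE (r : C.Φ) : CliffordAlgebra Q := (C.sg r.1.1 : F) • (cl Q r.1.1 * cl Q r.1.2)

variable {Q} (h : C.Ad (ofQuad Q))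
include h

theorem Ad.ε1 (h2 : (2 : F) ≠ 0) : C.ε = 1 := C.εc.resolve_right fun k => h2 (by
  have : (1 : F) = C.ε := h.ε
  rw [k.1] at this
  push_cast at this
  linear_combination this)

theorem Ad.cl_sq (a : J) : cl Q a * cl Q a = if C.sg a = 0 then 1 else 0 := by
  rw [cl, ι_sq_scalar, show Q _ = _ from h.Q a 1]
  split_ifs <;> simp [FP.orth]

theorem Ad.cl_add (a b : J) : cl Q a * cl Q b + cl Q b * cl Q a = if C.ν b = a then (C.γ b : F) • 1 else 0 := by
  rw [cl, cl, ι_mul_ι_add_swap, show QuadraticMap.polar Q _ _ = _ from h.B _ b 1, Pi.single_apply]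
  split_ifs
  · rw [mul_one, mul_one, Algebra.algebraMap_eq_smul_one]
  · simp

theorem Ad.cl_ne {a b : J} (k : C.ix a ≠ C.ix b) : cl Q a * cl Q b = - (cl Q b * cl Q a) := by
  rw [eq_neg_iff_add_eq_zero, h.cl_add, if_neg fun e => k (by rw [← e, C.ix_ν])]

theorem Ad.cl_ν (he : C.ε = 1) {a : J} (k : C.sg a ≠ 0) : cl Q a * cl Q (C.ν a) + cl Q (C.ν a) * cl Q a = 1 := by
  rw [h.cl_add, if_pos (C.νν a)]
  rcases C.sgc a with ⟨-, e | e⟩ | ⟨-, e⟩
  iterate 2 norm_num [γ, he, C.sg_ν, e]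
  exact absurd e k

theorem Ad.cl_tri (he : C.ε = 1) (a : J) : cl Q a * cl Q (C.ν a) * cl Q a = cl Q a := by
  by_cases k : C.sg a = 0
  · rw [show C.ν a = a by simp [C.eq_iff, C.ix_ν, C.sg_ν, k], h.cl_sq, if_pos k, one_mul]
  · rw [mul_assoc, ← sub_eq_iff_eq_add'.2 (h.cl_ν he k).symm, mul_sub, ← mul_assoc, h.cl_sq, if_neg k]; simp

theorem Ad.cE_sq (he : C.ε = 1) (r : C.Φ) : C.cE Q r * C.cE Q r = 0 := by
  have k := r.2.resolve_right fun k => by omega
  have := r.sg1
  rw [cE, smul_mul_smul_comm, mul_assoc, ← mul_assoc (cl Q r.1.2), h.cl_ne k.ne', neg_mul, mul_neg, ← mul_assoc, ← mul_assoc,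
    h.cl_sq, if_neg (by omega)]
  simp

theorem Ad.cE_mul (he : C.ε = 1) (r : C.Φ) : C.cE Q r * C.cE Q (C.neg r) =
    cl Q r.1.1 * cl Q (C.ν r.1.1) * (cl Q r.1.2 * cl Q (C.ν r.1.2)) := by
  have k := r.2.resolve_right fun k => by omega
  rw [cE, cE, smul_mul_smul_comm, mul_assoc, ← mul_assoc (cl Q r.1.2), h.cl_ne (a := r.1.2) (by simpa [neg, C.ix_ν] using k.ne')]
  rcases r.sg1.2 with e | e <;> simp [neg, C.sg_ν, e, mul_assoc]

theorem Ad.cE_tri (he : C.ε = 1) (r : C.Φ) : C.cE Q r * C.cE Q (C.neg r) * C.cE Q r = C.cE Q r := by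
  have k := r.2.resolve_right fun k => by omega
  have c : Commute (cl Q r.1.2 * cl Q (C.ν r.1.2)) (cl Q r.1.1) := by
    rw [commute_iff_eq, mul_assoc, h.cl_ne (a := C.ν _) (by simpa [C.ix_ν] using k.ne'), mul_neg, ← mul_assoc, h.cl_ne k.ne']
    simp [mul_assoc]
  rw [h.cE_mul he, cE, mul_smul_comm, mul_assoc, ← mul_assoc (_ * _) (cl Q r.1.1), c.eq, ← mul_assoc, ← mul_assoc, h.cl_tri he,
    mul_assoc, h.cl_tri he]

theorem Ad.spin [Finite F] (h2 : (2 : F) ≠ 0) {n : ℕ} {e : Fin n ≃ C.Φ} (S : (C.rd.comap e).Sorted) (hU : S.good.Univ F)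
    (L : List (Fin n)) (hL : (L.map fun r => 1 + (-2 : F) • (C.cE Q (e r) * C.cE Q (C.neg (e r))) +
      (-2 : F) • (C.cE Q (C.neg (e r)) * C.cE Q (e r))).prod = -1) : (L.map fun r => (S.good.st F).h r (-1)).prod ≠ 1 := by
  intro h1
  have he := h.ε1 h2
  obtain ⟨X, -, hX⟩ := h.exists_cover S
  let ρ := S.good.scLift X.rel
  let Γ : Subgroup ((C.rd.comap e).D.SteinbergCover F × (CliffordAlgebra Q)ˣ) :=
    { carrier := {p | ∀ v, p.2 * ι Q v = ι Q ((ρ p.1).1 v) * p.2}
      one_mem' := by simp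
      mul_mem' := fun {a b} ha hb v => by
        simp only [Prod.snd_mul, Units.val_mul, Prod.fst_mul, map_mul]
        rw [mul_assoc, hb, ← mul_assoc, ha, mul_assoc]; rfl
      inv_mem' := fun {a} ha v => by
        simp only [Prod.snd_inv, Prod.fst_inv, map_inv]
        rw [Units.inv_mul_eq_iff_eq_mul, ← mul_assoc, ha]; simp }
  let u : Fin n → F → (CliffordAlgebra Q)ˣ := fun r t => ⟨1 + t • C.cE Q (e r), 1 - t • C.cE Q (e r),
    by simp [mul_sub, add_mul, smul_mul_smul_comm, h.cE_sq he], by simp [mul_add, sub_mul, smul_mul_smul_comm, h.cE_sq he]⟩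
  let y : Fin n → F → Γ := fun r t => ⟨((S.good.sc F).x r t, u r t), fun v => by
    have k := (e r).2.resolve_right fun k => by omega
    have k1 : (e r).1.1 ≠ (e r).1.2 := fun e => k.ne (congrArg _ e)
    have := eich_cl (((h.eich k1 t).2 _).2 (hX r t)) v
    have k2 : (-(C.γ (C.ν (e r).1.1) * C.c2 (e r).1.1 (e r).1.2) * t : F) = t * C.sg (e r).1.1 := by
      rcases (e r).sg1.2 with s | s <;> norm_num [γ, c2, he, C.sg_ν, s]
    simp only [ρ, Good.scLift_x]
    rwa [k2, ← mul_one (t * _), ← smul_eq_mul (t * _), Pi.single_smul, map_smul, mul_smul_comm, mul_smul] at this⟩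
  let π := (MonoidHom.fst _ _).comp Γ.subtype
  have Y : CExt π := ⟨MonoidHom.range_eq_top.1 (eq_top_iff.2 ((S.good.sc_Gr F).ge.trans ((Subgroup.closure_le _).2 (by
    rintro _ ⟨r, -, t, rfl⟩; exact ⟨y r t, rfl⟩)))), fun z hz => Subgroup.mem_center_iff.2 fun g => by
      have k : z.1.1 = 1 := hz
      have k1 : ∀ a : CliffordAlgebra Q, Commute a z.1.2 := fun a => by
        induction a using CliffordAlgebra.induction with
        | algebraMap r => exact Algebra.commute_algebraMap_left _ _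
        | ι v => simpa [k, commute_iff_eq] using (z.2 v).symm
        | mul a b ha hb => exact ha.mul_left hb
        | add a b ha hb => exact ha.add_left hb
      exact Subtype.ext (Prod.ext (by simp [k]) (Units.ext (k1 _).eq))⟩
  obtain ⟨p, hp⟩ := CharP.exists F
  have := hU.pow_eq Y (y := y) (fun _ _ => rfl) (fun r t t' => Subtype.ext (Prod.ext ((S.good.sc F).add _ _ _) (Units.ext (by
    simp [y, u, mul_add, add_mul, smul_mul_smul_comm, h.cE_sq he, add_smul]; abel)))) (CharP.cast_eq_zero F p) L _ h1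
  have := congrArg ((Units.coeHom _).comp ((MonoidHom.snd _ _).comp Γ.subtype)) this
  rw [map_pow, map_list_prod, List.map_map, List.map_congr_left (g := fun r => 1 + (-2 : F) • (C.cE Q (e r) * C.cE Q (C.neg (e r))) +
      (-2 : F) • (C.cE Q (C.neg (e r)) * C.cE Q (e r))) fun r _ => ?_, hL, map_one,
    Odd.neg_one_pow ((CharP.char_is_prime F p).odd_of_ne_two fun e => h2 (by simpa [e] using CharP.cast_eq_zero F p))] at this
  · haveI i2 := invertibleOfNonzero h2
    exact h2 (FaithfulSMul.algebraMap_injective F (CliffordAlgebra Q) (by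
      rw [map_ofNat, map_zero, ← one_add_one_eq_two, ← neg_eq_iff_add_eq_zero, this]))
  · have k : e r.rev = C.neg (e r) := by rw [← S.neg_rev]; simp [RD.comap, rd]
    have := h_formula (F := F) (h.cE_sq he (e r)) (h.cE_sq he (C.neg (e r))) (h.cE_tri he _)
      (by simpa [neg] using h.cE_tri he (C.neg (e r))) (t := -1) (by simp)
    simp only [Function.comp, hG, map_mul]
    rw [← k] at this ⊢
    exact this.trans (by norm_num)

end CD

end CfsgH6
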