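import Mathlib
import Cfsg.Agent.H6.Spin

/-! Schur multipliers of split orthogonal groups in even dimension. -/

set_option autoImplicit false
set_option linter.unusedSectionVars false

universe u

namespace CfsgH6

open Matrix Cfsg.Lie CfsgH5 CForm Finset

theorem prod_range_iff {A : Type*} [CommGroup A] {m : ℕ} {f : ℕ → A} {x : A} :
    (∀ j < m, ∏ k ∈ range (j + 1), f k = x ^ (j + 1)) ↔ ∀ k < m, f k = x := by
  refine ⟨fun h k hk => ?_, fun h j hj => by
    rw [prod_congr rfl fun k hk => h k (by have := mem_range.1 hk; omega), prod_const, card_range]⟩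
  rcases k with _ | k
  · simpa using h 0 hk
  · have := h _ hk
    rwa [prod_range_succ, h k (by omega), pow_succ x (k + 1), mul_left_cancel_iff] at this

namespace CD

variable {m : ℕ} {J : Type} (C : CD m J)

/-- pairs of distinct nonzero weights -/
def okL (a b : J) : Prop := C.ix a ≠ C.ix b ∧ C.sg a ≠ 0 ∧ C.sg b ≠ 0

theorem roomL {a c : J} (h : C.okL a c) {k : ℕ} (hk : k < m) (h1 : k ≠ C.ix a) (h2 : k ≠ C.ix c) :
    ∃ b, C.okL a b ∧ C.okL (C.ν b) c ∧ C.ix b = k := by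
  obtain ⟨b, e1, e2⟩ := C.exists_ix hk (Or.inl rfl)
  exact ⟨b, ⟨by omega, h.2.1, by omega⟩, ⟨by rw [CD.ix_ν]; omega, by rw [CD.sg_ν]; omega, h.2.2⟩, e1⟩

theorem room4 (hm : 4 ≤ m) : C.Room C.okL := fun {a c} h i => by
  obtain ⟨k, h0, h1, h2, h3⟩ := avoid4 hm (C.ix a) (C.ix c) i
  obtain ⟨b, h5, h6, rfl⟩ := C.roomL h h0 h1 h2
  exact ⟨b, h5, h6, h3⟩

theorem room5 (hm : 5 ≤ m) {a c : J} (h : C.okL a c) (i j : ℕ) : ∃ b, C.okL a b ∧ C.okL (C.ν b) c ∧ C.ix b ≠ i ∧ C.ix b ≠ j := by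
  obtain ⟨k, h0, h1, h2, h3, h4⟩ := avoid5 hm (C.ix a) (C.ix c) i j
  obtain ⟨b, h5, h6, rfl⟩ := C.roomL h h0 h1 h2
  exact ⟨b, h5, h6, h3, h4⟩

theorem okL_ν {a b : J} : C.okL a (C.ν b) ↔ C.okL a b := by simp [okL, C.ix_ν, C.sg_ν]

variable [DecidableEq J] [Fintype J] {n : ℕ} (e : Fin n ≃ C.Φ)

theorem pairsL : C.Pairs (C.rd.comap e) C.okL where
  root k := ⟨_, _, rfl⟩
  ne := And.left
  sg h := h.2.1
  ex {a b} h := by
    obtain ⟨r, k | k⟩ := C.exists_root (a := a) (b := b) (fun e => h.1 (by rw [e, C.ix_ν])) fun e => absurd (congrArg _ e) h.1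
    all_goals exact ⟨e.symm r, by simp [RD.comap, rd, v, k, add_comm]⟩
  symm h := ⟨h.1.symm, h.2.2, h.2.1⟩
  neg h := by simpa [okL, C.ix_ν, C.sg_ν] using h
  comp h1 h2 h := ⟨h, h1.2.1, h2.2.2⟩

variable {e} (S : (C.rd.comap e).Sorted) {F : Type u} [Field F]

theorem cmm_bad (he : C.ε = 1) {Γ : Type*} [Group Γ] (X : Cover S.good F Γ) {a b : J} (h1 : C.okL a b) (h2 : C.okL a (C.ν b)) :
    X.Cmm (C.ρ (C.rd.comap e) a b) (C.ρ (C.rd.comap e) a (C.ν b)) := by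
  have H := C.pairsL e
  refine RD.Sorted.cmm X ?_ fun k h => ?_ <;> rw [H.v_ρ h1, H.v_ρ h2] at *
  · exact H.sum_ne h1 (fun e => by have := C.sg_ν a; have := h1.2.1; rw [← e] at *; omega)
      fun e => h1.1 (by rw [e, C.νν])
  · have := C.pair (c := a) (d := a) (h.trans (by rw [wt_ν]; abel)) (e k).ne1
    have := (e k).2.resolve_right fun k => by omega
    aesop

/-- eigenvalues of the torus -/
noncomputable def tv (c : Fin m → Fˣ) (a : J) : Fˣ := pw Fˣ (of fun i a => C.rd.pr (C.sm i) a) c a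

theorem tv_ν (c : Fin m → Fˣ) (a : J) : C.tv c (C.ν a) = (C.tv c a)⁻¹ := by
  simp only [tv, pw_apply, of_apply, ← prod_inv_distrib, ← _root_.zpow_neg, rd, wt_ν, dotProduct_neg, mul_neg, apply_ite Neg.neg]

include S in
theorem cartan_apply (c : Fin m → Fˣ) (j : Fin m) :
    pw Fˣ (cartanM (C.rd.comap e).D) c j = C.tv c (C.sm j).1.1 * C.tv c (C.sm j).1.2 := by
  simp only [tv, pw_apply, of_apply, ← prod_mul_distrib, ← _root_.zpow_add]
  refine prod_congr rfl fun i _ => congrArg _ ?_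
  rw [S.good.cartanM_apply, S.A_eq, S.sm_eq]
  refine RD.A_of _ ?_
  have h1 := C.rd.pr_eq (C.sm i) (C.sm j).1.1
  have h2 := C.rd.pr_eq (C.sm i) (C.sm j).1.2
  simp only [RD.len, RD.ip, RD.comap, Equiv.apply_symm_apply]
  rw [add_mul]
  exact (congrArg₂ (· + ·) h1 h2).trans (by simp only [rd, v, dotProduct_add]; ring)

include S in
theorem mem_K {c : Fin m → Fˣ} : c ∈ (pw Fˣ (cartanM (C.rd.comap e).D)).ker ↔
    (∀ k < m, C.tv c (C.p k) = C.tv c (C.p 0)) ∧ C.tv c (C.p (m - 1 - C.δ)) * C.tv c C.z = 1 := by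
  have := C.hm
  simp only [MonoidHom.mem_ker, funext_iff, Pi.one_apply]
  refine (forall_congr' fun j => by rw [C.cartan_apply S c j]).trans ⟨fun h => ⟨fun k => ?_, ?_⟩, fun h j => ?_⟩
  · induction k with
    | zero => exact fun _ => rfl
    | succ k ih =>
      intro hk
      have := h ⟨k, by omega⟩
      simp only [sm, hk, dif_pos, tv_ν, mul_inv_eq_one] at this
      rw [← this, ih (by omega)]
  · simpa [sm, show ¬ (m - 1 + 1 < m) by omega] using h ⟨m - 1, by omega⟩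
  · unfold sm
    split_ifs with k
    · rw [tv_ν, h.1 _ j.2, h.1 _ k, mul_inv_cancel]
    · exact h.2

theorem sum_dot (x : Fin m → ℤ) (j : Fin m) : ∑ k ∈ range (j + 1), x ⬝ᵥ C.wt (C.p k) = psum x j := by
  rw [sum_congr rfl (g := fun k => ∑ i : Fin m, if (i : ℕ) = k then x i else 0) fun k hk => by
    have : k < m := by have := mem_range.1 hk; omega
    simp [dotProduct, wt, C.ix_p k this, C.sg_p k this], sum_comm]
  simp [psum, Nat.lt_succ_iff]

theorem prod_tv (he : C.ε = 1) (c : Fin m → Fˣ) (j : Fin m) : ∏ k ∈ range (j + 1), C.tv c (C.p k) =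
    c j ^ (2 - C.sg (C.sm j).1.2 ^ 2) * c C.lst ^ ((2 - C.sg C.z ^ 2) * C.w j) := by
  have := C.hm
  have zs : ∀ (a : Fˣ) (g : ℕ → ℤ) (j : ℕ), ∏ k ∈ range j, a ^ g k = a ^ ∑ k ∈ range j, g k := fun a g j => by
    induction j with
    | zero => simp
    | succ j ih => rw [prod_range_succ, sum_range_succ, ih, _root_.zpow_add]
  simp only [tv, pw_apply, of_apply]
  rw [prod_comm]
  have k : ∀ i, ∏ k ∈ range (j + 1), c i ^ C.rd.pr (C.sm i) (C.p k) =
      (if i = j then c i ^ (2 - C.sg (C.sm i).1.2 ^ 2) else 1) *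
        if i = C.lst then c i ^ ((2 - C.sg (C.sm i).1.2 ^ 2) * C.w j) else 1 := fun i => by
    have k := (C.sm i).2.resolve_right fun k => by omega
    have k1 : (C.sm i).1.1 ≠ (C.sm i).1.2 := fun e => k.ne (congrArg _ e)
    simp only [zs, rd, k1, if_false, ← mul_sum, sum_dot, psum_sm, uv_apply, mul_add, _root_.zpow_add, @eq_comm _ j]
    split_ifs <;> simp
  simp only [k, prod_mul_distrib, prod_ite_eq', mem_univ, if_true]
  congr 4
  simp [sm, lst, show ¬ (m - 1 + 1 < m) by omega]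

variable {C} {P : FP F} {f : CForm P (J → F)} in
theorem Ad.exists_rep [Finite F] (h : C.Ad f) : ∃ ρ : (C.rd.comap e).D.SteinbergGroup F →* Matrix J J F,
    ∀ r t, ρ ((S.good.st F).x r t) = (C.rd.comap e).xm F r t := by
  obtain ⟨X, hG, hX⟩ := h.exists_cover S
  refine ⟨(((LinearMap.toMatrixAlgEquiv' (R := F) (n := J)).toMulEquiv.toMonoidHom.comp
    LinearEquiv.automorphismGroup.toLinearMapMonoidHom).comp f.E.subtype).comp
      (S.good.stLift X.rel (X.R3_of_finite hG)), fun r t => Matrix.ext_of_mulVec_single fun a => ?_⟩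
  exact (LinearMap.toMatrix'_mulVec _ _).trans ((congrArg (fun g : f.E => g.1 _) 
    (S.good.stLift_x X.rel (X.R3_of_finite hG) r t)).trans (hX _ _ _))

/-- idempotents in the Clifford algebra -/
noncomputable def cπ (Q : QuadraticForm F (J → F)) (a : J) : CliffordAlgebra Q := cl Q a * cl Q (C.ν a)

section
variable {C} {Q : QuadraticForm F (J → F)} (h : C.Ad (ofQuad Q))
include h

theorem Ad.cπ_ν (he : C.ε = 1) {a : J} (k : C.sg a ≠ 0) : C.cπ Q (C.ν a) = 1 - C.cπ Q a := by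
  rw [← h.cl_ν he k, cπ, cπ, C.νν, add_sub_cancel_left]

theorem Ad.cπ_sq (he : C.ε = 1) (a : J) : C.cπ Q a * C.cπ Q a = C.cπ Q a := by rw [cπ, ← mul_assoc, h.cl_tri he]

theorem Ad.cπ_comm {a b : J} (k : C.ix a ≠ C.ix b) : Commute (C.cπ Q a) (C.cπ Q b) := by
  have : ∀ {a}, C.ix a ≠ C.ix b → Commute (cl Q a) (C.cπ Q b) := fun {a} k => by
    rw [commute_iff_eq, cπ, ← mul_assoc, h.cl_ne k, neg_mul, mul_assoc, h.cl_ne (by rwa [C.ix_ν])]
    simp [mul_assoc]
  exact (this k).mul_left (this (by rwa [C.ix_ν]))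

theorem Ad.spin' [Finite F] (h2 : (2 : F) ≠ 0) (hU : S.good.Univ F) (L : List (Fin m))
    (hL : (L.map fun i => 1 + (-2 : F) • (C.cπ Q (C.sm i).1.1 * C.cπ Q (C.sm i).1.2) +
      (-2 : F) • (C.cπ Q (C.ν (C.sm i).1.1) * C.cπ Q (C.ν (C.sm i).1.2))).prod = -1) :
    (L.map fun i => (S.good.st F).h (S.good.sm i) (-1)).prod ≠ 1 := by
  have := h.spin h2 S hU (L.map S.good.sm) (by
    rw [List.map_map, ← hL]
    refine congrArg _ (List.map_congr_left fun i _ => ?_)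
    have k : e (S.good.sm i) = C.sm i := by rw [S.sm_eq]; simp [RD.comap, rd]
    have := h.cE_mul (h.ε1 h2) (C.neg (C.sm i))
    rw [show C.neg (C.neg (C.sm i)) = C.sm i by simp [neg]] at this
    simp only [Function.comp, k, h.cE_mul (h.ε1 h2), this]
    rfl)
  rwa [List.map_map] at this

end

end CD

section
variable {m : ℕ} (hm : 3 ≤ m) {n : ℕ} {e : Fin n ≃ (cdD hm).Φ} (S : ((cdD hm).rd.comap e).Sorted) {F : Type u} [Field F]

theorem sgD (a : Fin m ⊕ Fin m) : (cdD hm).sg a ≠ 0 := by rcases a with a | a <;> simp [cdK]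

variable (e) in
theorem hallD (r : Fin n) : ∃ a b, (cdD hm).okL a b ∧ ((cdD hm).rd.comap e).v r = (cdD hm).wt a + (cdD hm).wt b :=
  ⟨_, _, ⟨((e r).2.resolve_right fun k => by simp [cdK] at k).ne, sgD hm _, sgD hm _⟩, rfl⟩

theorem perfectD {Γ : Type*} [Group Γ] (X : Cover S.good F Γ) (hG : X.Gr = ⊤) : commutator Γ = ⊤ :=
  ((cdD hm).pairsL e).perfect X hG (hallD hm e) fun {a c} h => by
    obtain ⟨k, h0, h1, h2⟩ := avoid3 hm ((cdD hm).ix a) ((cdD hm).ix c)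
    obtain ⟨b, h3, h4, -⟩ := (cdD hm).roomL h h0 h1 h2
    exact ⟨b, h3, h4⟩

theorem univD (h : 5 ≤ m ∨ (m = 4 ∧ ∃ a : F, a ≠ 0 ∧ a ≠ 1)) : S.good.Univ F := fun E _ π Y => by
  have H := (cdD hm).pairsL e
  refine H.exists_rel (S.good.sc F) Y ((cdD hm).room4 (by omega)) ((cdD hm).cmm_bad S rfl _) ?_ (hallD hm e)
  rcases h with h | h
  · exact PSys.good_of_room _ ((cdD hm).room5 h)
  · intro a b c d h1 h2 a1 a2 a3 a4
    exact H.com_disj (S.good.sc F) Y h.2 h1 h2 a1 a2 a3 a4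
      (Or.inl ⟨(cdD hm).okL_ν.2 ⟨a1, sgD _ _, sgD _ _⟩, (cdD hm).okL_ν.2 ⟨a4, sgD _ _, sgD _ _⟩⟩)

theorem prod_tvD (c : Fin m → Fˣ) (j : Fin m) :
    ∏ k ∈ range (j + 1), (cdD hm).tv c ((cdD hm).p k) = c j * c (cdD hm).lst ^ (if m ≤ j + 2 then 1 else 0) := by
  have k : ∀ a, 2 - (cdD hm).sg a ^ 2 = 1 := by rintro (a | a) <;> simp [cdK]
  rw [(cdD hm).prod_tv rfl, k, k, zpow_one, one_mul, CD.w]
  have := j.2
  split_ifs <;> first | omega | simp [cdK, pK]

theorem τ_injD [Finite F] (hU : S.good.Univ F) : Function.Injective (S.good.st_R3 F).τ := by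
  have h := adaptD (F := F) hm
  obtain ⟨ρ, hρ⟩ := h.exists_rep S
  refine (injective_iff_map_eq_one _).2 fun c hc => ?_
  have h1 := RD.Sorted.τ_diag (S.good.st_R3 F) ρ hρ (fun r => by simp [RD.comap, CD.rd, sgD]) c
  rw [hc, map_one, ← diagonal_one] at h1
  have h2 : ∀ j : Fin m, c j * c (cdD hm).lst ^ (if m ≤ j + 2 then 1 else 0) = 1 := fun j => by
    rw [← prod_tvD]
    refine prod_eq_one fun k _ => Units.ext ?_
    have := (congrFun (diagonal_injective h1) ((cdD hm).p k)).symm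
    simp only [RD.comap, Equiv.apply_symm_apply] at this
    exact this
  have h3 := h2 (cdD hm).lst
  rw [if_pos (by simp [CD.lst]; omega), pow_one, Units.ext_iff, Units.val_mul, Units.val_one, mul_self_eq_one_iff] at h3
  by_cases h4 : c (cdD hm).lst = 1
  · exact funext fun j => by simpa [h4] using h2 j
  have h5 : c (cdD hm).lst = -1 := Units.ext (h3.resolve_left fun e => h4 (Units.ext e))
  have h6 : (2 : F) ≠ 0 := fun e => h4 (Units.ext (by rw [h5, Units.val_neg, Units.val_one]; linear_combination -e))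
  let i : Fin m := ⟨m - 2, by omega⟩
  have a1 : (cdD hm).sm i = ⟨((cdD hm).p (m - 2), (cdD hm).ν ((cdD hm).p (m - 1))), by
      simpa [CD.sm, i, show m - 2 + 1 = m - 1 by omega, show m - 1 < m by omega] using ((cdD hm).sm i).2⟩ := by
    simp [CD.sm, i, show m - 2 + 1 = m - 1 by omega, show m - 1 < m by omega]
  have a2 : ((cdD hm).sm (cdD hm).lst).1 = ((cdD hm).p (m - 2), (cdD hm).p (m - 1)) := by
    simp [CD.sm, CD.lst, show ¬ (m - 1 + 1 < m) by omega]; exact ⟨rfl, rfl⟩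
  refine absurd ?_ (h.spin' S h6 hU [i, (cdD hm).lst] ?_)
  · rw [← hc, show c = Pi.mulSingle i (-1) * Pi.mulSingle (cdD hm).lst (-1) from funext fun j => ?_, map_mul,
      Cover.R3.τ_single, Cover.R3.τ_single]
    · simp
    have k1 := h2 j
    have k2 : (j : ℕ) < m := j.2
    rw [h5] at k1
    simp only [Pi.mul_apply, Pi.mulSingle_apply, Fin.ext_iff, i, CD.lst]
    clear h1 h2 a1 a2
    split_ifs at * <;> first | omega | simpa [neg_eq_iff_eq_neg] using k1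
  · have c1 := h.cπ_sq rfl ((cdD hm).p (m - 2))
    have c2 := h.cπ_sq rfl ((cdD hm).p (m - 1))
    have c3 := h.cπ_comm (a := (cdD hm).p (m - 1)) (b := (cdD hm).p (m - 2)) (by
      rw [CD.ix_p _ _ (by omega), CD.ix_p _ _ (by omega)]; omega)
    simp only [List.map_cons, List.map_nil, List.prod_cons, List.prod_nil, a1, a2, CD.νν, h.cπ_ν rfl (sgD hm _)]
    generalize (cdD hm).cπ (plusQ F m) ((cdD hm).p (m - 2)) = x, (cdD hm).cπ (plusQ F m) ((cdD hm).p (m - 1)) = y at *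
    simp only [mul_add, add_mul, mul_sub, sub_mul, mul_one, one_mul, smul_mul_assoc, mul_smul_comm, mul_assoc, c1, c2, c3.eq,
      c3.left_comm, fun z => show x * (x * z) = x * z by rw [← mul_assoc, c1]]
    module

include S in
theorem exists_KD : ∃ Θ : (pw Fˣ (cartanM ((cdD hm).rd.comap e).D)).ker →* Fˣ × Fˣ, Function.Injective Θ ∧
    ∀ x y, (x, y) ∈ Θ.range ↔ x ^ 2 = 1 ∧ y ^ 2 = x ^ m := by
  have k : ∀ {c : Fin m → Fˣ} {x}, (∀ k < m, (cdD hm).tv c ((cdD hm).p k) = x) ↔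
      ∀ j : Fin m, c j * c (cdD hm).lst ^ (if m ≤ j + 2 then 1 else 0) = x ^ (j + 1 : ℕ) := by
    intro c x
    rw [← prod_range_iff]
    exact ⟨fun h j => by rw [← prod_tvD, h j j.2], fun h j hj => by rw [prod_tvD hm c ⟨j, hj⟩, h]⟩
  have l1 : m ≤ (cdD hm).lst + 2 := by simp [CD.lst]; omega
  have l2 : ((cdD hm).lst + 1 : ℕ) = m := by simp [CD.lst]; omega
  refine ⟨(((Pi.evalMonoidHom _ ((cdD hm).p 0)).comp (pw Fˣ (of fun i a => (cdD hm).rd.pr ((cdD hm).sm i) a))).prod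
    (Pi.evalMonoidHom (fun _ : Fin m => Fˣ) (cdD hm).lst)).comp (Subgroup.subtype _),
    (injective_iff_map_eq_one _).2 fun c hc => Subtype.ext (funext fun j => ?_), fun x y => ⟨?_, fun h => ?_⟩⟩
  · have h1 : (cdD hm).tv c.1 ((cdD hm).p 0) = 1 := congrArg Prod.fst hc
    have h2 : c.1 (cdD hm).lst = 1 := congrArg Prod.snd hc
    simpa [h1, h2] using k.1 (((cdD hm).mem_K S).1 c.2).1 j
  · rintro ⟨c, hc⟩
    have h1 : (cdD hm).tv c.1 ((cdD hm).p 0) = x := congrArg Prod.fst hc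
    have h2 : c.1 (cdD hm).lst = y := congrArg Prod.snd hc
    obtain ⟨h3, h4⟩ := ((cdD hm).mem_K S).1 c.2
    have h5 := k.1 h3 (cdD hm).lst
    rw [if_pos l1, l2, h1, h2, pow_one, ← sq] at h5
    rw [h3 _ (by omega), show (cdD hm).z = (cdD hm).p (m - 1) from rfl, h3 (m - 1) (by omega), h1, ← sq] at h4
    exact ⟨h4, h5⟩
  · let c : Fin m → Fˣ := fun j => x ^ (j + 1 : ℕ) * y⁻¹ ^ (if m ≤ j + 2 then 1 else 0)
    have h1 : c (cdD hm).lst = y := by
      simp only [c]; rw [if_pos l1, l2, ← h.2, pow_one, sq, mul_inv_cancel_right]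
    have h2 := (k (c := c) (x := x)).2 fun j => by rw [h1]; simp only [c, inv_pow, inv_mul_cancel_right]
    refine ⟨⟨c, ((cdD hm).mem_K S).2 ⟨fun k hk => by rw [h2 k hk, h2 0 (by omega)], ?_⟩⟩, Prod.ext (h2 0 (by omega)) h1⟩
    rw [h2 _ (by omega), show (cdD hm).z = (cdD hm).p (m - 1) from rfl, h2 _ (by omega), ← sq, h.1]

end

theorem ker_pow_equiv (F : Type*) [Field F] [Fintype F] (d : ℕ) :
    Nonempty ((powMonoidHom d : Fˣ →* Fˣ).ker ≃* Multiplicative (ZMod (Nat.gcd d (Fintype.card F - 1)))) := by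
  classical
  have := IsCyclic.card_powMonoidHom_ker Fˣ d
  rw [Nat.card_units, Nat.card_eq_fintype_card (α := F), Nat.gcd_comm] at this
  exact ⟨this ▸ (zmodCyclicMulEquiv inferInstance).symm⟩

theorem CD.Ad.hasSM {m : ℕ} {J : Type} {C : CD m J} [DecidableEq J] [Fintype J] {F : Type u} [Field F] [Finite F] {P : FP F}
    {f : CForm P (J → F)} (h : C.Ad f) {n : ℕ} {e : Fin n ≃ C.Φ} (S : (C.rd.comap e).Sorted) {Γ : Type u} [Group Γ]
    (φ : Γ ≃* f.E) (hp : commutator ((C.rd.comap e).D.SteinbergGroup F) = ⊤) (hU : S.good.Univ F)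
    (hτ : Function.Injective (S.good.st_R3 F).τ) {A : Type*} [CommGroup A]
    (ψ : (pw Fˣ (cartanM (C.rd.comap e).D)).ker ≃* A) : Cfsg.HasSchurMultiplier (Γ ⧸ Subgroup.center Γ) A := by
  obtain ⟨X, hG, -⟩ := h.exists_cover S
  obtain ⟨X', h1, -⟩ := X.exists_equiv hG φ.symm
  obtain ⟨X'', h2, h3, -⟩ := X'.exists_quot h1
  exact X''.hasSM h2 h3 hp hU (((MulEquiv.subgroupCongr ((S.good.st F).center_eq (S.good.st_Gr F) (S.good.st_R3 F))).trans
    (Subgroup.equivMapOfInjective _ _ hτ).symm).trans ψ)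

theorem hasSM_D {F : Type u} [Field F] [Finite F] {m : ℕ} (h : 5 ≤ m ∨ (m = 4 ∧ ∃ a : F, a ≠ 0 ∧ a ≠ 1)) {A : Type*}
    [CommGroup A] (T : Subgroup (Fˣ × Fˣ)) (hT : ∀ x y, (x, y) ∈ T ↔ x ^ 2 = 1 ∧ y ^ 2 = x ^ m) (ψ : T ≃* A) :
    Cfsg.HasSchurMultiplier (Cfsg.POmega F (Cfsg.quadFormPlus m F)) A := by
  have hm : 3 ≤ m := by omega
  obtain ⟨n, e, ⟨S⟩⟩ := (cdD hm).rd.exists_sorted
  obtain ⟨Θ, h1, h2⟩ := exists_KD hm S (F := F)
  exact (adaptD hm).hasSM S (omE _ (comm_plus hm)) (perfectD hm S _ (S.good.st_Gr F)) (univD hm S h)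
    (τ_injD hm S (univD hm S h)) (((MonoidHom.ofInjective h1).trans (MulEquiv.subgroupCongr
      (Subgroup.ext fun a => (h2 a.1 a.2).trans (hT a.1 a.2).symm))).trans ψ)

end CfsgH6
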