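import Mathlib
import Cfsg.Agent.H6.SMD

/-! Schur multipliers of orthogonal groups in odd dimension. -/

set_option autoImplicit false
set_option linter.unusedSectionVars false

universe u

namespace CfsgH6

open Matrix Cfsg.Lie CfsgH5 CForm Finset

theorem RD.vec_sub2 {l : ℕ} {ι Φ J : Type} [Fintype ι] [Fintype J] [DecidableEq J] (R : RD l ι Φ J) {r s d : Φ}
    (h : R.v s = R.v r - (2 : ℤ) • R.v d) (i : Fin l) : R.vec s i = R.vec r i - 2 * R.vec d i := by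
  have e : ∑ i, (R.vec r - (2 : ℤ) • R.vec d) i • R.v (R.sm i) = R.v s := by
    simp only [Pi.sub_apply, Pi.smul_apply, sub_smul, smul_assoc, sum_sub_distrib, ← smul_sum, ← R.v_eq, h]
  rw [R.vec_of e.symm]; rfl

theorem exists_big' {F : Type*} [Field F] (h2 : (2 : F) ≠ 0) {v : F} (v0 : v ≠ 0) (v1 : v ^ 2 ≠ 1) :
    ∃ v : F, v ≠ 0 ∧ v ≠ 1 ∧ v ^ 2 - v + 1 ≠ 0 := by
  by_cases h3 : (3 : F) = 0
  · refine ⟨v, v0, fun e => v1 (by simp [e]), fun e => v1 ?_⟩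
    have : (v + 1) ^ 2 = 0 := by linear_combination e + v * h3
    rw [eq_neg_of_add_eq_zero_left (pow_eq_zero_iff two_ne_zero |>.1 this)]; ring
  · exact ⟨-1, by simp, fun e => h2 (by linear_combination -e), fun e => h3 (by linear_combination e)⟩

namespace CD

variable {m : ℕ} {J : Type} {C : CD m J}

theorem dot_abs {a c : J} (h : C.sg a ≠ 0) (e : C.ix a = C.ix c) : (C.wt c ⬝ᵥ C.wt a).natAbs = 1 := by
  rcases C.eq_of_ix e with rfl | rfl <;> simp [wt_ν, C.dot_self h]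

variable [DecidableEq J] [Fintype J] {n : ℕ} {e : Fin n ≃ C.Φ} (S : (C.rd.comap e).Sorted)

local notation "ϱ" => C.ρ (C.rd.comap e)

theorem ρ_comm (a b : J) : ϱ a b = ϱ b a := by simp only [ρ, add_comm]

theorem tcL {x y : J} (h : C.okL x y) {r s : Fin n} {d : ℕ} (h1 : (C.wt x + C.wt y) ⬝ᵥ (C.rd.comap e).v s = 0)
    (h2 : ((C.wt x + C.wt y) ⬝ᵥ (C.rd.comap e).v r).natAbs = d) : S.good.Tc r s d :=
  ⟨ϱ x y, by rwa [S.A_eq, (C.pairsL e).A_ρ h], by rwa [S.A_eq, (C.pairsL e).A_ρ h]⟩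

theorem tc_share {a b c d : J} (h1 : C.okL a b) (h2 : C.okL c d) (k1 : C.ix a = C.ix c) (k2 : C.ix b ≠ C.ix d) :
    S.good.Tc (ϱ a b) (ϱ c d) 1 := by
  have := h1.1
  have := h2.1
  refine tcL S (C.okL_ν.2 h2) ?_ ?_ <;> rw [(C.pairsL e).v_ρ ‹_›]
  · simp [wt_ν, C.dot_self, h2.2.1, h2.2.2, C.dot_ne h2.1, C.dot_ne h2.1.symm]
  · simpa [wt_ν, C.dot_ne k2.symm, C.dot_ne (show C.ix d ≠ C.ix a by omega), C.dot_ne (show C.ix c ≠ C.ix b by omega)]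
      using dot_abs h1.2.1 k1

theorem pair_cases {a b c d : J} (h1 : C.okL a b) (h2 : C.okL c d) (n1 : ϱ c d ≠ ϱ a b) (n2 : ϱ c d ≠ (ϱ a b).rev) :
    S.good.Tc (ϱ a b) (ϱ c d) 1 ∨ (C.ix a ≠ C.ix c ∧ C.ix a ≠ C.ix d ∧ C.ix b ≠ C.ix c ∧ C.ix b ≠ C.ix d) ∨
      ϱ c d = ϱ a (C.ν b) ∨ ϱ c d = ϱ b (C.ν a) := by
  have H := C.pairsL e
  rw [H.rev_ρ S h1] at n2
  have key : ∀ {c d}, ϱ c d ≠ ϱ a b → ϱ c d ≠ ϱ (C.ν a) (C.ν b) → C.ix a = C.ix c → C.ix b = C.ix d →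
      ϱ c d = ϱ a (C.ν b) ∨ ϱ c d = ϱ b (C.ν a) := fun n1 n2 k1 k2 => by
    rcases C.eq_of_ix k1 with rfl | rfl <;> rcases C.eq_of_ix k2 with rfl | rfl <;> simp_all [ρ_comm b]
  have := h1.1
  have := h2.1
  by_cases a1 : C.ix a = C.ix c
  · by_cases a4 : C.ix b = C.ix d
    · exact Or.inr (Or.inr (key n1 n2 a1 a4))
    · exact Or.inl (tc_share S h1 h2 a1 a4)
  by_cases a2 : C.ix a = C.ix d
  · rw [ρ_comm c] at *
    by_cases a3 : C.ix b = C.ix c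
    · exact Or.inr (Or.inr (key n1 n2 a2 a3))
    · exact Or.inl (tc_share S h1 (H.symm h2) a2 a3)
  by_cases a3 : C.ix b = C.ix c
  · rw [ρ_comm a]; exact Or.inl (tc_share S (H.symm h1) h2 a3 a2)
  by_cases a4 : C.ix b = C.ix d
  · rw [ρ_comm a, ρ_comm c]; exact Or.inl (tc_share S (H.symm h1) (H.symm h2) a4 a1)
  exact Or.inr (Or.inl ⟨a1, a2, a3, a4⟩)

theorem tc_bad {a b : J} (h : C.okL a b) : S.good.Tc (ϱ a b) (ϱ a (C.ν b)) 2 := by
  refine tcL S h ?_ ?_ <;> rw [(C.pairsL e).v_ρ (by simpa [okL_ν] using h)] <;>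
    simp [wt_ν, C.dot_self, h.2.1, h.2.2, C.dot_ne h.1, C.dot_ne h.1.symm]

section
variable (hz : C.sg C.z = 0)
include hz

theorem ε_B : C.ε = 1 := by
  have := C.hm
  rcases C.ty with k | ⟨-, -, k⟩
  exacts [k.1, absurd hz (k _)]

theorem eq_z {b : J} (h : C.sg b = 0) : b = C.z := by
  have := C.sgc b
  have := C.sgc C.z
  rw [C.eq_iff]; omega

theorem wt_z : C.wt C.z = 0 := by ext; simp [wt, hz]

theorem v_sh {a : J} (h : C.sg a ≠ 0) : (C.rd.comap e).v (ϱ a C.z) = C.wt a := by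
  have := C.sgc a
  have := C.sgc C.z
  have k : (C.rd.comap e).v (e.symm ⟨(a, C.z), Or.inl (by dsimp only; omega)⟩) = C.wt a + C.wt C.z := by
    simp [RD.comap, rd, v]
  rw [ρ_eq k, k, wt_z hz, add_zero]

theorem A_sh {a : J} (h : C.sg a ≠ 0) (s : Fin n) : S.good.A (ϱ a C.z) s = 2 * C.wt a ⬝ᵥ (C.rd.comap e).v s := by
  rw [S.A_eq]
  exact RD.A_of _ (by rw [RD.len, RD.ip, RD.ip, v_sh hz h, C.dot_self h, mul_one])

theorem cases_B (r : Fin n) : (∃ a b, C.okL a b ∧ r = ϱ a b) ∨ ∃ a, C.sg a ≠ 0 ∧ r = ϱ a C.z := by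
  have k := (e r).2.resolve_right fun k => by have := ε_B hz; omega
  have := (e r).sg1
  by_cases h : C.sg (e r).1.2 = 0
  · exact Or.inr ⟨(e r).1.1, by omega, (ρ_eq (by rw [← eq_z hz h]; rfl)).symm⟩
  · exact Or.inl ⟨_, _, ⟨k.ne, by omega, h⟩, (ρ_eq rfl).symm⟩

theorem sw_bad {a b : J} (h : C.okL a b) : S.good.Sw1 (ϱ a b) (ϱ a (C.ν b)) := by
  have H := C.pairsL e
  have h2 := C.okL_ν.2 h
  refine ⟨S.nil2 ?_ fun k k1 => ?_, ϱ b C.z, ?_, ?_⟩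
  · rw [H.v_ρ h, H.v_ρ h2]
    exact H.sum_ne h (fun e => by have := C.sg_ν a; have := h.2.1; rw [← e] at *; omega) fun e => h.1 (by rw [e, C.νν])
  · rw [H.v_ρ h, H.v_ρ h2] at k1
    have := C.pair (c := a) (d := a) (k1.trans (by rw [wt_ν]; abel)) (e k).ne1
    have := (e k).2.resolve_right fun k => by have := ε_B hz; omega
    aesop
  · rw [A_sh S hz h.2.2, H.v_ρ h]; simp [C.dot_self h.2.2, C.dot_ne h.1.symm]
  · rw [S.vec_eq]
    exact RD.vec_sub2 _ (by rw [H.v_ρ h, H.v_ρ h2, v_sh hz h.2.2, wt_ν, two_smul]; abel)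

variable (hm : 3 ≤ m)
include hm

omit hz [DecidableEq J] [Fintype J] in
theorem exists_ok {a : J} (h : C.sg a ≠ 0) (i : ℕ) : ∃ b, C.okL a b ∧ C.ix b ≠ i := by
  obtain ⟨k, h0, h1, h2⟩ := avoid3 hm (C.ix a) i
  obtain ⟨b, rfl, e2⟩ := C.exists_ix h0 (Or.inl rfl)
  exact ⟨b, ⟨h1.symm, h, by omega⟩, h2⟩

theorem exists_A1 (r : Fin n) : ∃ g, S.good.A g r = 1 := by
  have H := C.pairsL e
  rcases cases_B (e := e) hz r with ⟨a, b, h, rfl⟩ | ⟨a, h, rfl⟩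
  · obtain ⟨c, h1, h2⟩ := exists_ok hm h.2.1 (C.ix b)
    refine ⟨ϱ a c, ?_⟩
    rw [S.A_eq, H.A_ρ h1, H.v_ρ h]
    simp [C.dot_self h.2.1, C.dot_ne h.1, C.dot_ne h1.1.symm, C.dot_ne h2]
  · obtain ⟨c, h1, -⟩ := exists_ok hm h 0
    refine ⟨ϱ a c, ?_⟩
    rw [S.A_eq, H.A_ρ h1, v_sh hz h]
    simp [C.dot_self h, C.dot_ne h1.1.symm]

variable {F : Type u} [Field F]

theorem perfectB (hF : ∃ a : F, a ≠ 0 ∧ a ≠ 1) {Γ : Type*} [Group Γ] (X : Cover S.good F Γ) (hG : X.Gr = ⊤) :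
    commutator Γ = ⊤ := Cover.perfect_top hG (X.perfect_of_sm fun i t => by
  obtain ⟨g, h⟩ := exists_A1 S hz hm (S.good.sm i)
  exact X.mem_comm_of_A (Or.inl h) hF t)

theorem univB (h2 : (2 : F) ≠ 0) (h : 4 ≤ m ∨ ∃ v : F, v ≠ 0 ∧ v ^ 2 ≠ 1) : S.good.Univ F := fun E _ π Y => by
  have H := C.pairsL e
  have a0 : (-1 : F) ≠ 0 := by simp
  have a1 : (-1 : F) ≠ 1 := fun e => h2 (by linear_combination -e)
  have a2 : (-1 : F) ^ 1 ≠ 1 := by rwa [pow_one]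
  have hp := perfectB S hz hm ⟨_, a0, a1⟩ _ (S.good.sc_Gr F)
  have : ∀ r, ∃ y, Cover.Lift1 (S.good.sc F) Y r y := fun r => by
    obtain ⟨g, hg⟩ := exists_A1 S hz hm r
    obtain ⟨k, hk, c, hc, ha⟩ := Cover.move_of (C := S.good.sc F) (d := 1) (by rw [hg]; rfl) a0 a2
    refine Cover.exists_lift1 (S.good.sc_Gr F) hp ?_ hk hc ha
    rcases three_or F with hF | ⟨v, v0, v1⟩
    · exact Cover.com_self_of_three hF r
    · obtain ⟨v, b0, b1, b2⟩ := exists_big' h2 v0 v1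
      exact Cover.com_self_of_A hg b0 b1 b2
  choose y hy using this
  have L := Cover.lifts_of hy
  have t1 : ∀ {r s}, S.good.Tc r s 1 → (S.good.sc F).Tor r s := fun h => Cover.tor_of_Tc h a0 a2
  have bad : ∀ {a b}, C.okL a b → PairOK (S.good.sc F) π y (ϱ a b) (ϱ a (C.ν b)) := fun h => by
    rcases three_or F with hF | ⟨v, v0, v1⟩
    · exact Or.inr (Or.inr (Or.inl (L.dir_of_com (Cover.com_of_Sw1 hF h2 (sw_bad S hz h)))))
    · exact Or.inl (Cover.tor_of_Tc (tc_bad S h) v0 v1)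
  have sl : ∀ {a c d}, C.sg a ≠ 0 → C.okL c d → (S.good.sc F).Tor (ϱ a C.z) (ϱ c d) ∨ (S.good.sc F).Tor (ϱ c d) (ϱ a C.z) := by
    intro a c d h1 h3
    have k : ∀ {c d}, C.okL c d → C.ix a = C.ix c → S.good.Tc (ϱ a C.z) (ϱ c d) 1 := fun {c d} h3 k => by
      have := h3.1
      refine tcL S (C.okL_ν.2 h3) ?_ ?_
      · rw [H.v_ρ h3]; simp [wt_ν, C.dot_self, h3.2.1, h3.2.2, C.dot_ne h3.1, C.dot_ne h3.1.symm]
      · simpa [v_sh hz h1, wt_ν, C.dot_ne (show C.ix d ≠ C.ix a by omega)] using dot_abs h1 k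
    by_cases a1 : C.ix a = C.ix c
    · exact Or.inl (t1 (k h3 a1))
    by_cases a3 : C.ix a = C.ix d
    · rw [ρ_comm c]; exact Or.inl (t1 (k (H.symm h3) a3))
    rcases h with h | ⟨v, v0, v1⟩
    · obtain ⟨k, h0, k1, k2, k3⟩ := avoid4 h (C.ix a) (C.ix c) (C.ix d)
      obtain ⟨b, rfl, e2⟩ := C.exists_ix h0 (Or.inl rfl)
      refine Or.inl (t1 (tcL S (x := a) (y := b) ⟨k1.symm, h1, by omega⟩ ?_ ?_))
      · simp [H.v_ρ h3, C.dot_ne, a1, a3, k2, k3]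
      · simp [v_sh hz h1, C.dot_self h1, C.dot_ne k1]
    · refine Or.inr (Cover.tor_of_Tc (tcL S h3 ?_ ?_) v0 v1)
      · simp [v_sh hz h1, C.dot_ne, Ne.symm a1, Ne.symm a3]
      · simp [H.v_ρ h3, C.dot_self, h3.2.1, h3.2.2, C.dot_ne h3.1, C.dot_ne h3.1.symm]
  refine ⟨y, L.π_y, L.rel fun r s n1 n2 => ?_⟩
  rcases cases_B (e := e) hz r with ⟨a, b, h1, rfl⟩ | ⟨a, h1, rfl⟩ <;>
    rcases cases_B (e := e) hz s with ⟨c, d, h3, rfl⟩ | ⟨c, h3, rfl⟩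
  · rcases pair_cases S h1 h3 n1 n2 with k | ⟨k1, k2, k3, k4⟩ | k | k
    · exact Or.inl (t1 k)
    · exact Or.inr (Or.inr (Or.inl (L.dir_of_com (H.com_disj _ Y ⟨_, a0, a1⟩ h1 h3 k1 k2 k3 k4
        (Or.inl ⟨C.okL_ν.2 ⟨k1, h1.2.1, h3.2.1⟩, C.okL_ν.2 ⟨k4, h1.2.2, h3.2.2⟩⟩)))))
    · rw [k]; exact bad h1
    · rw [k, ρ_comm a]; exact bad (H.symm h1)
  · exact (sl h3 h1).elim (fun k => Or.inr (Or.inl k)) Or.inl
  · exact (sl h1 h3).imp_right Or.inl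
  · have k : C.ix a ≠ C.ix c := fun k => by
      rcases C.eq_of_ix k with rfl | rfl
      · exact n1 rfl
      · refine n2 ((C.rd.comap e).inj ?_)
        rw [← S.neg_rev, RD.v_neg, v_sh hz h1, v_sh hz h3, wt_ν]
    obtain ⟨b, b1, b2⟩ := exists_ok hm h1 (C.ix c)
    refine Or.inl (t1 (tcL S b1 ?_ ?_))
    · simp [v_sh hz h3, C.dot_ne, k, b2]
    · simp [v_sh hz h1, C.dot_self h1, C.dot_ne b1.1.symm]

omit hm

include S in
theorem mem_KB {c : Fin m → Fˣ} : c ∈ (pw Fˣ (cartanM (C.rd.comap e).D)).ker ↔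
    c = Pi.mulSingle C.lst (c C.lst) ∧ c C.lst ^ 2 = 1 := by
  have hm := C.hm
  have d0 : C.δ = 0 := by have := C.zc; omega
  have t0 : C.tv c C.z = 1 := by simp [tv, pw_apply, rd, wt_z hz]
  have k : ∀ j : Fin m, ∏ k ∈ range (j + 1), C.tv c (C.p k) = c j ^ (if j = C.lst then 2 else 1) := fun j => by
    have := j.2
    rw [C.prod_tv (ε_B hz), show C.w j = 0 by simp [w, hz, d0], mul_zero, zpow_zero, mul_one, sm]
    by_cases h : (j : ℕ) + 1 < m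
    · norm_num [h, C.sg_ν, C.sg_p _ h, show j ≠ C.lst from fun e => by simp [e, lst] at h; omega]
    · simp [h, hz, show j = C.lst from Fin.ext (by simp [lst]; omega), lst, show ¬ (m - 1 + 1 < m) by omega]
  have k1 : (∀ k < m, C.tv c (C.p k) = 1) ↔ ∀ j : Fin m, c j ^ (if j = C.lst then 2 else 1) = 1 := by
    rw [← prod_range_iff]
    exact ⟨fun h j => by rw [← k, h j j.2, one_pow], fun h j hj => by rw [k ⟨j, hj⟩, h, one_pow]⟩
  rw [C.mem_K S, t0, mul_one]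
  refine Iff.trans ⟨fun h k hk => by rw [h.1 k hk, ← h.1 (m - 1 - C.δ) (by omega), h.2],
    fun h => ⟨fun k hk => by rw [h k hk, h 0 (by omega)], h _ (by omega)⟩⟩ (k1.trans ⟨fun h => ⟨funext fun j => ?_,
      by simpa using h C.lst⟩, fun h j => ?_⟩)
  · by_cases e : j = C.lst
    · simp [e]
    · simpa [e] using h j
  · split_ifs with e
    · rw [e, h.2]
    · rw [h.1]; simp [e]

theorem τ_injB [Finite F] {Q : QuadraticForm F (J → F)} (h : C.Ad (ofQuad Q)) (h2 : (2 : F) ≠ 0) (hU : S.good.Univ F) :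
    Function.Injective (S.good.st_R3 F).τ := by
  refine (injective_iff_map_eq_one _).2 fun c hc => ?_
  obtain ⟨h3, h4⟩ := (mem_KB S hz).1 ((S.good.st_R3 F).π_τ_eq_one.1 (by rw [hc, map_one]))
  rw [sq, Units.ext_iff, Units.val_mul, Units.val_one, mul_self_eq_one_iff] at h4
  rcases h4 with h4 | h4
  · rw [h3, show c C.lst = 1 from Units.ext h4, Pi.mulSingle_one]
  refine absurd ?_ (h.spin' S h2 hU [C.lst] ?_)
  · rw [← hc, h3, Cover.R3.τ_single, h4]; simp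
  · have hm := C.hm
    have a2 : (C.sm C.lst).1.2 = C.z := by simp [sm, lst, show ¬ (m - 1 + 1 < m) by omega]
    have a1 : C.sg (C.sm C.lst).1.1 ≠ 0 := by have := (C.sm C.lst).sg1; omega
    have a3 : C.ν C.z = C.z := eq_z hz (by simp [C.sg_ν, hz])
    have a4 : C.cπ Q C.z = 1 := by rw [cπ, a3, h.cl_sq, if_pos hz]
    simp only [List.map_cons, List.map_nil, List.prod_cons, List.prod_nil, a2, a3, a4, mul_one, h.cπ_ν (ε_B hz) a1]
    module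

include S in
theorem exists_KB : Nonempty ((pw Fˣ (cartanM (C.rd.comap e).D)).ker ≃* (powMonoidHom 2 : Fˣ →* Fˣ).ker) :=
  ⟨{ toFun c := ⟨c.1 C.lst, ((mem_KB S hz).1 c.2).2⟩
     invFun a := ⟨Pi.mulSingle C.lst a.1, (mem_KB S hz).2 ⟨by simp, by rw [Pi.mulSingle_eq_same]; exact a.2⟩⟩
     left_inv c := Subtype.ext ((mem_KB S hz).1 c.2).1.symm
     right_inv a := by simp
     map_mul' _ _ := rfl }⟩

end

end CD

theorem hasSM_B {F : Type u} [Field F] [Fintype F] {m : ℕ} (hm : 3 ≤ m) (h2 : (2 : F) ≠ 0)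
    (h : 4 ≤ m ∨ ∃ v : F, v ≠ 0 ∧ v ^ 2 ≠ 1) :
    Cfsg.HasCyclicSchurMultiplier (Cfsg.POmega F (Cfsg.quadFormOdd m F)) (Nat.gcd 2 (Fintype.card F - 1)) := by
  have hm' : 2 ≤ m := by omega
  obtain ⟨n, e, ⟨S⟩⟩ := (cdB hm').rd.exists_sorted
  have hU := CD.univB S rfl hm h2 h
  exact (adaptB hm' h2).hasSM S (omE _ (comm_odd hm' h2)) (CD.perfectB S rfl hm
    ⟨-1, by simp, fun e => h2 (by linear_combination -e)⟩ _ (S.good.st_Gr F)) hU
    (CD.τ_injB S rfl (adaptB hm' h2) h2 hU) ((CD.exists_KB S rfl).some.trans (ker_pow_equiv F 2).some)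

end CfsgH6
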