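import Mathlib
import Cfsg.Agent.H6.SMB

/-! Schur multipliers of symplectic groups. -/

set_option autoImplicit false
set_option linter.unusedSectionVars false

universe u

namespace CfsgH6

open Matrix Cfsg.Lie CfsgH5 CForm Finset
open scoped commutatorElement

section
variable {D : ChevalleyDatum} {G : Good D} {F : Type*} [Field F] {Γ E : Type*} [Group Γ] [Group E] {C : Cover G F Γ}
  {π : E →* Γ} {X : CExt π}

theorem Cover.cj_n {g l : Fin D.nroots} (h1 : C.Com X g l) (h2 : C.Com X g.rev l) (t : F) {v : F} {z : E}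
    (hz : π z = C.x l v) : X.cj (C.n g t) z = z := by
  have k : ∀ {g}, C.Com X g l → ∀ t, X.cj (C.x g t) z = z := fun h t => X.cj_of_cm (hz ▸ h _ _)
  simp only [Cover.n, map_mul, MulAut.mul_apply, k h1, k h2]

theorem Lifts.dir_of_cm2 {y : Fin D.nroots → F → E} (L : Lifts C X y) {r s k k' : Fin D.nroots}
    (hk : ∀ i, G.vec k i = G.vec r i + G.vec s i) (hk' : ∀ i, G.vec k' i = G.vec r i + G.vec k i)
    (h : ∀ t u, ∃ v w, X.cm (C.x s u) (C.x r t) = y k v * y k' w) : Dir G y r s ∧ Dir G y s r := by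
  refine ⟨fun t u => ?_, fun t u => ?_⟩
  · obtain ⟨v, w, e⟩ := h t (-u)
    rw [X.cm_eq (L.π_y _ _) (L.π_y _ _), L.neg] at e
    rw [show (y s u)⁻¹ * y r t * y s u = ⁅(y s u)⁻¹, y r t⁆ * y r t by rw [commutatorElement_def]; group, e]
    exact mul_mem (mul_mem (y_mem y (show ∃ i j : ℕ, _ from ⟨1, 1, one_pos, by simp [hk]⟩) v)
      (y_mem y (show ∃ i j : ℕ, _ from ⟨2, 1, two_pos, by simp [hk, hk', two_mul, add_assoc]⟩) w))
      (y_mem y (show ∃ i j : ℕ, _ from ⟨1, 0, one_pos, by simp⟩) t)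
  · obtain ⟨v, w, e⟩ := h (-u) t
    rw [X.cm_eq (L.π_y _ _) (L.π_y _ _), L.neg] at e
    rw [show (y r u)⁻¹ * y s t * y r u = ⁅y s t, (y r u)⁻¹⁆⁻¹ * y s t by rw [commutatorElement_def]; group, e]
    exact mul_mem (inv_mem (mul_mem (y_mem y (show ∃ i j : ℕ, _ from ⟨1, 1, one_pos, by simp [hk, add_comm]⟩) v)
      (y_mem y (show ∃ i j : ℕ, _ from ⟨1, 2, one_pos, fun a => by simp [hk, hk']; ring⟩) w)))
      (y_mem y (show ∃ i j : ℕ, _ from ⟨1, 0, one_pos, by simp⟩) t)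

end

namespace CD

theorem Pairs.dir {m : ℕ} {J : Type} {C : CD m J} {l n : ℕ} {J₀ : Type} [Fintype J₀] [DecidableEq J₀]
    {R : RD l (Fin m) (Fin n) J₀} {ok : J → J → Prop} (H : C.Pairs R ok) {S : R.Sorted} {F : Type*} [Field F] {Γ E : Type*}
    [Group Γ] [Group E] {X : Cover S.good F Γ} {π : E →* Γ} {Y : CExt π} {hr : C.Room ok}
    {hb : ∀ {a b}, ok a b → ok a (C.ν b) → X.Cmm (C.ρ R a b) (C.ρ R a (C.ν b))} (hg : (H.psys X hr hb).Good Y)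
    {y : Fin n → F → E} (L : Lifts X Y y) (hy : ∀ a c, ok a c → ∀ b, ok a b → ok (C.ν b) c → ∀ t u w,
      ⁅X.x (C.ρ R a b) t, X.x (C.ρ R (C.ν b) c) u⁆ = X.x (C.ρ R a c) w →
        Y.cm (X.x (C.ρ R a b) t) (X.x (C.ρ R (C.ν b) c) u) = y (C.ρ R a c) w)
    {a b c d : J} (h : ok a b) (h' : ok c d) (h2 : C.ρ R c d ≠ (C.ρ R a b).rev) : Dir S.good y (C.ρ R a b) (C.ρ R c d) := by
  have cm : ∀ a b, C.ρ R a b = C.ρ R b a := (H.psys X hr hb).ρ_comm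
  have dir : ∀ {a b c}, ok a b → ok (C.ν b) c → C.ix a ≠ C.ix c →
      Dir S.good y (C.ρ R a b) (C.ρ R (C.ν b) c) := fun {a b c} h1 h2 h3 => by
    obtain ⟨ε, -, hε⟩ := H.sm X h1 h2 h3
    exact (L.dir_of_cm (l := C.ρ R a c) (by rw [S.vec_eq]; exact R.vec_sum.1 (H.N_unit h1 h2 h3).1)
      fun t u => ⟨_, hy a c (H.comp h1 h2 h3) b h1 h2 _ _ _ (hε t u)⟩).1
  have key : ∀ {a b c d}, ok a b → ok c d → C.ix a = C.ix c → C.ρ R c d ≠ (C.ρ R a b).rev →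
      Dir S.good y (C.ρ R a b) (C.ρ R c d) := fun {a b c d} h1 h2 h3 h4 => by
    rcases C.eq_of_ix h3 with rfl | rfl
    · exact L.dir_of_com (PSys.com hg h1 h2)
    · by_cases k : C.ix b = C.ix d
      · rcases C.eq_of_ix k with rfl | rfl
        · rw [cm a, cm (C.ν a)]; exact L.dir_of_com (PSys.com hg (H.symm h1) (H.symm h2))
        · exact absurd (H.rev_ρ S h1).symm h4
      · rw [cm a]; exact dir (H.symm h1) h2 k
  by_cases a1 : C.ix a = C.ix c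
  · exact key h h' a1 h2
  by_cases a2 : C.ix a = C.ix d
  · rw [cm c] at h2 ⊢; exact key h (H.symm h') a2 h2
  by_cases a3 : C.ix b = C.ix c
  · rw [cm a] at h2 ⊢; exact key (H.symm h) h' a3 h2
  by_cases a4 : C.ix b = C.ix d
  · rw [cm a, cm c] at h2 ⊢; exact key (H.symm h) (H.symm h') a4 h2
  exact L.dir_of_com (hg h h' a1 a2 a3 a4)

variable {m : ℕ} {J : Type} {C : CD m J} [DecidableEq J] [Fintype J] {n : ℕ} {e : Fin n ≃ C.Φ} (S : (C.rd.comap e).Sorted)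
  (he : C.ε = -1)
include he

local notation "ϱ" => C.ρ (C.rd.comap e)
local notation "𝐯" => RD.v (C.rd.comap e)

theorem sgC (a : J) : C.sg a ≠ 0 := by
  rcases C.εc with k | ⟨-, k⟩
  · omega
  · have := k a; omega

theorem okC {a b : J} (h : C.ix a ≠ C.ix b) : C.okL a b := ⟨h, sgC he a, sgC he b⟩

theorem exists_okC (a : J) : ∃ b, C.ix a ≠ C.ix b := by
  have := C.hm
  by_cases h : C.ix a = 0
  · exact ⟨C.p 1, by rw [C.ix_p 1 (by omega)]; omega⟩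
  · exact ⟨C.p 0, by rwa [C.ix_p 0 (by omega)]⟩

theorem v_lg (a : J) : 𝐯 (ϱ a a) = C.wt a + C.wt a := by
  have k : 𝐯 (e.symm ⟨(a, a), Or.inr ⟨he, rfl⟩⟩) = C.wt a + C.wt a := by simp [RD.comap, rd, v]
  rw [ρ_eq k, k]

theorem v_st {a b : J} (h : C.ix a ≠ C.ix b) : 𝐯 (ϱ a b) = C.wt a + C.wt b := (C.pairsL e).v_ρ (okC he h)

theorem A_lg (a : J) (s : Fin n) : S.good.A (ϱ a a) s = C.wt a ⬝ᵥ 𝐯 s := by
  rw [S.A_eq]
  exact RD.A_of _ (by
    rw [RD.len, RD.ip, RD.ip, v_lg he]; simp only [add_dotProduct, dotProduct_add, C.dot_self (sgC he a)]; ring)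

theorem cases_C (r : Fin n) : (∃ a b, C.ix a ≠ C.ix b ∧ r = ϱ a b) ∨ ∃ a, r = ϱ a a := by
  rcases (e r).2 with k | ⟨-, k⟩
  · exact Or.inl ⟨_, _, k.ne, (ρ_eq rfl).symm⟩
  · exact Or.inr ⟨(e r).1.1, (ρ_eq (show C.wt _ + C.wt (e r).1.2 = _ by rw [← k])).symm⟩

include S in
theorem rev_lg (a : J) : (ϱ a a).rev = ϱ (C.ν a) (C.ν a) :=
  (C.rd.comap e).inj (by rw [← S.neg_rev, RD.v_neg, v_lg he, v_lg he, wt_ν, neg_add])

theorem ne_of_len {x : Fin m → ℤ} (h : 4 < x ⬝ᵥ x) (k : Fin n) : 𝐯 k ≠ x := by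
  rintro rfl
  have := (C.rd.comap e).nrm k
  simp only [RD.comap, rd, he] at this h
  omega

include S in
theorem nil_of_len {r s : Fin n} (h : 4 < (𝐯 r + 𝐯 s) ⬝ᵥ (𝐯 r + 𝐯 s)) : Nil2 (C.rd.comap e).D r s :=
  S.nil2 (fun k => by simp [k] at h) (ne_of_len he h)

include S in
theorem nil_ll {a b : J} (h : C.ix a ≠ C.ix b) : Nil2 (C.rd.comap e).D (ϱ a a) (ϱ b b) := nil_of_len S he (by
  simp [v_lg he, C.dot_self, sgC he, C.dot_ne h, C.dot_ne h.symm])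

include S in
theorem nil_ls {a b : J} (h : C.ix a ≠ C.ix b) : Nil2 (C.rd.comap e).D (ϱ a a) (ϱ a b) := nil_of_len S he (by
  simp [v_lg he, v_st he h, C.dot_self, sgC he, C.dot_ne h, C.dot_ne h.symm])

include S in
theorem nil_ld {a b c : J} (h : C.ix b ≠ C.ix c) (h1 : C.ix a ≠ C.ix b) (h2 : C.ix a ≠ C.ix c) :
    Nil2 (C.rd.comap e).D (ϱ a a) (ϱ b c) := nil_of_len S he (by
  simp [v_lg he, v_st he h, C.dot_self, sgC he, C.dot_ne h, C.dot_ne h.symm, C.dot_ne h1, C.dot_ne h1.symm, C.dot_ne h2,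
    C.dot_ne h2.symm])

theorem tc_sl {a b : J} (h : C.ix a ≠ C.ix b) {s : Fin n} (h1 : C.wt a ⬝ᵥ 𝐯 s = 0) : S.good.Tc (ϱ a b) s 1 :=
  ⟨ϱ a a, by rw [A_lg S he, h1], by simp [A_lg S he, v_st he h, C.dot_self, sgC he, C.dot_ne h]⟩

theorem tc_sl' {a b : J} (h : C.ix a ≠ C.ix b) (c : J) : S.good.Tc (ϱ a b) (ϱ c c) 1 := by
  by_cases k : C.ix a = C.ix c
  · rw [ρ_comm a]; exact tc_sl S he h.symm (by simp [v_lg he, C.dot_ne (show C.ix b ≠ C.ix c by omega)])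
  · exact tc_sl S he h (by simp [v_lg he, C.dot_ne k])

theorem sum_C {a b : J} (h : C.ix a ≠ C.ix b) :
    𝐯 (ϱ a b) = 𝐯 (ϱ a (C.ν b)) + 𝐯 (ϱ b b) ∧ 𝐯 (ϱ a a) = 𝐯 (ϱ a (C.ν b)) + 𝐯 (ϱ a b) := by
  rw [v_st he h, v_lg he, v_lg he, v_st he (by rwa [C.ix_ν]), wt_ν]
  constructor <;> abel

variable {F : Type u} [Field F] {Γ : Type*} [Group Γ] (X : Cover S.good F Γ)

theorem comm_bad {a b : J} (h : C.ix a ≠ C.ix b) : ∃ c : F, (c = 2 ∨ c = -2) ∧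
    ∀ t u, ⁅X.x (ϱ a (C.ν b)) t, X.x (ϱ a b) u⁆ = X.x (ϱ a a) (c * t * u) := by
  obtain ⟨h1, h2⟩ := sum_C (e := e) he h
  have h' : C.ix a ≠ C.ix (C.ν b) := by rwa [C.ix_ν]
  refine ⟨_, ?_, RD.Sorted.comm_one X h2 (ne_of_len he ?_) (ne_of_len he ?_)⟩
  · rcases RD.N_mid _ h1 h2 with k | k <;> simp [k]
  all_goals simp [v_lg he, v_st he h, v_st he h', C.dot_self, sgC he, C.dot_ne h, C.dot_ne h.symm, wt_ν]

theorem dec_lg {a b : J} (h : C.ix a ≠ C.ix b) (u : F) :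
    ∃ t t' v, X.x (ϱ a a) u = ⁅X.x (ϱ b b) t, X.x (ϱ a (C.ν b)) t'⁆ * X.x (ϱ a b) v := by
  obtain ⟨c, c', -, h1, h2⟩ := RD.Sorted.comm_two X (sum_C he h).1 (sum_C he h).2
  refine ⟨c' * u, 1, -(c * 1 * (c' * u)), ?_⟩
  rw [h2, ← (Cover.cmm_of_Nil2 (nil_ls S he h) _ _).eq, mul_assoc, ← X.add, add_neg_cancel, X.x_zero, mul_one, one_pow,
    mul_one, ← mul_assoc, h1, one_mul]

theorem dec_st {a b : J} (h : C.ix a ≠ C.ix b) (u : F) :
    ∃ t t' v, X.x (ϱ a b) u = ⁅X.x (ϱ b b) t, X.x (ϱ a (C.ν b)) t'⁆ * X.x (ϱ a a) v := by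
  obtain ⟨c, c', h1, -, h2⟩ := RD.Sorted.comm_two X (sum_C he h).1 (sum_C he h).2
  refine ⟨c * u, 1, -(c' * 1 ^ 2 * (c * u)), ?_⟩
  rw [h2, mul_assoc, ← X.add, add_neg_cancel, X.x_zero, mul_one, mul_one, ← mul_assoc, h1, one_mul]

theorem cmm_two (h2 : (2 : F) = 0) {a b : J} (h : C.ix a ≠ C.ix b) : X.Cmm (ϱ a b) (ϱ a (C.ν b)) := fun t u => by
  obtain ⟨c, h0, hc⟩ := comm_bad S he X h
  have := hc u t
  rw [show c = 0 by rcases h0 with h | h <;> simp [h, h2], zero_mul, zero_mul, X.x_zero] at this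
  exact (commutatorElement_eq_one_iff_commute.1 this).symm

theorem perfectC (h : 3 ≤ m ∨ ∃ a : F, a ≠ 0 ∧ a ≠ 1) (hG : X.Gr = ⊤) : commutator Γ = ⊤ := by
  have k : ∀ {a b}, C.ix a ≠ C.ix b → ∀ t, X.x (ϱ a b) t ∈ ⁅X.Gr, X.Gr⁆ := fun {a b} k t => by
    rcases h with h | h
    · obtain ⟨i, h0, h1, h2⟩ := avoid3 h (C.ix a) (C.ix b)
      obtain ⟨c, h3, h4, -⟩ := C.roomL (okC he k) h0 h1 h2
      exact (C.pairsL e).x_mem X h3 h4 k t
    · exact X.mem_comm_of_A (s := ϱ a a) (Or.inl (by simp [A_lg S he, v_st he k, C.dot_self, sgC he, C.dot_ne k])) h t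
  refine Cover.perfect_top hG (X.perfect_of_sm fun i t => ?_)
  rcases cases_C (e := e) he (S.good.sm i) with ⟨a, b, h, e⟩ | ⟨a, e⟩ <;> rw [e]
  · exact k h t
  · obtain ⟨b, h⟩ := exists_okC he a
    obtain ⟨t1, t2, t3, e⟩ := dec_lg S he X h t
    exact e ▸ mul_mem (Subgroup.commutator_mem_commutator (X.x_mem_Gr _ _) (X.x_mem_Gr _ _)) (k h _)

variable {E : Type*} [Group E] {π : E →* Γ} (Y : CExt π)

theorem com_ls {v : F} (v0 : v ≠ 0) (v1 : v ≠ 1) {a b c : J} (h : C.ix a ≠ C.ix b)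
    (k : Nil2 (C.rd.comap e).D (ϱ c c) (ϱ a b)) : X.Com Y (ϱ c c) (ϱ a b) :=
  (Cover.com_of_tor (fun t u => (Cover.cmm_of_Nil2 k u t).symm) (Cover.tor_of_Tc (tc_sl' S he h c) v0 (by rwa [pow_one]))).symm

theorem pair_C {y : Fin n → F → E} {v : F} (v0 : v ≠ 0) (v1 : v ≠ 1)
    (h1 : ∀ a b, C.ix a ≠ C.ix b → PairOK X π y (ϱ a b) (ϱ a (C.ν b)))
    (h2 : ∀ a b, C.ix a ≠ C.ix b → PairOK X π y (ϱ a a) (ϱ b b)) (r s : Fin n) (n1 : s ≠ r) (n2 : s ≠ r.rev) :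
    PairOK X π y r s := by
  have t1 : ∀ {r s}, S.good.Tc r s 1 → X.Tor r s := fun h => Cover.tor_of_Tc h v0 (by rwa [pow_one])
  rcases cases_C (e := e) he r with ⟨a, b, k1, rfl⟩ | ⟨a, rfl⟩ <;> rcases cases_C (e := e) he s with ⟨c, d, k2, rfl⟩ | ⟨c, rfl⟩
  · rcases pair_cases S (okC he k1) (okC he k2) n1 n2 with k | ⟨a1, a2, -⟩ | k | k
    · exact Or.inl (t1 k)
    · exact Or.inl (t1 (tc_sl S he k1 (by simp [v_st he k2, C.dot_ne, a1, a2])))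
    · rw [k]; exact h1 _ _ k1
    · rw [k, ρ_comm a]; exact h1 _ _ k1.symm
  · exact Or.inl (t1 (tc_sl' S he k1 c))
  · exact Or.inr (Or.inl (t1 (tc_sl' S he k2 a)))
  · refine h2 _ _ fun k => ?_
    rcases C.eq_of_ix k with rfl | rfl
    exacts [n1 rfl, n2 (rev_lg S he a).symm]

include Y in
theorem relC_big (hG : X.Gr = ⊤) {v : F} (v0 : v ≠ 0) (v1 : v ^ 2 ≠ 1) :
    ∃ y : Fin n → F → E, (∀ r t, π (y r t) = X.x r t) ∧ Rel (C.rd.comap e).D y := by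
  have v2 : v ≠ 1 := fun e => v1 (by simp [e])
  have hp := perfectC S he X (Or.inr ⟨v, v0, v2⟩) hG
  have : ∀ r, ∃ y, Cover.Lift1 X Y r y := fun r => by
    rcases cases_C (e := e) he r with ⟨a, b, h, rfl⟩ | ⟨a, rfl⟩
    · have A1 : S.good.A (ϱ a a) (ϱ a b) = 1 := by simp [A_lg S he, v_st he h, C.dot_self, sgC he, C.dot_ne h]
      obtain ⟨k, hk, c, hc, ha⟩ := Cover.move_of (C := X) (d := 1) (by rw [A1]; rfl) v0 (by rwa [pow_one])
      refine Cover.exists_lift1 hG hp ?_ hk hc ha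
      by_cases h2 : (2 : F) = 0
      · refine Cover.com_of_dec2 (fun t u => ?_) (cmm_two S he X h2 h) (com_ls S he X Y v0 v2 h (nil_ls S he h)).symm
          (dec_st S he X h)
        rw [ρ_comm a]; exact (Cover.cmm_of_Nil2 (nil_ls S he h.symm) u t).symm
      · obtain ⟨w, b0, b1, b2⟩ := exists_big' h2 v0 v1
        exact Cover.com_self_of_A A1 b0 b1 b2
    · obtain ⟨k, hk, c, hc, ha⟩ := Cover.move_of (C := X) (g := ϱ a a) (r := ϱ a a) (d := 2) (by rw [Good.A_self]; rfl) v0 v1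
      obtain ⟨b, h⟩ := exists_okC he a
      exact Cover.exists_lift1 hG hp (Cover.com_of_dec2 (Cover.cmm_of_Nil2 (nil_ll S he h))
        (Cover.cmm_of_Nil2 (nil_ls S he (by rwa [C.ix_ν]))) (com_ls S he X Y v0 v2 h (nil_ls S he h)) (dec_lg S he X h)) hk hc ha
  choose y hy using this
  have L := Cover.lifts_of hy
  refine ⟨y, L.π_y, L.rel (pair_C S he X v0 v2 (fun a b h => Or.inl (Cover.tor_of_Tc (tc_bad S (okC he h)) v0 v1))
    fun a b h => Or.inl (Cover.tor_of_Tc (d := 2) ⟨ϱ a a, ?_, by rw [Good.A_self]; rfl⟩ v0 v1))⟩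
  simp [A_lg S he, v_lg he, C.dot_ne h]

theorem rf_C {a b b' : J} (h : C.ix b ≠ C.ix b') (h1 : C.ix a ≠ C.ix b) (h2 : C.ix a ≠ C.ix b') :
    S.good.rf (ϱ b (C.ν b')) (ϱ a b) = ϱ a b' ∧ S.good.rf (ϱ b (C.ν b')) (ϱ a (C.ν b)) = ϱ a (C.ν b') ∧
    S.good.rf (ϱ b (C.ν b')) (ϱ b b) = ϱ b' b' ∧ ∀ c, C.ix c ≠ C.ix b → C.ix c ≠ C.ix b' → C.ix a ≠ C.ix c →
      S.good.rf (ϱ b (C.ν b')) (ϱ a c) = ϱ a c := by
  have k : C.okL b (C.ν b') := C.okL_ν.2 (okC he h)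
  refine ⟨?_, ?_, ?_, fun c c1 c2 c3 => ?_⟩ <;> refine (C.rd.comap e).inj ?_ <;> rw [S.rf_eq, RD.v_rf, (C.pairsL e).A_ρ k]
  · simp [v_st he, wt_ν, C.ix_ν, h, h1, h2, h.symm, h1.symm, h2.symm, C.dot_ne, C.dot_self, sgC he]; abel
  · simp [v_st he, wt_ν, C.ix_ν, h, h1, h2, h.symm, h1.symm, h2.symm, C.dot_ne, C.dot_self, sgC he]; abel
  · simp [v_lg he, v_st he, wt_ν, C.ix_ν, h, h.symm, C.dot_ne, C.dot_self, sgC he]; ring
  · simp [v_st he, wt_ν, C.ix_ν, h, c1, c2, c3, c1.symm, c2.symm, h1.symm, h2.symm, C.dot_ne]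

include Y in
theorem relC_three (hG : X.Gr = ⊤) (hF : ∀ a : F, a = 0 ∨ a = 1 ∨ a = -1) (h2 : (2 : F) ≠ 0) :
    ∃ y : Fin n → F → E, (∀ r t, π (y r t) = X.x r t) ∧ Rel (C.rd.comap e).D y := by
  have v0 : (-1 : F) ≠ 0 := by simp
  have v2 : (-1 : F) ≠ 1 := fun e => h2 (by linear_combination -e)
  have hp := perfectC S he X (Or.inr ⟨_, v0, v2⟩) hG
  have cl : ∀ {a b}, C.ix a ≠ C.ix b → X.Com Y (ϱ a b) (ϱ a a) := fun h => (com_ls S he X Y v0 v2 h (nil_ls S he h)).symm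
  have : ∀ r, ∃ y, Cover.Lift1 X Y r y ∧ ∀ a, r = ϱ a a → ∀ b, C.ix a ≠ C.ix b → ∀ t u,
      ∃ v, Y.cm (X.x (ϱ a (C.ν b)) t) (X.x (ϱ a b) u) = y v := fun r => by
    rcases cases_C (e := e) he r with ⟨a, b, h, rfl⟩ | ⟨a, rfl⟩
    · have A1 : S.good.A (ϱ a a) (ϱ a b) = 1 := by simp [A_lg S he, v_st he h, C.dot_self, sgC he, C.dot_ne h]
      obtain ⟨k, hk, c, hc, ha⟩ := Cover.move_of (C := X) (d := 1) (by rw [A1]; rfl) v0 (by rwa [pow_one])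
      obtain ⟨y, hy⟩ := Cover.exists_lift1 hG hp (Cover.com_self_of_three (X := Y) hF _) hk hc ha
      refine ⟨y, hy, fun c k => ?_⟩
      have := C.pair ((v_st he h).symm.trans ((congrArg _ k).trans (v_lg he c))) fun e => h (by rw [e, C.ix_ν])
      exact absurd (by aesop) h
    obtain ⟨b, h⟩ := exists_okC he a
    obtain ⟨c, hc, k⟩ := comm_bad S he X h
    obtain ⟨y, hy, k1⟩ := Cover.exists_lift1_three hF ⟨c, by rcases hc with h | h <;> simpa [h] using h2, k⟩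
      (cl (by rwa [C.ix_ν])) (cl h)
    refine ⟨y, hy, fun a' k2 b' h' t u => ?_⟩
    obtain rfl : a = a' := by
      have := C.pair ((v_lg he a).symm.trans ((congrArg _ k2).trans (v_lg he a'))) fun e => by
        have := C.sg_ν a; have := sgC he a; rw [← e] at *; omega
      aesop
    by_cases k3 : C.ix b = C.ix b'
    · rcases C.eq_of_ix k3 with rfl | rfl
      · exact k1 t u
      · obtain ⟨v, hv⟩ := k1 u t
        refine ⟨-v, ?_⟩
        rw [C.νν, ← Y.cm_inv, hv, inv_eq_iff_mul_eq_one, ← hy.add, add_neg_cancel]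
        simpa using hy.add 0 0
    obtain ⟨r1, r2, -⟩ := rf_C S he (Ne.symm k3) h' h
    have k4 : C.ix b' ≠ C.ix (C.ν b) := by rw [C.ix_ν]; exact Ne.symm k3
    obtain ⟨v, hv⟩ := k1 _ _
    refine ⟨v, ?_⟩
    rw [← hv, ← r2, ← r1, ← X.n_conj _ one_ne_zero, ← X.n_conj _ one_ne_zero, ← Y.cj_cm, eq_comm]
    obtain ⟨c, -, k⟩ := comm_bad S he X h'
    refine Cover.cj_n ?_ ?_ _ (by rw [Y.π_cm, k])
    · exact (com_ls S he X Y v0 v2 k4 (nil_ld S he k4 h' (by rwa [C.ix_ν]))).symm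
    · rw [(C.pairsL e).rev_ρ S (okC he k4)]
      exact (com_ls S he X Y v0 v2 (by simpa [C.ix_ν] using k4) (nil_ld S he (by simpa [C.ix_ν] using k4)
        (by rwa [C.ix_ν]) (by rwa [C.νν]))).symm
  choose y hy hy' using this
  have L := Cover.lifts_of hy
  refine ⟨y, L.π_y, L.rel (pair_C S he X v0 v2 (fun a b h => Or.inr (Or.inr (Or.inl (L.dir_of_cm (l := ϱ a a) ?_
    (hy' _ a rfl b h)).2))) fun a b h => Or.inr (Or.inr (Or.inl (L.dir_of_com (Cover.com_of_Sw1 hF h2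
      ⟨nil_ll S he h, ϱ a (C.ν b), ?_, ?_⟩)))))⟩
  · rw [S.vec_eq]; exact (RD.vec_sum _).1 (sum_C he h).2
  · rw [S.A_eq, (C.pairsL e).A_ρ (C.okL_ν.2 (okC he h)), v_lg he]
    simp [wt_ν, C.dot_self, sgC he, C.dot_ne h.symm]
  · rw [S.vec_eq]
    exact RD.vec_sub2 _ (by rw [v_lg he, v_lg he, v_st he (by rwa [C.ix_ν]), wt_ν, two_smul]; abel)

theorem comL (hm : 4 ≤ m) {a b c : J} (h : C.ix b ≠ C.ix c) (h1 : C.ix a ≠ C.ix b ∨ a = b) (h2 : C.ix a ≠ C.ix c) :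
    X.Com Y (ϱ a a) (ϱ b c) := by
  obtain ⟨k, h0, k1, k2, k3⟩ := avoid4 hm (C.ix a) (C.ix b) (C.ix c)
  obtain ⟨d, h3, h4, rfl⟩ := C.roomL (okC he h) h0 k2 k3
  refine Cover.com_of_dec (Cover.cmm_of_Nil2 ?_) (Cover.cmm_of_Nil2 (nil_ld S he h4.1 (by rw [C.ix_ν]; exact k1.symm) h2))
    ((C.pairsL e).sm X h3 h4 h).dec
  rcases h1 with h1 | rfl
  exacts [nil_ld S he h3.1 h1 k1.symm, nil_ls S he h3.1]

include Y in
theorem relC_two (hm : 4 ≤ m) (hF : ∀ a : F, a ≠ 0 → a = 1) :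
    ∃ y : Fin n → F → E, (∀ r t, π (y r t) = X.x r t) ∧ Rel (C.rd.comap e).D y := by
  classical
  have H := C.pairsL e
  have h2 : (2 : F) = 0 := by by_contra h; exact one_ne_zero (α := F) (by linear_combination hF _ h)
  have hg : (H.psys X (C.room4 hm) fun h _ => cmm_two S he X h2 h.1).Good Y := fun {a b c d} h1 h3 a1 a2 a3 a4 =>
    Cover.com_of_dec2 (fun t u => (Cover.cmm_of_Nil2 (nil_ld S he h1.1 (Ne.symm a2) (Ne.symm a4)) u t).symm)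
      (Cover.cmm_of_Nil2 (H.nil_disj S h1 (C.okL_ν.2 h3) a1 (by rwa [C.ix_ν]) a3 (by rwa [C.ix_ν])))
      (comL S he X Y hm h1.1 (Or.inl (Ne.symm a1)) (Ne.symm a3)).symm (dec_st S he X h3.1)
  obtain ⟨y0, hy0⟩ := PSys.exists_y hg
  have p1 : ∀ {a c}, C.ix a ≠ C.ix c → ∀ t, π (y0 (ϱ a c) t) = X.x (ϱ a c) t := fun h => (hy0 _ _ (okC he h)).1
  have p2 : ∀ {a c}, C.ix a ≠ C.ix c → ∀ t u, y0 (ϱ a c) (t + u) = y0 (ϱ a c) t * y0 (ϱ a c) u :=
    fun h => (hy0 _ _ (okC he h)).2.1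
  have p3 : ∀ {a b c}, C.ix a ≠ C.ix b → C.ix b ≠ C.ix c → C.ix a ≠ C.ix c →
      Y.cm (X.x (ϱ a b) 1) (X.x (ϱ (C.ν b) c) 1) = y0 (ϱ a c) 1 := fun {a b c} h1 h3 h4 => by
    have h3' : C.okL (C.ν b) c := okC he (by rwa [C.ix_ν])
    obtain ⟨ε, h0, k⟩ := H.sm X (okC he h1) h3' h4
    exact (hy0 _ _ (okC he h4)).2.2 b (okC he h1) h3' _ _ _ ((k 1 1).trans (by rw [hF _ h0, mul_one, mul_one]; rfl))
  have xx : ∀ r, X.x r 1 * X.x r 1 = 1 := fun r => by rw [← X.add, one_add_one_eq_two, h2, X.x_zero]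
  have nc : ∀ g s, X.n g 1 * X.x s 1 * (X.n g 1)⁻¹ = X.x (S.good.rf g s) 1 := fun g s => by
    have := X.n_conj g one_ne_zero s 1
    rwa [hF (_ * 1) fun e => ?_] at this
    rw [e, X.x_zero, mul_inv_eq_one, mul_eq_left, ← X.x_zero s] at this
    exact one_ne_zero (X.x_inj this)
  have c2 : ∀ {a b}, C.ix a ≠ C.ix b → ⁅X.x (ϱ b b) 1, X.x (ϱ a (C.ν b)) 1⁆ = X.x (ϱ a b) 1 * X.x (ϱ a a) 1 := fun h => by
    obtain ⟨c, c', h1, h3, k⟩ := RD.Sorted.comm_two X (sum_C he h).1 (sum_C he h).2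
    simpa [hF _ (left_ne_zero_of_mul_eq_one h1), hF _ (left_ne_zero_of_mul_eq_one h3)] using k 1 1
  let z : J → J → E := fun a b => (y0 (ϱ a b) 1)⁻¹ * Y.cm (X.x (ϱ b b) 1) (X.x (ϱ a (C.ν b)) 1)
  have z1 : ∀ {a b}, C.ix a ≠ C.ix b → π (z a b) = X.x (ϱ a a) 1 := fun h => by
    simp only [z, map_mul, map_inv, p1 h, Y.π_cm, c2 h, inv_mul_cancel_left]
  have z2 : ∀ {a b b'}, C.ix a ≠ C.ix b → C.ix a ≠ C.ix b' → C.ix b ≠ C.ix b' → z a b = z a b' := by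
    intro a b b' h1 h3 h4
    obtain ⟨k, h0, k1, k2, k3⟩ := avoid4 hm (C.ix a) (C.ix b) (C.ix b')
    obtain ⟨d, rfl, -⟩ := C.exists_ix h0 (Or.inl rfl)
    obtain ⟨-, r2, r3, r4⟩ := rf_C S he h4 h1 h3
    have h5 : C.ix b ≠ C.ix (C.ν b') := by rwa [C.ix_ν]
    rw [← Cover.cj_n (X := Y) (comL S he X Y hm h5 (Or.inl h1) (by rwa [C.ix_ν])).symm (by
      rw [H.rev_ρ S (okC he h5)]
      exact (comL S he X Y hm (by simpa [C.ix_ν] using h4) (Or.inl (by rwa [C.ix_ν])) (by rwa [C.νν])).symm) 1 (z1 h1)]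
    simp only [z, map_mul, map_inv, ← p3 k1.symm k2 h1, ← p3 k1.symm k3 h3, Y.cj_cm, nc, r2, r3, r4 d k2 k3 k1.symm,
      (rf_C S he (a := C.ν d) h4 (by rwa [C.ix_ν]) (by rwa [C.ix_ν])).1]
  have z3 : ∀ {a b b'}, C.ix a ≠ C.ix b → C.ix a ≠ C.ix b' → z a b = z a b' := fun {a b b'} h1 h3 => by
    obtain ⟨k, h0, k1, k2, k3⟩ := avoid4 hm (C.ix a) (C.ix b) (C.ix b')
    obtain ⟨d, rfl, -⟩ := C.exists_ix h0 (Or.inl rfl)
    rw [z2 h1 k1.symm k2.symm, z2 k1.symm h3 k3]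
  have z4 : ∀ {a b}, C.ix a ≠ C.ix b → z a b * z a b = 1 := fun {a b} h => by
    have h' : C.ix a ≠ C.ix (C.ν b) := by rwa [C.ix_ν]
    have k : ∀ {c}, C.ix a ≠ C.ix c → Y.cm (X.x (ϱ a c) 1) (π (Y.cm (X.x (ϱ b b) 1) (X.x (ϱ a (C.ν b)) 1))) = 1 := fun k => by
      rw [Y.π_cm, c2 h, Y.cm_mul_right, (comL S he X Y hm k (Or.inr rfl) k).symm, map_one, mul_one]
      exact PSys.com hg (okC he k) (okC he h) _ _
    have k1 := Y.cm_mul_right (X.x (ϱ b b) 1) (X.x (ϱ a (C.ν b)) 1) (X.x (ϱ a (C.ν b)) 1)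
    rw [xx, Y.cm_one_right, Y.cj_of_cm (k h')] at k1
    have k2 := p2 h 0 0
    have k3 := p2 h 1 1
    rw [add_zero, left_eq_mul] at k2
    rw [one_add_one_eq_two, h2, k2] at k3
    rw [((Y.commute (by rw [p1 h]; exact k h)).inv_left.symm.mul_mul_mul_comm _ _), ← k1, ← _root_.mul_inv_rev, ← k3]
    simp
  have lf : ∀ r (y : F → E), (∀ t, π (y t) = X.x r t) → (∀ t u, y (t + u) = y t * y u) → Cover.Lift1 X Y r y :=
    fun r y h1 h3 => ⟨h1, h3, fun k hk c hc t => by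
      obtain rfl : k = 1 := by
        rw [X.HH_eq] at hk
        exact ((Subgroup.closure_le ⊥).2 (by rintro _ ⟨i, t, h, rfl⟩; simp [hF t h, X.h_one])) hk
      rw [← X.x_inj (show X.x r t = X.x r (c * t) by simpa using hc t), map_one]; rfl⟩
  have ne : ∀ {a b c}, C.ix a ≠ C.ix b → ϱ a b ≠ ϱ c c := fun {a b c} h k => by
    have := C.pair ((v_st he h).symm.trans ((congrArg _ k).trans (v_lg he c))) fun e => h (by rw [e, C.ix_ν])
    exact h (by aesop)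
  have : ∀ r, ∃ y, Cover.Lift1 X Y r y ∧ (∀ a b, C.ix a ≠ C.ix b → r = ϱ a b → y = y0 r) ∧
      ∀ a, r = ϱ a a → ∀ b, C.ix a ≠ C.ix b → y 1 = z a b := fun r => by
    rcases cases_C (e := e) he r with ⟨a, b, h, rfl⟩ | ⟨a, rfl⟩
    · exact ⟨_, lf _ _ (p1 h) (p2 h), fun _ _ _ _ => rfl, fun c k => absurd k (ne h)⟩
    obtain ⟨b, h⟩ := exists_okC he a
    refine ⟨fun t => if t = 0 then 1 else z a b, lf _ _ (fun t => ?_) fun t u => ?_, fun _ _ h k => absurd k.symm (ne h),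
      fun a' k b' h' => ?_⟩
    · split_ifs with k
      · rw [k, X.x_zero, map_one]
      · rw [hF t k, z1 h]
    · by_cases k : t = 0
      · simp [k]
      · by_cases k' : u = 0 <;> simp [k', hF t k, hF u, one_add_one_eq_two, h2, z4 h]
    · obtain rfl : a = a' := by
        have := C.pair ((v_lg he a).symm.trans ((congrArg _ k).trans (v_lg he a'))) fun e => by
          have := C.sg_ν a; have := sgC he a; rw [← e] at *; omega
        aesop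
      simp [z3 h h']
  choose y hy hy1 hy2 using this
  have L := Cover.lifts_of hy
  have key : ∀ {a c d}, C.ix c ≠ C.ix d → C.ix a ≠ C.ix d → Dir S.good y (ϱ c d) (ϱ a a) ∧ Dir S.good y (ϱ a a) (ϱ c d) := by
    intro a c d h1 h3
    by_cases k : C.ix a ≠ C.ix c ∨ a = c
    · have := comL S he X Y hm h1 k h3
      exact ⟨L.dir_of_com this.symm, L.dir_of_com this⟩
    obtain rfl : c = C.ν a := (C.eq_of_ix (by tauto)).resolve_left (by tauto)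
    rw [ρ_comm _ d]
    refine L.dir_of_cm2 (k := ϱ d a) (k' := ϱ d d) ?_ ?_ fun t u => ?_
    · rw [S.vec_eq]; exact (RD.vec_sum _).1 (sum_C he h3.symm).1
    · rw [S.vec_eq]; exact (RD.vec_sum _).1 (sum_C he h3.symm).2
    by_cases k : t = 0 ∨ u = 0
    · exact ⟨0, 0, by rcases k with k | k <;> simp [k, X.x_zero, L.zero]⟩
    · rw [hF t (by tauto), hF u (by tauto)]
      exact ⟨1, 1, by rw [hy1 _ _ _ h3.symm rfl, hy2 _ _ rfl _ h3.symm, mul_inv_cancel_left]⟩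
  have key' : ∀ {a c d}, C.ix c ≠ C.ix d → Dir S.good y (ϱ c d) (ϱ a a) ∧ Dir S.good y (ϱ a a) (ϱ c d) := by
    intro a c d h1
    by_cases k : C.ix a = C.ix d
    · rw [ρ_comm c]; exact key h1.symm (by omega)
    · exact key h1 k
  refine ⟨y, L.π_y, L.rel fun r s n1 n2 => Or.inr (Or.inr (Or.inl ?_))⟩
  rcases cases_C (e := e) he r with ⟨a, b, k1, rfl⟩ | ⟨a, rfl⟩ <;> rcases cases_C (e := e) he s with ⟨c, d, k2, rfl⟩ | ⟨c, rfl⟩
  · refine H.dir hg L (fun a c h b h1 h3 t u w k => ?_) (okC he k1) (okC he k2) n2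
    rw [hy1 _ _ _ h.1 rfl]
    exact (hy0 a c h).2.2 b h1 h3 t u w k
  · exact (key' k1).1
  · exact (key' k2).2
  · have k : C.ix a ≠ C.ix c := fun k => by
      rcases C.eq_of_ix k with rfl | rfl
      exacts [n1 rfl, n2 (rev_lg S he a).symm]
    obtain ⟨k, h0, k1, k2⟩ := avoid3 (m := m) (by omega) (C.ix a) (C.ix c)
    obtain ⟨d, rfl, -⟩ := C.exists_ix h0 (Or.inl rfl)
    exact L.dir_of_com (Cover.com_of_dec2 (Cover.cmm_of_Nil2 (nil_ll S he k1.symm)) (Cover.cmm_of_Nil2 (nil_ld S he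
      (by rw [C.ix_ν]; exact k2.symm) k (by rw [C.ix_ν]; exact k1.symm))) (comL S he X Y hm k2.symm (Or.inl k) k1.symm)
      (dec_lg S he X k2.symm))

theorem univC (h : 4 ≤ m ∨ ∃ a : F, a ≠ 0 ∧ a ≠ 1) : S.good.Univ F := fun E _ π Y => by
  by_cases k : ∃ a : F, a ≠ 0 ∧ a ≠ 1
  · rcases three_or F with hF | ⟨v, v0, v1⟩
    · exact relC_three S he _ Y (S.good.sc_Gr F) hF (Cover.two_ne hF k)
    · exact relC_big S he _ Y (S.good.sc_Gr F) v0 v1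
  · exact relC_two S he _ Y (h.resolve_right k) (by simpa using k)

theorem prod_tvC (c : Fin m → Fˣ) (j : Fin m) : ∏ k ∈ range (j + 1), C.tv c (C.p k) = c j := by
  have := C.hm
  have zs : ∀ (a : Fˣ) (g : ℕ → ℤ) (j : ℕ), ∏ k ∈ range j, a ^ g k = a ^ ∑ k ∈ range j, g k := fun a g j => by
    induction j with
    | zero => simp
    | succ j ih => rw [prod_range_succ, sum_range_succ, ih, _root_.zpow_add]
  simp only [tv, pw_apply, of_apply]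
  rw [prod_comm, prod_congr rfl (g := fun i => if i = j then c i else 1) fun i _ => ?_]
  · simp
  have hi := i.2
  have hj := j.2
  by_cases h : (i : ℕ) + 1 < m
  · have k1 : (C.sm i).1.1 ≠ (C.sm i).1.2 := fun e => by
      have := congrArg C.ix e
      simp [sm, h, C.ix_ν, C.ix_p _ h, C.ix_p _ hi] at this
    have k2 : 2 - C.sg (C.sm i).1.2 ^ 2 = 1 := by norm_num [sm, h, C.sg_ν, C.sg_p _ h]
    simp only [zs, rd, k1, if_false, k2, one_mul, sum_dot, psum_sm, uv_apply, @eq_comm _ j,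
      show i ≠ C.lst from fun e => by simp [e, lst] at h; omega]
    split_ifs <;> simp
  · have k : (C.sm i).1 = (C.p (m - 1), C.p (m - 1)) := by
      rcases C.ty with k | ⟨k | k, k1, -⟩ <;> first | omega | simp [sm, h, k.2, k1]
    simp only [zs, rd, k, if_true, sum_dot, psum_wt, C.ix_p (m - 1) (by omega), C.sg_p (m - 1) (by omega), Fin.ext_iff]
    split_ifs <;> first | omega | simp

theorem τ_injC [Finite F] {P : FP F} {f : CForm P (J → F)} (h : C.Ad f) : Function.Injective (S.good.st_R3 F).τ := by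
  obtain ⟨ρ, hρ⟩ := h.exists_rep S
  refine (injective_iff_map_eq_one _).2 fun c hc => funext fun j => ?_
  have h1 := RD.Sorted.τ_diag (S.good.st_R3 F) ρ hρ (fun r => by simp [RD.comap, rd, sgC he]) c
  rw [hc, map_one, ← diagonal_one] at h1
  rw [← prod_tvC he c j]
  refine prod_eq_one fun k _ => Units.ext ?_
  have := (congrFun (diagonal_injective h1) (C.p k)).symm
  simp only [RD.comap, Equiv.apply_symm_apply] at this
  exact this

include S in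
theorem exists_KC : Nonempty ((pw Fˣ (cartanM (C.rd.comap e).D)).ker ≃* (powMonoidHom 2 : Fˣ →* Fˣ).ker) := by
  have hm := C.hm
  have hz : C.z = C.p (m - 1) := by rcases C.ty with k | k; omega; exact k.2.1
  have k : ∀ {c : Fin m → Fˣ} {x}, (∀ k < m, C.tv c (C.p k) = x) ↔ ∀ j : Fin m, c j = x ^ (j + 1 : ℕ) := by
    intro c x
    rw [← prod_range_iff]
    exact ⟨fun h j => by rw [← prod_tvC he c, h j j.2], fun h j hj => by rw [prod_tvC he c ⟨j, hj⟩, h]⟩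
  have k1 : ∀ x : Fˣ, ∀ i < m, C.tv (fun j : Fin m => x ^ (j + 1 : ℕ)) (C.p i) = x := fun x => k.2 fun _ => rfl
  exact ⟨{
    toFun c := ⟨C.tv c.1 (C.p 0), by
      obtain ⟨h1, h2⟩ := (C.mem_K S).1 c.2
      rwa [hz, h1 _ (by omega), h1 (m - 1) (by omega), ← sq] at h2⟩
    invFun x := ⟨fun j : Fin m => x.1 ^ (j + 1 : ℕ), (C.mem_K S).2 ⟨fun i hi => by rw [k1 _ i hi, k1 _ 0 (by omega)], by
      rw [hz, k1 _ _ (by omega), k1 _ _ (by omega), ← sq]; exact x.2⟩⟩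
    left_inv c := Subtype.ext (funext fun j => (k.1 ((C.mem_K S).1 c.2).1 j).symm)
    right_inv x := Subtype.ext (k1 _ 0 (by omega))
    map_mul' c d := Subtype.ext (congrFun (map_mul (pw Fˣ _) c.1 d.1) _) }⟩

end CD

theorem hasSM_C {F : Type u} [Field F] [Fintype F] {m : ℕ} (hm : 2 ≤ m) (h : 4 ≤ m ∨ ∃ a : F, a ≠ 0 ∧ a ≠ 1) :
    Cfsg.HasCyclicSchurMultiplier (Cfsg.PSp m F) (Nat.gcd 2 (Fintype.card F - 1)) := by
  obtain ⟨n, e, ⟨S⟩⟩ := (cdC hm).rd.exists_sorted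
  exact (adaptC hm).hasSM S (spE' m) (CD.perfectC S rfl _ (h.imp_left (by omega)) (S.good.st_Gr F)) (CD.univC S rfl h)
    (CD.τ_injC S rfl (adaptC hm)) ((CD.exists_KC S rfl).some.trans (ker_pow_equiv F 2).some)

end CfsgH6
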