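import Mathlib
import Cfsg.Agent.H6.SMC
import Cfsg.Agent.H6.Levi
import Cfsg.Agent.H6.Sylow

/-! Types B and C are different. -/

set_option autoImplicit false
set_option linter.unusedSectionVars false

universe u

namespace CfsgH6

open Matrix Cfsg.Lie CfsgH5 CForm Finset
open scoped commutatorElement

/-- conjugates of central elements commute -/
def WC {Γ : Type*} [Group Γ] (U : Subgroup Γ) : Prop := ∀ z ∈ U, (∀ u ∈ U, Commute u z) → ∀ g g' : Γ,
  g * z * g⁻¹ ∈ U → g' * z * g'⁻¹ ∈ U → Commute (g * z * g⁻¹) (g' * z * g'⁻¹)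

theorem WC.map {Γ Γ' : Type*} [Group Γ] [Group Γ'] {U : Subgroup Γ} (h : WC U) (e : Γ ≃* Γ') : WC (U.map e.toMonoidHom) := by
  rintro _ ⟨z, hz, rfl⟩ h1 g g' ⟨a, ha, k⟩ ⟨b, hb, k'⟩
  obtain ⟨g, rfl⟩ := e.surjective g
  obtain ⟨g', rfl⟩ := e.surjective g'
  simp only [MulEquiv.coe_toMonoidHom, ← map_inv, ← map_mul, EmbeddingLike.apply_eq_iff_eq] at *
  exact (h z hz (fun u hu => e.injective (by simpa using (h1 _ ⟨u, hu, rfl⟩).eq)) g g' (k ▸ ha) (k' ▸ hb)).map e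

theorem WC.sylow {Γ Γ' : Type*} [Group Γ] [Group Γ'] [Finite Γ] {p : ℕ} [Fact p.Prime] {P : Sylow p Γ} (h : WC P.toSubgroup)
    (e : Γ ≃* Γ') (Q : Sylow p Γ') : WC Q.toSubgroup := by
  haveI := Finite.of_equiv _ e.toEquiv
  obtain ⟨g, hg⟩ := MulAction.exists_smul_eq Γ' (P.mapSurjective (f := e.toMonoidHom) e.surjective) Q
  exact hg ▸ (h.map e).map (MulAut.conj g)

theorem Cover.commute_US' {D : ChevalleyDatum} {G : Good D} {F : Type*} [Field F] {Γ : Type*} [Group Γ] (C : Cover G F Γ)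
    {S : Set (Fin D.nroots)} {z : Γ} (h : ∀ r ∈ S, ∀ t, Commute (C.x r t) z) {u : Γ} (hu : u ∈ C.US S) : Commute u z :=
  Subgroup.mem_centralizer_singleton_iff.1 ((Subgroup.closure_le (Subgroup.centralizer {z})).2 (by
    rintro _ ⟨r, hr, t, rfl⟩; exact Subgroup.mem_centralizer_singleton_iff.2 (h r hr t)) hu)

namespace CD

variable {m : ℕ} {J : Type} {C : CD m J} [DecidableEq J] [Fintype J] {n : ℕ} {e : Fin n ≃ C.Φ} (S : (C.rd.comap e).Sorted)

local notation "ϱ" => C.ρ (C.rd.comap e)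
local notation "𝐯" => RD.v (C.rd.comap e)

theorem pos_iff (r : Fin n) : S.good.Pos r ↔ C.sg (e r).1.1 = 1 := by
  have k : ∀ i, psum (C.v (e r)) i = C.vec (e r) i + C.vec (e r) C.lst * C.w i := fun i => by rw [vec_lst, vec]; ring
  have k1 := k ⟨_, (e r).sg1.1⟩
  have k2 : 0 ≤ C.w ⟨_, (e r).sg1.1⟩ := by have := C.zc; unfold w; split_ifs <;> omega
  have k3 := (e r).2
  have k4 := (e r).sg1.2
  simp only [v, map_add, Pi.add_apply, psum_wt, le_refl, if_true] at k1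
  rw [Good.Pos, S.vec_eq]
  refine ⟨fun h => ?_, fun h => (C.rd.pos_or_neg (e r)).resolve_right fun h' => ?_⟩
  · have := add_nonneg (h ⟨_, (e r).sg1.1⟩) (mul_nonneg (h C.lst) k2)
    change 0 ≤ C.vec _ _ + C.vec _ _ * _ at this
    rcases k3 with k3 | ⟨-, k3⟩
    · rw [if_neg (by omega)] at k1; omega
    · rw [← k3, if_pos le_rfl] at k1; omega
  · have := add_nonpos (h' ⟨_, (e r).sg1.1⟩) (mul_nonpos_of_nonpos_of_nonneg (h' C.lst) k2)
    change C.vec _ _ + C.vec _ _ * _ ≤ 0 at this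
    rcases k3 with k3 | ⟨-, k3⟩
    · rw [if_neg (by omega)] at k1; omega
    · rw [← k3, if_pos le_rfl] at k1; omega

theorem ρ_symm (r : C.Φ) : ϱ r.1.1 r.1.2 = e.symm r := ρ_eq (by simp [RD.comap, rd, v])

theorem pos_ρ {a b : J} (h : C.ix a < C.ix b ∨ (C.ε = -1 ∧ a = b)) (h1 : C.sg a = 1) : S.good.Pos (ϱ a b) := by
  rw [pos_iff, ρ_symm (e := e) ⟨(a, b), h⟩]; simpa using h1

variable {F : Type u} [Field F]

theorem not_wc (hz : C.sg C.z = 0) (hm : 3 ≤ m) {Γ : Type*} [Group Γ] (X : Cover S.good F Γ) : ¬ WC X.U := fun h => by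
  have H := C.pairsL e
  have he := ε_B hz
  have i0 := C.ix_p 0 (by omega)
  have i1 := C.ix_p 1 (by omega)
  have i2 := C.ix_p 2 (by omega)
  have s0 := C.sg_p 0 (by omega)
  have s1 := C.sg_p 1 (by omega)
  have s2 := C.sg_p 2 (by omega)
  have o1 : C.okL (C.p 0) (C.p 1) := ⟨by omega, by omega, by omega⟩
  have o2 : C.okL (C.p 1) (C.p 2) := ⟨by omega, by omega, by omega⟩
  have o3 : C.okL (C.p 0) (C.p 2) := ⟨by omega, by omega, by omega⟩
  have r1 : S.good.rf (ϱ (C.p 1) C.z) (ϱ (C.p 0) (C.p 1)) = ϱ (C.p 0) (C.ν (C.p 1)) := (C.rd.comap e).inj (by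
    rw [S.rf_eq, RD.v_rf, ← S.A_eq, A_sh S hz o1.2.2, v_sh hz o1.2.2, H.v_ρ o1, H.v_ρ (C.okL_ν.2 o1)]
    simp [wt_ν, dot, i0, i1, s1]; ring)
  have r2 : S.good.rf (ϱ (C.p 0) (C.ν (C.p 2))) (ϱ (C.p 0) (C.p 1)) = ϱ (C.p 1) (C.p 2) := (C.rd.comap e).inj (by
    rw [S.rf_eq, RD.v_rf, H.A_ρ (C.okL_ν.2 o3), H.v_ρ o1, H.v_ρ o2, H.v_ρ (C.okL_ν.2 o3)]
    simp [wt_ν, dot, i0, i1, i2, s0])
  have := h (X.x (ϱ (C.p 0) (C.p 1)) 1) (X.x_mem_U (pos_ρ S (by omega) s0) _) (fun u hu => X.commute_US' (fun r hr t => by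
    have k : 2 < (𝐯 r + 𝐯 (ϱ (C.p 0) (C.p 1))) ⬝ᵥ (𝐯 r + 𝐯 (ϱ (C.p 0) (C.p 1))) := by
      have k1 := (pos_iff S r).1 hr
      have k2 := (e r).2.resolve_right fun k => by omega
      have k3 := C.sgc (e r).1.2
      have k4 : 0 ≤ 𝐯 r ⬝ᵥ 𝐯 (ϱ (C.p 0) (C.p 1)) := by
        rw [H.v_ρ o1, show 𝐯 r = C.wt (e r).1.1 + C.wt (e r).1.2 from rfl]
        simp only [add_dotProduct, dotProduct_add, dot, i0, i1, s0, s1, k1, mul_one]
        split_ifs <;> omega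
      have k5 : 0 < 𝐯 r ⬝ᵥ 𝐯 r := (C.rd.comap e).len_pos r
      have k6 : 𝐯 (ϱ (C.p 0) (C.p 1)) ⬝ᵥ 𝐯 (ϱ (C.p 0) (C.p 1)) = 2 := H.len_ρ o1
      rw [add_dotProduct, dotProduct_add, dotProduct_add, dotProduct_comm (𝐯 (ϱ _ _)) (𝐯 r)]
      omega
    refine RD.Sorted.cmm X (fun e => by simp [e] at k) (fun k e1 => ?_) _ _
    have := (C.rd.comap e).nrm k
    rw [e1] at this
    simp only [show (C.rd.comap e).a = 1 by simp [RD.comap, rd, he]] at this
    omega) hu) (X.n (ϱ (C.p 1) C.z) 1) (X.n (ϱ (C.p 0) (C.ν (C.p 2))) 1)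
  rw [X.n_conj _ one_ne_zero, X.n_conj _ one_ne_zero, r1, r2] at this
  have := (this (X.x_mem_U (pos_ρ S (by rw [C.ix_ν]; omega) s0) _) (X.x_mem_U (pos_ρ S (by omega) s1) _)).commutator_eq
  obtain ⟨c, h0, hc⟩ := H.sm X (C.okL_ν.2 o1) (by rwa [C.νν]) o3.1
  rw [C.νν] at hc
  rw [hc, ← X.x_zero (ϱ (C.p 0) (C.p 2))] at this
  have k : ∀ r s, (S.good.η r s : F) ≠ 0 := fun r s => by rcases S.good.η_eq r s with h | h <;> simp [h]
  simpa [h0, k] using X.x_inj this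

variable (he : C.ε = -1)
include he

theorem wc_of {Γ : Type*} [Group Γ] (X : Cover S.good F Γ) (hG : X.Gr = ⊤)
    (h : ∀ z ∈ X.U, (∀ u ∈ X.U, Commute u z) → ∃ t, z = X.x (ϱ (C.p 0) (C.p 0)) t) : WC X.U := by
  intro z hz h1
  obtain ⟨t, rfl⟩ := h z hz h1
  have hm := C.hm
  have zc : 1 + C.sg C.z = 2 := by have := C.zc; have := sgC he C.z; omega
  have vl : ∀ r, S.good.vec r C.lst = (C.sg (e r).1.1 + C.sg (e r).1.2) / 2 := fun r => by
    rw [S.vec_eq, ← zc]; exact C.vec_lst _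
  have key : ∀ g, g * X.x (ϱ (C.p 0) (C.p 0)) t * g⁻¹ ∈ X.U → g * X.x (ϱ (C.p 0) (C.p 0)) t * g⁻¹ ∈
      X.US (S.good.radJ {i | i ≠ C.lst}) := fun g hg => by
    obtain ⟨b, hb, k, -, w, hw, ⟨-, c, -, hk⟩, u, hu, rfl⟩ := X.canonical (g := g) (hG ▸ trivial)
    rw [show ∀ z, b * k * u * z * (b * k * u)⁻¹ = b * (k * (u * z * u⁻¹) * k⁻¹) * b⁻¹ by intro; group,
      (h1 u (X.invSet_le_U w hu)).eq, mul_inv_cancel_right, hk] at hg ⊢
    refine X.PJ_conj_rad (X.B_le_PJ _ hb) ?_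
    by_cases hp : S.good.Pos (w (ϱ (C.p 0) (C.p 0)))
    · refine X.x_mem (show _ ∈ S.good.radJ _ from ⟨hp, fun k => ?_⟩) _
      have k1 := k C.lst (by simp)
      have k2 := S.good.len_W hw (ϱ (C.p 0) (C.p 0))
      rcases cases_C (e := e) he (w (ϱ (C.p 0) (C.p 0))) with ⟨a, b, h, k3⟩ | ⟨a, k3⟩ <;> rw [k3] at k1 k2 hp
      · rw [S.len_eq, (C.pairsL e).len_ρ (okC he h), RD.len, RD.ip, v_lg he] at k2
        simp [C.dot_self (sgC he _)] at k2
      · rw [vl] at k1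
        rw [pos_iff] at hp
        simp only [ρ_symm (e := e) ⟨(a, a), Or.inr ⟨he, rfl⟩⟩, Equiv.apply_symm_apply] at k1 hp
        omega
    · have := X.B_conj (inv_mem hb) hg
      simp only [mul_assoc, inv_mul_cancel_left, inv_inv, inv_mul_cancel, mul_one] at this
      have : _ ∈ X.B ⊓ X.V := ⟨X.U_le_B this, X.x_mem_V hp _⟩
      rw [X.B_inf_V, Subgroup.mem_bot] at this
      exact this ▸ one_mem _
  have v1 : ∀ r ∈ S.good.radJ {i | i ≠ C.lst}, S.good.vec r C.lst = 1 := fun r hr => by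
    have k1 := hr.1 C.lst
    have k2 : S.good.vec r C.lst ≠ 0 := fun k => hr.2 fun i hi => by rwa [show i = C.lst by simpa using hi]
    have := C.sgc (e r).1.1
    have := C.sgc (e r).1.2
    rw [vl] at *
    omega
  intro g g' k k'
  refine X.commute_US' (fun r hr t => (X.commute_US' (fun s hs u => RD.Sorted.cmm X (fun e1 => ?_) (fun k e1 => ?_) _ _)
    (key g' k')).symm) (key g k)
  · have := congrFun ((C.rd.comap e).vec_of (r := (C.rd.comap e).neg s) (c := (C.rd.comap e).vec r) (by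
      rw [RD.v_neg, ← RD.v_eq, neg_eq_iff_add_eq_zero, e1])) C.lst
    rw [RD.vec_neg, ← S.vec_eq, v1 r hr, v1 s hs] at this
    omega
  · have := (RD.vec_sum _).1 e1 C.lst
    rw [← S.vec_eq, v1 r hr, v1 s hs, vl] at this
    have := C.sgc (e k).1.1
    have := C.sgc (e k).1.2
    omega

theorem Ad.cent_C {P : FP F} {f : CForm P (J → F)} (h : C.Ad f) (h2 : (2 : F) ≠ 0)
    {X : Cover S.good F f.E} (hX : ∀ r t v, (X.x r t).1 v = C.rd.xm F (e r) t *ᵥ v) {g : f.E}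
    (hg : ∀ r, S.good.Pos r → Commute (X.x r 1) g) : ∃ t, g * (X.x (ϱ (C.p 0) (C.p 0)) t)⁻¹ ∈ Subgroup.center f.E := by
  have hm := C.hm
  have i0 := C.ix_p 0 (by omega)
  have s0 := C.sg_p 0 (by omega)
  generalize C.p 0 = a at *
  have sm : ∀ (b : J) (c : F), g.1 (Pi.single b c) = c • g.1 (Pi.single b 1) := fun b c => by
    rw [← map_smul, ← Pi.single_smul, smul_eq_mul, mul_one]
  have k : ∀ {b}, (k : C.ix a < C.ix b ∨ (C.ε = -1 ∧ a = b)) → ∀ v : J → F,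
      (C.c1 a b * v (C.ν b)) • g.1 (Pi.single a 1) + (C.c2 a b * v (C.ν a)) • g.1 (Pi.single b 1) =
      Pi.single a (C.c1 a b * g.1 v (C.ν b)) + Pi.single b (C.c2 a b * g.1 v (C.ν a)) := fun {b} k v => by
    have := congrArg (fun x : f.E => x.1 v) (hg _ (pos_ρ S k s0)).eq
    simp only [Subgroup.coe_mul, LinearEquiv.mul_apply, hX, ρ_symm (e := e) ⟨(a, b), k⟩, Equiv.apply_symm_apply, xm_mulVec,
      sgC he b, if_false, Pi.single_zero, sub_zero, one_mul, map_add, add_assoc, add_right_inj] at this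
    rw [this, sm a (_ * _), sm b (_ * _)]
  have na : C.ν a ≠ a := fun e => by have := C.sg_ν a; rw [e] at this; omega
  have k0 := k (Or.inr ⟨he, rfl⟩)
  simp only [c1, c2, he, if_true, show ¬ (-1 : ℤ) = 1 by decide, if_false, Int.cast_one, one_mul, Int.cast_zero, zero_mul,
    zero_smul, add_zero, Pi.single_zero] at k0
  set w := g.1 (Pi.single (C.ν a) 1) with hw
  have k1 : g.1 (Pi.single a 1) = Pi.single a (w (C.ν a)) := by simpa using k0 (Pi.single (C.ν a) 1)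
  have l0 : w (C.ν a) ≠ 0 := fun e => by simp [e] at k1
  have k2 : ∀ b, C.ix a < C.ix b → w (C.ν b) = 0 ∧ g.1 (Pi.single b 1) = Pi.single b (w (C.ν a)) := fun b hb => by
    have ab : a ≠ b := fun e => by simp [e] at hb
    have k2 := k (Or.inl hb) (Pi.single (C.ν a) 1)
    obtain ⟨-, -, c1, c2, -⟩ := C.cc (r := ⟨(a, b), Or.inl hb⟩) ab
    have c3 : (C.c2 a b : F) * C.c2 a b = 1 := by exact_mod_cast congrArg (Int.cast : ℤ → F) c1
    have c4 : -(C.c1 a b : F) + C.γ b * C.c2 a b = 0 := by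
      simpa [γ, he, C.sg_ν, s0] using congrArg (Int.cast : ℤ → F) c2
    rw [Pi.single_eq_of_ne (C.ν_inj.not.2 ab.symm), Pi.single_eq_same, mul_zero, zero_smul, zero_add, mul_one, ← hw] at k2
    have k3 : g.1 (Pi.single b 1) = Pi.single a (C.γ b * w (C.ν b)) + Pi.single b (w (C.ν a)) := by
      have := congrArg ((C.c2 a b : F) • ·) k2
      simp only [smul_smul, c3, one_smul] at this
      rw [this, smul_add, ← Pi.single_smul, ← Pi.single_smul, smul_eq_mul, smul_eq_mul]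
      congr 2
      · linear_combination (- C.c2 a b * w (C.ν b)) * c4 + C.γ b * w (C.ν b) * c3
      · rw [← mul_assoc, c3, one_mul]
    have k4 := (E_le_Isom g.2).1 (Pi.single (C.ν a) 1) (Pi.single b 1)
    rw [← hw, k3, f.B_add_right, h.B, h.B, h.B, Pi.single_eq_of_ne (C.ν_inj.not.2 ab.symm), show C.γ a = 1 by simp [γ, he, s0]] at k4
    have k5 : w (C.ν b) = 0 := by
      have g0 : (C.γ b : F) ≠ 0 := left_ne_zero_of_mul_eq_one (b := C.γ b) (by
        exact_mod_cast congrArg (Int.cast : ℤ → F) (C.γ_sq (sgC he b)))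
      exact mul_left_cancel₀ (mul_ne_zero (mul_ne_zero h2 g0) l0) (by push_cast at k4; linear_combination k4)
    exact ⟨k5, by simpa [k5] using k3⟩
  have cs : ∀ b, b = a ∨ b = C.ν a ∨ C.ix a < C.ix b := fun b => by
    have := C.eq_of_ix (b := a) (c := b); by_cases h : C.ix a = C.ix b <;> [tauto; omega]
  have k3 : ∀ v, g.1 v = w (C.ν a) • (X.x (ϱ a a) (w a / w (C.ν a))).1 v := fun v => by
    suffices g.1.toLinearMap = w (C.ν a) • (X.x (ϱ a a) (w a / w (C.ν a))).1.toLinearMap from DFunLike.congr_fun this v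
    refine (Pi.basisFun F J).ext fun b => ?_
    simp only [Pi.basisFun_apply, LinearEquiv.coe_coe, LinearMap.smul_apply, hX, ρ_symm (e := e) ⟨(a, a), Or.inr ⟨he, rfl⟩⟩,
      Equiv.apply_symm_apply, xm_mulVec, c1, c2, he, sgC he a]
    rcases cs b with rfl | rfl | hb
    · simp [k1, Pi.single_eq_of_ne na, ← Pi.single_smul]
    · ext c
      rcases cs c with rfl | rfl | hc
      · simp [← hw, na.symm, mul_div_cancel₀ _ l0]
      · simp [← hw, na]
      · have := (k2 (C.ν c) (by rwa [C.ix_ν])).1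
        rw [C.νν] at this
        simp [← hw, this, Pi.single_eq_of_ne (show c ≠ a from fun e => by simp [e] at hc),
          Pi.single_eq_of_ne (show c ≠ C.ν a from fun e => by simp [e, C.ix_ν] at hc)]
    · simp [(k2 b hb).2, Pi.single_eq_of_ne (show C.ν a ≠ b from fun e => by simp [← e, C.ix_ν] at hb), ← Pi.single_smul]
  refine ⟨w a / w (C.ν a), Subgroup.mem_center_iff.2 fun y => Subtype.ext (LinearEquiv.ext fun v => ?_)⟩
  simp [k3]

theorem Ad.wc_C {P : FP F} {f : CForm P (J → F)} (h : C.Ad f) (h2 : (2 : F) ≠ 0) :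
    ∃ X : Cover S.good F (f.E ⧸ Subgroup.center f.E), X.Gr = ⊤ ∧ WC X.U := by
  obtain ⟨X, hG, hX⟩ := h.exists_cover S
  obtain ⟨Y, h1, -, h3⟩ := X.exists_quot hG
  refine ⟨Y, h1, wc_of S he Y h1 fun z hz k => ?_⟩
  obtain ⟨z, hz', rfl⟩ := (X.map_US Y (QuotientGroup.mk' _) (fun r t => (h3 r t).symm) _).ge hz
  obtain ⟨t, ht⟩ := h.cent_C S he h2 hX (g := z) fun r hr => by
    have k1 := (k _ (Y.x_mem_U hr 1)).commutator_eq
    rw [h3, ← QuotientGroup.mk'_apply, ← map_commutatorElement, QuotientGroup.mk'_apply, QuotientGroup.eq_one_iff] at k1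
    have : ⁅X.x r 1, z⁆ ∈ X.U ⊓ X.NN := ⟨X.U.mul_mem (X.U.mul_mem (X.U.mul_mem (X.x_mem_U hr 1) hz')
      (X.U.inv_mem (X.x_mem_U hr 1))) (X.U.inv_mem hz'), X.HH_le_NN (X.center_le hG k1)⟩
    rw [X.U_inf_NN] at this
    exact commutatorElement_eq_one_iff_commute.1 this
  exact ⟨t, by rw [h3, ← mul_inv_eq_one]; exact (QuotientGroup.eq_one_iff _).2 ht⟩

end CD

theorem isEmpty_BC {F : Type u} [Field F] [Finite F] (h2 : (2 : F) ≠ 0) {m : ℕ} (hm : 3 ≤ m) :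
    IsEmpty (Cfsg.PSp m F ≃* Cfsg.POmega F (Cfsg.quadFormOdd m F)) := ⟨fun φ => by
  have hm' : 2 ≤ m := by omega
  obtain ⟨p, hp⟩ := CharP.exists F
  haveI := Fact.mk (CharP.char_is_prime F p)
  obtain ⟨n, e, ⟨S⟩⟩ := (cdC hm').rd.exists_sorted
  obtain ⟨n', e', ⟨S'⟩⟩ := (cdB hm').rd.exists_sorted
  obtain ⟨X, h1, h3⟩ := (adaptC hm').wc_C S rfl h2
  obtain ⟨Y, h4, -⟩ := (adaptB hm' h2).exists_cover S'
  obtain ⟨Y', h5, -⟩ := Y.exists_equiv h4 (omE _ (comm_odd hm' h2)).symm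
  obtain ⟨Y'', h6, -⟩ := Y'.exists_quot h5
  haveI := X.finite (X.R3_of_finite h1) h1
  exact CD.not_wc S' rfl hm Y'' (WC.sylow (P := X.sylow (X.R3_of_finite h1) h1 p) h3
    ((quotCenterEquiv (spE' m)).symm.trans φ) (Y''.sylow (Y''.R3_of_finite h6) h6 p))⟩

end CfsgH6
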