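import Mathlib
import Cfsg.Agent.H6.DCA
import Cfsg.Agent.H6.RC2
import Cfsg.Agent.S0244

/-! Defining characteristic data for symplectic and split orthogonal groups. -/

set_option autoImplicit false

namespace CfsgH6

open Matrix Cfsg.Lie CfsgH5 CForm Cfsg

/-- `Sp₂ = SL₂` -/
noncomputable def sp1Equiv (F : Type*) [Field F] : symplecticGroup (Fin 1) F ≃* SpecialLinearGroup (Fin 2) F where
  toFun g := ⟨reindex finSumFinEquiv finSumFinEquiv g.1, by rw [det_reindex_self]; exact (Cfsg.Agent.S0244.result _).1 g.2⟩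
  invFun g := ⟨reindex finSumFinEquiv.symm finSumFinEquiv.symm g.1,
    (Cfsg.Agent.S0244.result _).2 (by rw [det_reindex_self]; exact g.2)⟩
  left_inv g := Subtype.ext (by simp)
  right_inv g := Subtype.ext (by simp)
  map_mul' g h := Subtype.ext (submatrix_mul_equiv g.1 h.1 _ (finSumFinEquiv (m := 1) (n := 1)).symm _).symm

theorem CD.card_Φ {m : ℕ} {J : Type} (C : CD m J) [DecidableEq J] [Fintype J] (h : C.ε = -1) :
    2 * Fintype.card C.Φ = Fintype.card J ^ 2 := by
  have k := (C.εc.resolve_left (by omega)).2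
  have : Fintype.card C.Φ = Fintype.card {r : J × J // ¬ (C.ix r.1 < C.ix r.2 ∨ (C.ε = -1 ∧ r.1 = r.2))} :=
    Fintype.card_congr (Equiv.subtypeEquiv ⟨fun r => (r.2, C.ν r.1), fun r => (C.ν r.2, r.1), fun r => by simp,
      fun r => by simp⟩ fun r => by
        have := k r.1
        have := k r.2
        simp only [Equiv.coe_fn_mk, C.eq_iff, C.ix_ν, C.sg_ν, h, true_and]
        omega)
  rw [two_mul, sq, ← Fintype.card_prod]
  nth_rewrite 2 [this]
  rw [Fintype.card_subtype_compl, Nat.add_sub_cancel' (Fintype.card_subtype_le _)]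

variable (F : Type*) [Field F] [Finite F] (p : ℕ) [Fact p.Prime] [CharP F p]

theorem CD.Ad.dc {m : ℕ} {J : Type} {C : CD m J} [DecidableEq J] [Fintype J] {P : FP F} {f : CForm P (J → F)}
    (h : C.Ad f) {S : Type*} [Group S] (e : S ≃* f.E) : HasSt p S ∧ Rad p S ∧ HasSt p (S ⧸ Subgroup.center S) ∧
      Rad p (S ⧸ Subgroup.center S) ∧
      Nat.card {g : S // ∃ k, orderOf g = p ^ k} = Nat.card F ^ (Fintype.card C.Φ / 2 * 2) := by
  obtain ⟨n, ε, ⟨S⟩⟩ := C.rd.exists_sorted
  obtain ⟨X, hX, -⟩ := h.exists_cover S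
  obtain ⟨X, hX, -⟩ := X.exists_equiv hX e.symm
  haveI : Finite ((J → F) ≃ₗ[F] (J → F)) := Finite.of_injective _ LinearEquiv.coe_injective
  haveI := Finite.of_equiv _ e.symm.toEquiv
  obtain ⟨X', hX', -⟩ := X.exists_quot hX
  exact ⟨X.hasSt hX p, X.rad hX p (C.conn ε), X'.hasSt hX' p, X'.rad hX' p (C.conn ε), by
    rw [X.card_pelt hX p, ← Fintype.card_congr ε, Fintype.card_fin]⟩

end CfsgH6
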