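import Cfsg.Agent.H6.Hc2
import Cfsg.Prelude.Def_GeometricClasses

set_option autoImplicit false

open Matrix CfsgH5

namespace CfsgH6.Ds

variable {F : Type*} [Field F] {n : ℕ}

/-- not a similarity of any non-degenerate alternating form -/
def Bad (x : Matrix (Fin n) (Fin n) F) : Prop :=
  ∀ B : LinearMap.BilinForm F (Fin n → F), B.IsAlt → (∀ v, (∀ u, B u v = 0) → v = 0) →
    ∀ c : F, ¬ ∀ u v, B (x *ᵥ u) (x *ᵥ v) = c * B u v

theorem rad {B : LinearMap.BilinForm F (Fin n → F)} (nd : ∀ v, (∀ u, B u v = 0) → v = 0)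
    (S T : Finset (Fin n)) (h : ∀ i ∈ S, ∀ j ∉ T, B (Pi.single j 1) (Pi.single i 1) = 0) :
    S.card ≤ T.card := by
  by_contra hc
  let L : (S → F) →ₗ[F] (T → F) := LinearMap.pi fun j => (B (Pi.single j.1 1)).comp
    (Fintype.linearCombination F fun s : S => (Pi.single s.1 1 : Fin n → F))
  obtain ⟨a, ha, a0⟩ := (Submodule.ne_bot_iff _).1 (LinearMap.ker_ne_bot_of_finrank_lt (f := L) (by
    simpa using hc))
  have := nd (∑ s : S, a s • Pi.single s.1 1) fun u => by
    rw [pi_eq_sum_univ' u, map_sum B, LinearMap.sum_apply]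
    refine Finset.sum_eq_zero fun j _ => ?_
    rw [map_smul, LinearMap.smul_apply]
    by_cases hj : j ∈ T
    · have := congrFun ha ⟨j, hj⟩
      simp only [L, LinearMap.pi_apply, LinearMap.comp_apply, Fintype.linearCombination_apply] at this
      rw [this]; simp
    · rw [map_sum, Finset.sum_eq_zero fun s _ => by rw [map_smul, h _ s.2 j hj, smul_zero], smul_zero]
  refine a0 (funext fun s => ?_)
  have := congrFun this s.1
  rw [Finset.sum_apply, Finset.sum_eq_single s (fun t _ ht => by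
    simp [Pi.single_apply, Subtype.val_injective.ne ht.symm]) (by simp)] at this
  simpa using this

theorem bad_unip {m : ℕ} : Bad (1 + (single 0 1 1 + single 1 2 1) : Matrix (Fin (m + 3)) (Fin (m + 3)) F) := by
  intro B hB nd c h
  have e : ∀ j : Fin (m + 3), (1 + (single 0 1 1 + single 1 2 1) : Matrix (Fin (m + 3)) (Fin (m + 3)) F) *ᵥ
      Pi.single j 1 = Pi.single j 1 + (if j = 1 then Pi.single 0 1 else 0) +
        (if j = 2 then Pi.single 1 1 else 0) := fun j => by
    ext i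
    simp only [mulVec_single_one, Pi.add_apply, col_apply, Matrix.add_apply, one_apply, single_apply,
      Pi.single_apply, ite_apply, Pi.zero_apply]
    grind
  have n1 : (0 : Fin (m + 3)) ≠ 1 := by simp
  have n2 : (0 : Fin (m + 3)) ≠ 2 := fun e => by have := congrArg Fin.val e; change 0 = 2 at this; omega
  have n3 : (1 : Fin (m + 3)) ≠ 2 := fun e => by have := congrArg Fin.val e; change 1 = 2 at this; omega
  have := rad nd {0} ∅ fun i hi j _ => by
    rw [Finset.mem_singleton.1 hi]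
    have a1 := h (Pi.single j 1) (Pi.single 0 1)
    have a2 := h (Pi.single j 1) (Pi.single 1 1)
    have a3 := h (Pi.single 1 1) (Pi.single 0 1)
    have a4 := h (Pi.single 2 1) (Pi.single 0 1)
    have a5 := hB.neg_eq (Pi.single 1 1) (Pi.single 0 1)
    have a6 := hB.self_eq_zero (Pi.single 0 1)
    have a7 := hB.self_eq_zero (Pi.single 1 1)
    simp only [e, n1, n2, n3, n1.symm, n2.symm, n3.symm, if_true, if_false, add_zero, map_add,
      LinearMap.add_apply] at a1 a2 a3 a4
    by_cases j1 : j = 1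
    · subst j1; grind
    by_cases j2 : j = 2
    · subst j2
      simp only [n3.symm, if_true, if_false, map_zero, LinearMap.zero_apply] at a1 a2
      grind
    · simp only [j1, j2, if_false, map_zero, LinearMap.zero_apply] at a1 a2
      grind
  simp at this

theorem bad_diag {m : ℕ} {r : ℕ} (hr : r.Prime) (hr2 : r ≠ 2) (he : Even (m + 4))
    (hgap : ¬ (m + 4 = 6 ∧ r = 3)) {ζ : F} (hζ : orderOf ζ = r) :
    Bad (diagonal fun i : Fin (m + 4) => if (i : ℕ) < 2 then ζ else if (i : ℕ) = 2 then ζ⁻¹ ^ 2 else 1) := by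
  intro B hB nd c h
  set δ := fun i : Fin (m + 4) => if (i : ℕ) < 2 then ζ else if (i : ℕ) = 2 then ζ⁻¹ ^ 2 else 1 with hδ
  have key : ∀ S T : Finset (Fin (m + 4)), (∀ i ∈ S, ∀ j ∉ T, j = i ∨ δ j * δ i ≠ c) → S.card ≤ T.card :=
    fun S T k => rad nd S T fun i hi j hj => by
      rcases k i hi j hj with rfl | k
      · exact hB.self_eq_zero _
      have := h (Pi.single j 1) (Pi.single i 1)
      rw [diagonal_mulVec_single, diagonal_mulVec_single, mul_one, mul_one, ← mul_one (δ j),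
        ← mul_one (δ i), ← smul_eq_mul (δ j), ← smul_eq_mul (δ i), Pi.single_smul, Pi.single_smul,
        map_smul, map_smul, LinearMap.smul_apply, smul_smul, smul_eq_mul, mul_comm (δ i)] at this
      by_contra hh
      exact k (mul_right_cancel₀ hh this)
  have par : ∀ i, ∃ j, j ≠ i ∧ δ j * δ i = c := fun i => by
    by_contra! hc
    simpa using key {i} ∅ fun a ha j _ => by
      rw [Finset.mem_singleton.1 ha]; exact (eq_or_ne j i).imp_right (hc j)
  have z0 : ζ ≠ 0 := fun e => by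
    have := pow_orderOf_eq_one ζ
    rw [hζ, e, zero_pow hr.ne_zero] at this
    exact zero_ne_one this
  have zi : ζ * ζ⁻¹ = 1 := mul_inv_cancel₀ z0
  have nz : ∀ k : ℕ, ¬ r ∣ k → ζ ^ k ≠ 1 := fun k a b => a (hζ ▸ orderOf_dvd_of_pow_eq_one b)
  have z1 := nz 1 hr.not_dvd_one
  have z2 := nz 2 fun e => hr2 ((Nat.prime_dvd_prime_iff_eq hr Nat.prime_two).1 e)
  have z4 := nz (2 ^ 2) fun e => hr2 ((Nat.prime_dvd_prime_iff_eq hr Nat.prime_two).1 (hr.dvd_of_dvd_pow e))
  obtain ⟨j0, -, k0⟩ := par ⟨0, by omega⟩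
  obtain ⟨j2, l2, k2⟩ := par ⟨2, by omega⟩
  obtain ⟨j3, -, k3⟩ := par ⟨3, by omega⟩
  have l2' : (j2 : ℕ) ≠ 2 := fun e => l2 (Fin.ext e)
  simp only [hδ, l2', if_false] at k0 k2 k3
  norm_num at k0 k2 k3 z4
  by_cases h3 : r = 3
  swap
  · have z3 := nz 3 fun e => h3 ((Nat.prime_dvd_prime_iff_eq hr Nat.prime_three).1 e)
    generalize ζ⁻¹ = y at *
    split_ifs at k0 k2 k3 <;> grind
  have z3 : ζ ^ 3 = 1 := by rw [← h3, ← hζ, pow_orderOf_eq_one]
  have hy : ζ⁻¹ ^ 2 = ζ := by generalize ζ⁻¹ = y at *; grind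
  have hc : c = ζ := by
    rw [← inv_pow, hy] at k0 k3
    split_ifs at k0 k3 <;> grind
  rcases m with _ | m
  · have := key {0, 1} {3} fun i hi j hj => Or.inr (by
      rw [hc]
      fin_cases i <;> fin_cases j <;> simp [hδ, hy] at hi hj ⊢ <;> grind)
    simp at this
  · have hm : 3 ≤ m := by obtain ⟨k, hk⟩ := he; omega
    have := key (Finset.univ.filter fun i => 3 ≤ (i : ℕ)) (Finset.univ.filter fun i => ¬ 3 ≤ (i : ℕ))
      fun i hi j hj => Or.inr (by
        simp only [Finset.mem_filter, Finset.mem_univ, true_and, not_not] at hi hj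
        simp only [hδ, hc]
        rw [if_neg (by omega), if_neg (by omega), if_neg (by omega), if_neg (by omega), one_mul]
        simpa [eq_comm] using z1)
    have h1 := Finset.card_filter_add_card_filter_not (s := (Finset.univ : Finset (Fin (m + 1 + 4))))
      (fun i => 3 ≤ (i : ℕ))
    have h2 : (Finset.univ.filter fun i : Fin (m + 1 + 4) => ¬ 3 ≤ (i : ℕ)).card ≤ (Finset.range 3).card :=
      Finset.card_le_card_of_injOn (fun i => (i : ℕ)) (fun i hi => by simpa using hi)
        fun a _ b _ e => Fin.ext e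
    simp only [Finset.card_univ, Fintype.card_fin, Finset.card_range] at h1 h2
    omega

theorem ex_field [Fintype F] {r d : ℕ} [hr : Fact r.Prime] (hd : Odd d) (hn : d ≤ n)
    (h1 : r ∣ Fintype.card F ^ d - 1) (h2 : ¬ r ∣ Fintype.card F - 1) :
    ∃ x : Matrix (Fin n) (Fin n) F, x ^ r = 1 ∧ x ≠ 1 ∧ Bad x := by
  classical
  obtain ⟨p, hp⟩ := CharP.exists F
  have : Fact p.Prime := ⟨CharP.char_is_prime F p⟩
  have : NeZero d := ⟨hd.pos.ne'⟩
  let K := FiniteField.Extension F p d
  have := Fintype.ofFinite K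
  obtain ⟨ζ, hζ⟩ := exists_prime_orderOf_dvd_card (G := Kˣ) r (by
    rwa [Fintype.card_units, ← Nat.card_eq_fintype_card, FiniteField.natCard_extension,
      Nat.card_eq_fintype_card])
  let R := K × (Fin (n - d) → F)
  have hR : Module.finrank F R = n := by
    rw [Module.finrank_prod, Module.finrank_fin_fun, FiniteField.finrank_extension]; omega
  let b := Module.finBasisOfFinrankEq F R hR
  have z1 : (ζ : K) ≠ 1 := fun e => hr.out.one_lt.ne' (by rw [← hζ, show ζ = 1 from Units.ext e, orderOf_one])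
  have xr : Algebra.leftMulMatrix b ((ζ, 1) : R) ^ r = 1 := by
    rw [← map_pow, ← map_one (Algebra.leftMulMatrix b)]
    congr 1
    refine Prod.ext ?_ (one_pow r)
    change (ζ : K) ^ r = 1
    rw [← Units.val_pow_eq_pow_val, ← hζ, pow_orderOf_eq_one, Units.val_one]
  refine ⟨_, xr, fun e => z1 (congrArg Prod.fst (Algebra.leftMulMatrix_injective b
    (e.trans (map_one _).symm))), fun B hB nd c h => ?_⟩
  have hk : ∀ (k : ℕ) u v, B (Algebra.leftMulMatrix b ((ζ, 1) : R) ^ k *ᵥ u)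
      (Algebra.leftMulMatrix b ((ζ, 1) : R) ^ k *ᵥ v) = c ^ k * B u v := fun k => by
    induction k with
    | zero => simp
    | succ k ih => intro u v; rw [pow_succ', ← mulVec_mulVec, ← mulVec_mulVec, h, ih]; ring
  have cr : c ^ r = 1 := by
    by_contra hc
    have i : Fin n := ⟨0, by have := hd.pos; omega⟩
    have := nd (Pi.single i 1) fun u => by
      have := hk r u (Pi.single i 1)
      rw [xr, one_mulVec, one_mulVec] at this
      by_contra hh
      exact hc (mul_right_cancel₀ hh (this.symm.trans (one_mul _).symm))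
    simp at this
  have c1 : c = 1 := orderOf_eq_one_iff.1 (Nat.eq_one_of_dvd_coprimes
    ((Nat.Prime.coprime_iff_not_dvd hr.out).2 h2) (orderOf_dvd_of_pow_eq_one cr)
    (orderOf_dvd_of_pow_eq_one (FiniteField.pow_card_sub_one_eq_one c (by
      rintro rfl; rw [zero_pow hr.out.ne_zero] at cr; exact zero_ne_one cr))))
  let φ : K →ₗ[F] Fin n → F := b.equivFun.toLinearMap.comp (LinearMap.inl _ _ _)
  have h' : ∀ u v : R, B (b.equivFun (((ζ, 1) : R) * u)) (b.equivFun (((ζ, 1) : R) * v)) =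
      B (b.equivFun u) (b.equivFun v) := fun u v => by
    have := h (b.repr u) (b.repr v)
    rwa [Algebra.leftMulMatrix_mulVec_repr, Algebra.leftMulMatrix_mulVec_repr, c1, one_mul] at this
  have ev := CForm.symp_even d (f := CForm.ofAlt (B.comp φ φ) fun a => hB _) (fun a ha => by
    have := nd (φ a) fun u => by
      obtain ⟨⟨u, w⟩, rfl⟩ := b.equivFun.surjective u
      rw [show ((u, w) : R) = (u, 0) + (0, w) by simp [R], map_add, map_add, LinearMap.add_apply,
        show B (b.equivFun (u, 0)) (φ a) = 0 from ha u, zero_add]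
      have := h' (0, w) ((ζ - 1 : K)⁻¹ * a, 0)
      rw [← sub_eq_zero, show ((ζ, 1) : R) * (0, w) = (0, w) by simp [R], ← map_sub, ← map_sub,
        show ((ζ, 1) : R) * ((ζ - 1 : K)⁻¹ * a, 0) - ((ζ - 1 : K)⁻¹ * a, 0) = (a, 0) from
          Prod.ext (by
            have := sub_ne_zero.2 z1
            change (ζ : K) * ((ζ - 1 : K)⁻¹ * a) - (ζ - 1 : K)⁻¹ * a = a
            rw [← sub_one_mul, mul_inv_cancel_left₀ this]) (by simp [R])] at this
      exact this
    exact congrArg Prod.fst (b.equivFun.injective (this.trans (map_zero _).symm)))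
    (FiniteField.finrank_extension F p d)
  exact Nat.not_even_iff_odd.2 hd ev

theorem sp_dvd [Fintype F] {m : ℕ} (B : LinearMap.BilinForm F (Fin (2 * m) → F)) (hB : B.IsAlt)
    (nd : ∀ v, (∀ u, B u v = 0) → v = 0) (H : Subgroup (SpecialLinearGroup (Fin (2 * m)) F))
    (hH : ∀ g : SpecialLinearGroup (Fin (2 * m)) F, (∀ u v, B (g.1 *ᵥ u) (g.1 *ᵥ v) = B u v) → g ∈ H) :
    Nat.card (symplecticGroup (Fin m) F) ∣ Nat.card H := by
  obtain ⟨e, he, -⟩ := CForm.symp_exists_isIso (2 * m) (f := CForm.ofAlt B hB) (f' := spForm F m) nd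
    (spForm_nondeg m) (by simp) (finrank_sum_fun m)
  let ψ : Matrix (Fin m ⊕ Fin m) (Fin m ⊕ Fin m) F ≃ₐ[F] Matrix (Fin (2 * m)) (Fin (2 * m)) F :=
    (toLinAlgEquiv'.trans (e.symm.conjAlgEquiv F)).trans LinearMap.toMatrixAlgEquiv'
  have hψ : ∀ A u, ψ A *ᵥ u = e.symm (A *ᵥ e u) := fun A u => by
    simp [ψ, LinearMap.toMatrixAlgEquiv', LinearMap.toMatrix'_mulVec]
  have hd : ∀ A, (ψ A).det = A.det := fun A => by
    rw [← LinearMap.det_toLin' A, ← LinearMap.det_conj _ e.symm, ← LinearMap.det_toLin']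
    congr 1
    exact LinearMap.ext fun u => hψ A u
  refine Subgroup.card_dvd_of_injective (MonoidHom.mk' (fun g => (⟨⟨ψ g.1, by
    rw [hd, SymplecticGroup.det_eq_one g.2]⟩, hH _ fun u v => ?_⟩ : H))
      fun a b => Subtype.ext (Subtype.ext (map_mul ψ _ _)))
    fun a b h => Subtype.ext (ψ.injective (congrArg (fun x : H => x.1.1) h))
  change (CForm.ofAlt B hB).B (ψ g.1 *ᵥ u) (ψ g.1 *ᵥ v) = (CForm.ofAlt B hB).B u v
  rw [← he, ← he, hψ, hψ, e.apply_symm_apply, e.apply_symm_apply]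
  exact mem_symplectic_iff.1 g.2 _ _

theorem prod_split (g : ℕ → ℕ) (m : ℕ) : ∏ j ∈ Finset.range (2 * m), g j =
    (∏ i ∈ Finset.range m, g (2 * i)) * ∏ i ∈ Finset.range m, g (2 * i + 1) := by
  induction m with
  | zero => simp
  | succ m ih => rw [Nat.mul_succ, Finset.prod_range_succ, Finset.prod_range_succ, ih,
      Finset.prod_range_succ, Finset.prod_range_succ]; ring

theorem idx [Fintype F] {m r : ℕ} (hm : 0 < m) (hr : r.Prime) (H : Subgroup (SpecialLinearGroup (Fin (2 * m)) F))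
    (h1 : Nat.card (symplecticGroup (Fin m) F) ∣ Nat.card H) (h2 : r ∣ H.index) :
    r ∣ Fintype.card F ∨ ∃ i < m, r ∣ Fintype.card F ^ (2 * i + 1) - 1 := by
  have h3 := (mul_dvd_mul h1 h2).mul_left (Fintype.card F - 1)
  have q2 : 2 ≤ Fintype.card F := Fintype.one_lt_card
  rw [H.card_mul_index, card_SL _ (by omega), card_symplecticGroup, Nat.card_eq_fintype_card] at h3
  generalize Fintype.card F = q at *
  rw [Fin.prod_univ_eq_prod_range (fun i => q ^ (2 * m) - q ^ i), ← Finset.prod_range_reflect (fun i => q ^ (2 * m) - q ^ i),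
    Finset.prod_congr (s₁ := Finset.range (2 * m)) rfl (g := fun j => q ^ (2 * m - 1 - j) * (q ^ (j + 1) - 1)) (fun j hj => by
      have := Finset.mem_range.1 hj
      rw [Nat.mul_sub, mul_one, ← pow_add, show 2 * m - 1 - j + (j + 1) = 2 * m by omega]),
    Finset.prod_mul_distrib, prod_split (fun j => q ^ (j + 1) - 1), ← mul_assoc] at h3
  have h4 : r * ∏ i ∈ Finset.range m, (q ^ (2 * (i + 1)) - 1) ∣ _ :=
    Dvd.dvd.trans ⟨q ^ m ^ 2, by ring⟩ h3
  have h5 := Nat.dvd_of_mul_dvd_mul_right (Finset.prod_pos fun i _ => by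
    have := Nat.one_lt_pow (show 2 * (i + 1) ≠ 0 by omega) q2; omega) h4
  rcases (Nat.Prime.dvd_mul hr).1 h5 with h | h
  · obtain ⟨i, -, h⟩ := (hr.prime.dvd_finsetProd_iff _).1 h
    exact Or.inl (hr.dvd_of_dvd_pow h)
  · obtain ⟨i, hi, h⟩ := (hr.prime.dvd_finsetProd_iff _).1 h
    exact Or.inr ⟨i, Finset.mem_range.1 hi, h⟩

end CfsgH6.Ds
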