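import Cfsg.Agent.H6.Ds1

set_option autoImplicit false

open Module CfsgH5

namespace CfsgH6.Ds

universe u

variable {F : Type u} [Field F]

/-- a similarity of some non-degenerate alternating form -/
def Good {V : Type u} [AddCommGroup V] [Module F V] (x : V →ₗ[F] V) (c : F) : Prop :=
  ∃ B : LinearMap.BilinForm F V, B.IsAlt ∧ (∀ v, (∀ u, B u v = 0) → v = 0) ∧
    ∀ u v, B (x u) (x v) = c * B u v

variable {V W : Type u} [AddCommGroup V] [Module F V] [AddCommGroup W] [Module F W]

theorem Good.equiv {x : V →ₗ[F] V} {y : W →ₗ[F] W} {c : F} (e : V ≃ₗ[F] W) (h : ∀ u, e (x u) = y (e u))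
    (hy : Good y c) : Good x c := by
  obtain ⟨B, a, b, d⟩ := hy
  refine ⟨B.comp e e, fun v => a _, fun v k => e.map_eq_zero_iff.1 (b _ fun u => ?_), fun u v => ?_⟩
  · simpa using k (e.symm u)
  · simp [h, d]

theorem Good.prod {x : V →ₗ[F] V} {y : W →ₗ[F] W} {c : F} (hx : Good x c) (hy : Good y c) :
    Good (x.prodMap y) c := by
  obtain ⟨B, a, b, d⟩ := hx
  obtain ⟨B', a', b', d'⟩ := hy
  refine ⟨B.comp (LinearMap.fst _ _ _) (LinearMap.fst _ _ _) + B'.comp (LinearMap.snd _ _ _) (LinearMap.snd _ _ _),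
    fun v => by simp [a.self_eq_zero, a'.self_eq_zero], fun v k => Prod.ext (b _ fun u => ?_) (b' _ fun u => ?_),
    fun u v => by simp [d, d', mul_add]⟩
  · simpa using k (u, 0)
  · simpa using k (0, u)

/-- the plane map -/
def CC (a b z : F) : F × F →ₗ[F] F × F where
  toFun p := (a * p.1 + b * z * p.2, b * p.1 + a * p.2)
  map_add' p q := by ext <;> simp <;> ring
  map_smul' c p := by ext <;> simp <;> ring

theorem det_CC (a b z : F) : LinearMap.det (CC a b z) = a ^ 2 - z * b ^ 2 := by
  rw [← LinearMap.det_toMatrix (Basis.finTwoProd F), Matrix.det_fin_two]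
  simp [LinearMap.toMatrix_apply, CC]; ring

theorem good_plane (z : F) : Good (CC 0 1 z) (-z) := by
  refine ⟨LinearMap.mk₂ F (fun p q => p.1 * q.2 - p.2 * q.1) (by intros; simp; ring) (by intros; simp; ring)
    (by intros; simp; ring) (by intros; simp; ring), fun v => by simp [mul_comm], fun v k => ?_,
    fun u v => by simp [CC]; ring⟩
  exact Prod.ext (by simpa using k (0, 1)) (by simpa using k (1, 0))

theorem good_two {z : F} (hz : z ≠ 0) : Good ((CC 0 1 z).prodMap (CC 0 1 z)) z := by
  refine ⟨LinearMap.mk₂ F (fun p q => p.1.1 * q.2.1 + z * p.1.2 * q.2.2 - q.1.1 * p.2.1 - z * q.1.2 * p.2.2)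
    (by intros; simp; ring) (by intros; simp; ring) (by intros; simp; ring) (by intros; simp; ring),
    fun v => by simp, fun v k => ?_, fun u v => by simp [CC]; ring⟩
  exact Prod.ext (Prod.ext (by simpa using k (0, 1, 0)) (by simpa [hz] using k (0, 0, 1)))
    (Prod.ext (by simpa using k ((1, 0), 0)) (by simpa [hz] using k ((0, 1), 0)))

theorem good_scalar [FiniteDimensional F V] {m : ℕ} (h : finrank F V = 2 * m) {x : V →ₗ[F] V} {w c : F}
    (hx : ∀ v, x v = w • v) (hc : m = 0 ∨ c = w * w) : Good x c := by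
  rcases hc with rfl | rfl
  · have : Subsingleton V := finrank_zero_iff.1 h
    exact ⟨0, fun _ => rfl, fun _ _ => Subsingleton.elim _ _, by simp⟩
  refine Good.equiv (y := w • LinearMap.id) (LinearEquiv.ofFinrankEq V (Fin m ⊕ Fin m → F)
    (h.trans (finrank_sum_fun m).symm)) (fun u => by simp [hx]) ⟨Matrix.toBilin' (Matrix.J (Fin m) F),
      fun v => ?_, fun v k => spForm_nondeg m v fun u => ?_, fun u v => by simp [mul_assoc]⟩
  · rw [Matrix.toBilin'_apply']
    change Cfsg.sympForm m F v v = 0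
    simp [sympForm_apply, mul_comm]
  · have := k u
    rwa [Matrix.toBilin'_apply'] at this

theorem split [FiniteDimensional F V] {x : V →ₗ[F] V} {z : F} (hx : ∀ v, x (x v) = z • v)
    (hs : ∀ w : F, ¬ ∀ v, x v = w • v) : ∃ (U : Submodule F V) (y : U →ₗ[F] U) (e : V ≃ₗ[F] (F × F) × U),
      (∀ v, y (y v) = z • v) ∧ ∀ u, e (x u) = (CC 0 1 z).prodMap y (e u) := by
  obtain ⟨v, hv⟩ : ∃ v, x v ∉ F ∙ v := by
    by_contra! hc
    obtain ⟨a, ha⟩ := x.exists_eq_smul_id_of_forall_notLinearIndependent fun v h => by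
      obtain ⟨c, e⟩ := Submodule.mem_span_singleton.1 (hc v)
      simpa using (LinearIndependent.pair_iff.1 h c (-1) (by simp [e])).2
    exact hs a fun v => by simp [ha]
  obtain ⟨g, h1, h2⟩ := Submodule.exists_dual_map_eq_bot_of_notMem hv inferInstance
  have h3 : g v = 0 := by
    have := Submodule.mem_map_of_mem (f := g) (Submodule.mem_span_singleton_self v)
    rwa [h2] at this
  obtain ⟨φ, p0, p1⟩ : ∃ φ : V →ₗ[F] F, φ v = 0 ∧ φ (x v) = 1 :=
    ⟨(g (x v))⁻¹ • g, by simp [h3], by simp [h1]⟩
  let U : Submodule F V := LinearMap.ker φ ⊓ LinearMap.ker (φ.comp x)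
  have hU : ∀ u, u ∈ U ↔ φ u = 0 ∧ φ (x u) = 0 := fun u => Iff.rfl
  refine ⟨U, x.restrict fun u hu => (hU _).2 ⟨hu.2, by rw [hx, map_smul, ((hU _).1 hu).1, smul_zero]⟩,
    { toFun := fun u => ((φ (x u), φ u), ⟨u - φ (x u) • v - φ u • x v, (hU _).2 ⟨by simp [p0, p1], by
        simp [p0, p1, hx]⟩⟩)
      invFun := fun p => p.1.1 • v + p.1.2 • x v + p.2.1
      map_add' := fun a b => by ext <;> simp; module
      map_smul' := fun a b => by ext <;> simp; module
      left_inv := fun u => by simp
      right_inv := fun p => by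
        have := (hU _).1 p.2.2
        ext <;> simp [p0, p1, hx, this.1, this.2]; module }, fun u => Subtype.ext (hx _), fun u => ?_⟩
  ext <;> simp [CC, hx, smul_smul, mul_comm]
  module

theorem det_equiv [FiniteDimensional F V] {x : V →ₗ[F] V} {y : W →ₗ[F] W} (e : V ≃ₗ[F] W)
    (h : ∀ u, e (x u) = y (e u)) : LinearMap.det y = LinearMap.det x := by
  rw [← LinearMap.det_conj x e]
  congr 1
  exact LinearMap.ext fun u => by simp [h]

theorem good1 {z : F} (hz : (2 : F) = 0 ∨ ¬ IsSquare z) (m : ℕ) : ∀ (V : Type u) [AddCommGroup V]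
    [Module F V] [FiniteDimensional F V] (x : V →ₗ[F] V), finrank F V = 2 * m → (∀ v, x (x v) = z • v) →
    Good x (-z) := by
  induction m with
  | zero => exact fun V _ _ _ x h _ => good_scalar h (w := 0) (fun v =>
      have : Subsingleton V := finrank_zero_iff.1 h; Subsingleton.elim _ _) (Or.inl rfl)
  | succ m ih =>
    intro V _ _ _ x h hx
    by_cases hs : ∃ w : F, ∀ v, x v = w • v
    · obtain ⟨w, hw⟩ := hs
      obtain ⟨v, hv⟩ := finrank_pos_iff_exists_ne_zero.1 (show 0 < finrank F V by omega)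
      have e : w * w = z := smul_left_injective F hv (by simpa [hw, smul_smul] using hx v)
      exact good_scalar h hw (Or.inr (hz.elim (fun k => by rw [e]; linear_combination -z * k)
        fun k => absurd ⟨w, e.symm⟩ k))
    · obtain ⟨U, y, e, h1, h2⟩ := split hx (not_exists.1 hs)
      have := e.finrank_eq
      simp only [finrank_prod, finrank_self] at this
      exact Good.equiv e h2 ((good_plane z).prod (ih U y (by omega) h1))

theorem good2 {z : F} (hz : z ≠ 0) (h2 : (2 : F) ≠ 0) (m : ℕ) : ∀ (V : Type u) [AddCommGroup V]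
    [Module F V] [FiniteDimensional F V] (x : V →ₗ[F] V), finrank F V = 2 * m → (∀ v, x (x v) = z • v) →
    LinearMap.det x = z ^ m → Good x z := by
  induction m using Nat.strong_induction_on with
  | _ m ih =>
    have sc : ∀ (V : Type u) [AddCommGroup V] [Module F V] [FiniteDimensional F V] (x : V →ₗ[F] V) (k : ℕ) (w : F),
        finrank F V = 2 * k → (∀ v, x (x v) = z • v) → (∀ v, x v = w • v) → k = 0 ∨ z = w * w := by
      intro V _ _ _ x k w h hx hw
      refine (Nat.eq_zero_or_pos k).imp_right fun k0 => ?_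
      obtain ⟨v, hv⟩ := finrank_pos_iff_exists_ne_zero.1 (show 0 < finrank F V by omega)
      exact smul_left_injective F hv (by simpa [hw, smul_smul] using (hx v).symm)
    intro V _ _ _ x h hx hd
    by_cases hs : ∃ w : F, ∀ v, x v = w • v
    · obtain ⟨w, hw⟩ := hs
      exact good_scalar h hw (sc V x m w h hx hw)
    obtain ⟨U, y, e, h1, h3⟩ := split hx (not_exists.1 hs)
    have f1 := e.finrank_eq
    simp only [finrank_prod, finrank_self] at f1
    obtain ⟨m, rfl⟩ : ∃ k, m = k + 1 := ⟨m - 1, by omega⟩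
    have d1 := det_equiv e h3
    rw [LinearMap.det_prodMap, det_CC, hd] at d1
    have d2 : LinearMap.det y = -z ^ m := mul_left_cancel₀ hz (by linear_combination -d1)
    obtain ⟨U', y', e', h4, h5⟩ := split h1 fun w hw => by
      rw [show y = w • LinearMap.id from LinearMap.ext hw, LinearMap.det_smul, LinearMap.det_id, mul_one,
        show finrank F U = 2 * m by omega, pow_mul] at d2
      refine mul_ne_zero h2 (pow_ne_zero m hz) ?_
      rcases sc U y m w (by omega) h1 hw with k | k
      · subst k; linear_combination d2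
      · rw [pow_two, ← k] at d2; linear_combination d2
    have f2 := e'.finrank_eq
    simp only [finrank_prod, finrank_self] at f2
    obtain ⟨m, rfl⟩ : ∃ k, m = k + 1 := ⟨m - 1, by omega⟩
    have d3 := det_equiv e' h5
    rw [LinearMap.det_prodMap, det_CC, d2] at d3
    refine Good.equiv (e.trans (((LinearEquiv.refl F _).prodCongr e').trans (LinearEquiv.prodAssoc F _ _ _).symm))
      (fun u => ?_) ((good_two hz).prod (ih m (by omega) U' y' (by omega) h4
        (mul_left_cancel₀ hz (by linear_combination -d3))))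
    simp [h3, h5, LinearEquiv.prodAssoc]

theorem cent [Fintype F] [FiniteDimensional F V] {x : V →ₗ[F] V} {z : F} (hz : z ≠ 0)
    (hx : ∀ v, x (x v) = z • v) (hs : ∀ w : F, ¬ ∀ v, x v = w • v) (l : F) :
    ∃ y : V →ₗ[F] V, LinearMap.det y = l ∧ ∀ u, y (x u) = x (y u) := by
  obtain ⟨U, y, e, -, h⟩ := split hx hs
  obtain ⟨a, b, hab⟩ : ∃ a b : F, a ^ 2 - z * b ^ 2 = l := by
    by_cases h2 : ringChar F = 2
    · obtain ⟨a, ha⟩ := FiniteField.isSquare_of_char_two h2 l
      exact ⟨a, 0, by rw [ha]; ring⟩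
    · obtain ⟨a, b, k⟩ := FiniteField.exists_root_sum_quadratic (f := Polynomial.X ^ 2 - Polynomial.C l)
        (g := Polynomial.C (-z) * Polynomial.X ^ 2) (Polynomial.degree_X_pow_sub_C two_pos l)
        (Polynomial.degree_C_mul_X_pow 2 (neg_ne_zero.2 hz)) (FiniteField.odd_card_of_char_ne_two h2)
      exact ⟨a, b, by simp at k; linear_combination k⟩
  refine ⟨e.symm.toLinearMap ∘ₗ ((CC a b z).prodMap (LinearMap.id : U →ₗ[F] U)) ∘ₗ e.toLinearMap, ?_,
    fun u => e.injective ?_⟩
  · rw [← det_equiv e (y := (CC a b z).prodMap (LinearMap.id : U →ₗ[F] U)) fun u => by simp,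
      LinearMap.det_prodMap, det_CC, LinearMap.det_id, mul_one, hab]
  · simp only [LinearMap.comp_apply, LinearEquiv.coe_coe, h, e.apply_symm_apply]
    ext <;> simp [CC] <;> ring

theorem bad_refl {m : ℕ} (h2 : (2 : F) ≠ 0) {ζ : F} (hζ : ζ ≠ 0) :
    Bad (Matrix.diagonal fun i : Fin (m + 4) => if i = 0 then -ζ else ζ) := by
  intro B hB nd c h
  set δ := fun i : Fin (m + 4) => if i = 0 then -ζ else ζ with hδ
  have key : ∀ S T : Finset (Fin (m + 4)), (∀ i ∈ S, ∀ j ∉ T, j = i ∨ δ j * δ i ≠ c) → S.card ≤ T.card :=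
    fun S T k => rad nd S T fun i hi j hj => by
      rcases k i hi j hj with rfl | k
      · exact hB.self_eq_zero _
      have := h (Pi.single j 1) (Pi.single i 1)
      rw [Matrix.diagonal_mulVec_single, Matrix.diagonal_mulVec_single, mul_one, mul_one, ← mul_one (δ j),
        ← mul_one (δ i), ← smul_eq_mul (δ j), ← smul_eq_mul (δ i), Pi.single_smul, Pi.single_smul,
        map_smul, map_smul, LinearMap.smul_apply, smul_smul, smul_eq_mul, mul_comm (δ i)] at this
      by_contra hh
      exact k (mul_right_cancel₀ hh this)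
  by_cases hc : c = -(ζ * ζ)
  · have := key (Finset.univ.erase 0) {0} fun i hi j hj => Or.inr (by
      rw [Finset.mem_singleton] at hj
      simp only [hδ, hj, (Finset.mem_erase.1 hi).1, if_false, hc]
      exact fun e => mul_ne_zero h2 (mul_ne_zero hζ hζ) (by linear_combination e))
    simp at this
  · simpa using key {0} ∅ fun i hi j _ => (eq_or_ne j i).imp_right fun k => by
      rw [Finset.mem_singleton.1 hi] at k ⊢
      simp only [hδ, k, if_false, if_true]
      exact fun e => hc (by linear_combination -e)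

end CfsgH6.Ds
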