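import Cfsg.Agent.H6.Ds2

set_option autoImplicit false

open Module CfsgH5

namespace CfsgH6.Ds

universe u

variable {F : Type u} [Field F]

/-- compatible with a quadratic structure -/
def Nc (a b s t : F) {V : Type u} [AddCommGroup V] [Module F V] (x : V →ₗ[F] V) : Prop :=
  ∃ j : V →ₗ[F] V, (∀ v, j (j v) = a • j v + b • v) ∧ ∀ v, x (j v) = s • x v + t • j (x v)

variable {V W : Type u} [AddCommGroup V] [Module F V] [AddCommGroup W] [Module F W] {a b s t : F}

theorem Nc.equiv {x : V →ₗ[F] V} {y : W →ₗ[F] W} (e : V ≃ₗ[F] W) (h : ∀ u, e (x u) = y (e u))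
    (hy : Nc a b s t y) : Nc a b s t x := by
  obtain ⟨j, h1, h2⟩ := hy
  exact ⟨e.symm.toLinearMap ∘ₗ j ∘ₗ e.toLinearMap, fun v => by simp [h1],
    fun v => e.injective (by simp [h, h2])⟩

theorem Nc.prod {x : V →ₗ[F] V} {y : W →ₗ[F] W} (hx : Nc a b s t x) (hy : Nc a b s t y) :
    Nc a b s t (x.prodMap y) := by
  obtain ⟨j, h1, h2⟩ := hx
  obtain ⟨j', h3, h4⟩ := hy
  exact ⟨j.prodMap j', fun v => by ext <;> simp [h1, h3], fun v => by ext <;> simp [h2, h4]⟩

theorem nc_dbl (x : V →ₗ[F] V) : Nc a b 0 1 (x.prodMap x) :=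
  ⟨(b • LinearMap.snd F V V).prod (LinearMap.fst F V V + a • LinearMap.snd F V V),
    fun v => by ext <;> simp <;> module, fun v => by ext <;> simp⟩

theorem nc_zero [FiniteDimensional F V] (h : finrank F V = 0) (x : V →ₗ[F] V) : Nc a b s t x :=
  have : Subsingleton V := finrank_zero_iff.1 h
  ⟨0, fun _ => Subsingleton.elim _ _, fun _ => Subsingleton.elim _ _⟩

theorem nc_plane [Fintype F] {z : F} (hz : z ≠ 0) : Nc a b a (-1) (CC 0 1 z) := by
  obtain ⟨α, β, h⟩ : ∃ α β : F, α ^ 2 - a * α - b = z * β ^ 2 := by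
    by_cases h2 : ringChar F = 2
    · obtain ⟨β, hβ⟩ := FiniteField.isSquare_of_char_two h2 (-b / z)
      exact ⟨0, β, by rw [pow_two β, ← hβ]; field_simp; ring⟩
    · obtain ⟨α, β, k⟩ := FiniteField.exists_root_sum_quadratic
        (f := Polynomial.C 1 * Polynomial.X ^ 2 + Polynomial.C (-a) * Polynomial.X + Polynomial.C (-b))
        (g := Polynomial.C (-z) * Polynomial.X ^ 2) (Polynomial.degree_quadratic one_ne_zero)
        (Polynomial.degree_C_mul_X_pow 2 (neg_ne_zero.2 hz)) (FiniteField.odd_card_of_char_ne_two h2)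
      exact ⟨α, β, by simp at k; linear_combination k⟩
  refine ⟨{ toFun := fun p => (α * p.1 - z * β * p.2, β * p.1 + (a - α) * p.2)
            map_add' := fun p q => by ext <;> simp <;> ring
            map_smul' := fun p q => by ext <;> simp <;> ring }, fun v => ?_, fun v => ?_⟩
  · ext <;> simp
    · linear_combination v.1 * h
    · linear_combination v.2 * h
  · ext <;> simp [CC] <;> ring

theorem nc_scalar [FiniteDimensional F V] {m : ℕ} (h : finrank F V = 2 * m) {x : V →ₗ[F] V} {w : F}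
    (hx : ∀ v, x v = w • v) : Nc a b 0 1 x :=
  Nc.equiv (LinearEquiv.ofFinrankEq V ((Fin m → F) × (Fin m → F)) (by simp [h, two_mul]))
    (fun u => by ext <;> simp [hx]) (nc_dbl (w • LinearMap.id))

theorem nc1 [Fintype F] {z : F} (hz : ¬ IsSquare z) (m : ℕ) : ∀ (V : Type u) [AddCommGroup V]
    [Module F V] [FiniteDimensional F V] (x : V →ₗ[F] V), finrank F V = 2 * m → (∀ v, x (x v) = z • v) →
    Nc a b a (-1) x := by
  induction m with
  | zero => exact fun V _ _ _ x h _ => nc_zero h x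
  | succ m ih =>
    intro V _ _ _ x h hx
    obtain ⟨U, y, e, h1, h2⟩ := split hx fun w hw => by
      obtain ⟨v, hv⟩ := finrank_pos_iff_exists_ne_zero.1 (show 0 < finrank F V by omega)
      exact hz ⟨w, smul_left_injective F hv (by simpa [hw, smul_smul] using (hx v).symm)⟩
    have := e.finrank_eq
    simp only [finrank_prod, finrank_self] at this
    exact Nc.equiv e h2 ((nc_plane (by rintro rfl; exact hz IsSquare.zero)).prod (ih U y (by omega) h1))

theorem nc2 {z : F} (hz : z ≠ 0) (h2 : (2 : F) ≠ 0) (m : ℕ) : ∀ (V : Type u) [AddCommGroup V]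
    [Module F V] [FiniteDimensional F V] (x : V →ₗ[F] V), finrank F V = 2 * m → (∀ v, x (x v) = z • v) →
    LinearMap.det x = z ^ m → Nc a b 0 1 x := by
  induction m using Nat.strong_induction_on with
  | _ m ih =>
    intro V _ _ _ x h hx hd
    by_cases hs : ∃ w : F, ∀ v, x v = w • v
    · obtain ⟨w, hw⟩ := hs
      exact nc_scalar h hw
    obtain ⟨U, y, e, h1, h3⟩ := split hx (not_exists.1 hs)
    have f1 := e.finrank_eq
    simp only [finrank_prod, finrank_self] at f1
    obtain ⟨m, rfl⟩ : ∃ k, m = k + 1 := ⟨m - 1, by omega⟩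
    have d1 := det_equiv e h3
    rw [LinearMap.det_prodMap, det_CC, hd] at d1
    have d2 : LinearMap.det y = -z ^ m := mul_left_cancel₀ hz (by linear_combination -d1)
    obtain ⟨U', y', e', h4, h5⟩ := split h1 fun w hw => by
      rw [show y = w • LinearMap.id from LinearMap.ext hw, LinearMap.det_smul, LinearMap.det_id, mul_one,
        show finrank F U = 2 * m by omega, pow_mul] at d2
      refine mul_ne_zero h2 (pow_ne_zero m hz) ?_
      rcases Nat.eq_zero_or_pos m with k | k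
      · subst k; linear_combination d2
      · obtain ⟨v, hv⟩ := finrank_pos_iff_exists_ne_zero.1 (show 0 < finrank F U by omega)
        have k : z = w * w := smul_left_injective F hv (by simpa [hw, smul_smul] using (h1 v).symm)
        rw [pow_two, ← k] at d2; linear_combination d2
    have f2 := e'.finrank_eq
    simp only [finrank_prod, finrank_self] at f2
    obtain ⟨m, rfl⟩ : ∃ k, m = k + 1 := ⟨m - 1, by omega⟩
    have d3 := det_equiv e' h5
    rw [LinearMap.det_prodMap, det_CC, d2] at d3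
    refine Nc.equiv (e.trans (((LinearEquiv.refl F _).prodCongr e').trans (LinearEquiv.prodAssoc F _ _ _).symm))
      (fun u => ?_) ((nc_dbl (CC 0 1 z)).prod (ih m (by omega) U' y' (by omega) h4
        (mul_left_cancel₀ hz (by linear_combination -d3))))
    simp [h3, h5, LinearEquiv.prodAssoc]

theorem split2 [FiniteDimensional F V] {x : V →ₗ[F] V} (hx : ∀ v, x (x v) = a • x v + b • v)
    (irr : ∀ l : F, l * l ≠ a * l + b) (h0 : 0 < finrank F V) :
    ∃ (U : Submodule F V) (y : U →ₗ[F] U) (e : V ≃ₗ[F] (F × F) × U), (∀ v, y (y v) = a • y v + b • v) ∧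
      ∀ u, e (x u) = ((b * (e u).1.2, (e u).1.1 + a * (e u).1.2), y (e u).2) := by
  obtain ⟨v, v0⟩ := finrank_pos_iff_exists_ne_zero.1 h0
  have hv : x v ∉ F ∙ v := fun k => by
    obtain ⟨c, e⟩ := Submodule.mem_span_singleton.1 k
    have := hx v
    rw [← e, map_smul, ← e, smul_smul, smul_smul, ← add_smul] at this
    exact irr c (smul_left_injective F v0 this)
  obtain ⟨g, h1, h2⟩ := Submodule.exists_dual_map_eq_bot_of_notMem hv inferInstance
  have h3 : g v = 0 := by
    have := Submodule.mem_map_of_mem (f := g) (Submodule.mem_span_singleton_self v)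
    rwa [h2] at this
  obtain ⟨φ, p0, p1⟩ : ∃ φ : V →ₗ[F] F, φ v = 0 ∧ φ (x v) = 1 :=
    ⟨(g (x v))⁻¹ • g, by simp [h3], by simp [h1]⟩
  let U : Submodule F V := LinearMap.ker φ ⊓ LinearMap.ker (φ.comp x)
  have hU : ∀ u, u ∈ U ↔ φ u = 0 ∧ φ (x u) = 0 := fun u => Iff.rfl
  refine ⟨U, x.restrict fun u hu => (hU _).2 ⟨hu.2, by simp [hx, ((hU _).1 hu).1, ((hU _).1 hu).2]⟩,
    { toFun := fun u => ((φ (x u) - a * φ u, φ u), ⟨u - (φ (x u) - a * φ u) • v - φ u • x v,
        (hU _).2 ⟨by simp [p0, p1], by simp [p0, p1, hx, mul_comm]⟩⟩)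
      invFun := fun p => p.1.1 • v + p.1.2 • x v + p.2.1
      map_add' := fun a b => by ext <;> simp <;> first | ring1 | module
      map_smul' := fun a b => by ext <;> simp <;> first | ring1 | module
      left_inv := fun u => by simp
      right_inv := fun p => by
        have := (hU _).1 p.2.2
        ext <;> simp [p0, p1, hx, this.1, this.2, mul_comm]; module }, fun u => Subtype.ext (hx _), fun u => ?_⟩
  ext <;> simp [hx]
  module

theorem conj2 (irr : ∀ l : F, l * l ≠ a * l + b) (m : ℕ) : ∀ (V W : Type u) [AddCommGroup V] [Module F V]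
    [FiniteDimensional F V] [AddCommGroup W] [Module F W] [FiniteDimensional F W] (x : V →ₗ[F] V)
    (y : W →ₗ[F] W), finrank F V = 2 * m → finrank F W = 2 * m → (∀ v, x (x v) = a • x v + b • v) →
    (∀ v, y (y v) = a • y v + b • v) → ∃ e : V ≃ₗ[F] W, ∀ u, e (x u) = y (e u) := by
  induction m with
  | zero =>
    intro V W _ _ _ _ _ _ x y h h' _ _
    have : Subsingleton W := finrank_zero_iff.1 h'
    exact ⟨LinearEquiv.ofFinrankEq V W (h.trans h'.symm), fun _ => Subsingleton.elim _ _⟩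
  | succ m ih =>
    intro V W _ _ _ _ _ _ x y h h' hx hy
    obtain ⟨U, x', e, a1, a2⟩ := split2 hx irr (by omega)
    obtain ⟨U', y', e', b1, b2⟩ := split2 hy irr (by omega)
    have f1 := e.finrank_eq
    have f2 := e'.finrank_eq
    simp only [finrank_prod, finrank_self] at f1 f2
    obtain ⟨g, hg⟩ := ih U U' x' y' (by omega) (by omega) a1 b1
    exact ⟨e.trans (((LinearEquiv.refl F _).prodCongr g).trans e'.symm), fun u => e'.injective (by
      simp [a2, b2, hg])⟩

theorem ex_j {n : ℕ} {K : Subalgebra F (Matrix (Fin (n + 1)) (Fin (n + 1)) F)}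
    (hK : Cfsg.Geo.IsFieldSubalgebra 2 K) : ∃ j, (∀ k, k ∈ K ↔ ∃ α β : F, k = α • 1 + β • j) ∧
      ∀ c : F, j ≠ c • 1 := by
  obtain ⟨j, hj⟩ : ∃ j : K, j ∉ F ∙ (1 : K) := by
    by_contra! hc
    have := finrank_span_singleton (K := F) (one_ne_zero (α := K))
    rw [show F ∙ (1 : K) = ⊤ from eq_top_iff.2 fun x _ => hc x, finrank_top, hK.finrank_eq] at this
    omega
  have li : LinearIndependent F ![(1 : K), j] := (LinearIndependent.pair_iff' one_ne_zero).2
    fun c e => hj (Submodule.mem_span_singleton.2 ⟨c, e⟩)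
  have sp := li.span_eq_top_of_card_eq_finrank (by simp [hK.finrank_eq])
  refine ⟨j.1, fun k => ⟨fun hk => ?_, ?_⟩, fun c e => hj (Submodule.mem_span_singleton.2
    ⟨c, Subtype.ext e.symm⟩)⟩
  · have : (⟨k, hk⟩ : K) ∈ Submodule.span F (Set.range ![(1 : K), j]) := sp ▸ Submodule.mem_top
    rw [Matrix.range_cons, Matrix.range_cons_empty, Set.singleton_union, Submodule.mem_span_pair] at this
    obtain ⟨α, β, e⟩ := this
    exact ⟨α, β, (congrArg Subtype.val e).symm⟩
  · rintro ⟨α, β, rfl⟩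
    exact K.add_mem (K.smul_mem K.one_mem _) (K.smul_mem j.2 _)

open Matrix in
theorem rank1 {n : ℕ} {K : Subalgebra F (Matrix (Fin (n + 3)) (Fin (n + 3)) F)}
    (hK : Cfsg.Geo.IsFieldSubalgebra 2 K) {Q Q' : Matrix (Fin (n + 3)) (Fin (n + 3)) F} (hQ : Q' * Q = 1)
    (hn : ∀ k ∈ K, Q * k * Q' ∈ K) {ζ : F} (hζ : ζ ≠ 0) {v f : Fin (n + 3) → F}
    (e : Q = ζ • 1 + vecMulVec v f) : v = 0 ∨ f = 0 := by
  obtain ⟨j, h1, h2⟩ := ex_j hK
  have jK : j ∈ K := (h1 j).2 ⟨0, 1, by simp⟩
  have kill : ∀ k ∈ K, ∀ u, u ≠ 0 → k *ᵥ u = 0 → k = 0 := fun k hk u u0 h => by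
    by_contra k0
    obtain ⟨y, -, hy⟩ := hK.inv k hk k0
    exact u0 (by rw [← one_mulVec u, ← mul_eq_one_comm.1 hy, ← mulVec_mulVec, h, mulVec_zero])
  have qv : ∀ u, Q *ᵥ u = ζ • u + (f ⬝ᵥ u) • v := fun u => by
    rw [e, add_mulVec, smul_mulVec, one_mulVec, vecMulVec_mulVec]; simp
  obtain ⟨u, hu, u0⟩ := (Submodule.ne_bot_iff _).1 (LinearMap.ker_ne_bot_of_finrank_lt
    (f := Matrix.toLin' (Matrix.of ![f, f ᵥ* j])) (by simp))
  have u1 : f ⬝ᵥ u = 0 := congrFun hu 0
  have u2 : f ⬝ᵥ j *ᵥ u = 0 := by rw [dotProduct_mulVec]; exact congrFun hu 1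
  have c := kill _ (K.sub_mem (hn j jK) jK) (ζ • u) (smul_ne_zero hζ u0) (by
    have : ζ • u = Q *ᵥ u := by rw [qv, u1]; simp
    rw [sub_mulVec, this, mulVec_mulVec, mul_assoc, hQ, mul_one, ← mulVec_mulVec, qv, u2, ← this]
    simp [mulVec_smul])
  have c' : Q * j = j * Q := by rw [← sub_eq_zero.1 c, mul_assoc _ Q', hQ, mul_one, sub_eq_zero.1 c]
  by_contra! hc
  obtain ⟨i, hi⟩ := Function.ne_iff.1 hc.2
  have := congrArg (· *ᵥ Pi.single i 1) c'
  simp only [← mulVec_mulVec, qv, mulVec_add, mulVec_smul, add_right_inj, dotProduct_single, mul_one] at this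
  have k := kill (j - ((f i)⁻¹ * (f ⬝ᵥ j *ᵥ Pi.single i 1)) • 1) (K.sub_mem jK (K.smul_mem K.one_mem _)) v hc.1 (by
    rw [sub_mulVec, smul_mulVec, one_mulVec, mul_smul, this, inv_smul_smul₀ hi, sub_self])
  exact h2 _ (sub_eq_zero.1 k)

end CfsgH6.Ds
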