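import Cfsg.Agent.H6.FL

/-! The determinantal formula and the unipotent characters of `GL_n`. -/

set_option autoImplicit false

namespace CfsgH6.FL
open Matrix Finset Cfsg CfsgH3 MvPolynomial

variable {n : ℕ}

/-- functions as finitely supported functions -/
noncomputable def fs (ν : Fin n → ℕ) : Fin n →₀ ℕ := Finsupp.equivFunOnFinite.symm ν

@[simp] theorem fs_apply (ν : Fin n → ℕ) (i : Fin n) : fs ν i = ν i := rfl

theorem prod_X (ν : Fin n → ℕ) : ∏ i, (X i : MvPolynomial (Fin n) ℤ) ^ ν i = monomial (fs ν) 1 := by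
  rw [monomial_eq, Finsupp.prod_fintype _ _ (by simp)]; simp

variable (n) in
/-- generating function of the complete symmetric polynomials -/
noncomputable def HS : PowerSeries (MvPolynomial (Fin n) ℤ) := ∏ i, PowerSeries.mk fun m => X i ^ m

variable (n) in
/-- complete symmetric polynomials -/
noncomputable def hz (l j : ℕ) : MvPolynomial (Fin n) ℤ := if j ≤ l then PowerSeries.coeff (l - j) (HS n) else 0

theorem coeff_HS (m : ℕ) : PowerSeries.coeff m (HS n) = ∑ l ∈ finsuppAntidiag univ m, monomial l 1 := by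
  rw [HS, PowerSeries.coeff_prod]
  refine sum_congr rfl fun l _ => ?_
  simp only [PowerSeries.coeff_mk, prod_X]
  congr 2
  ext; simp

theorem MM_eq (ν μ : Fin n → ℕ) : (MM ν μ : ℤ) = coeff (fs ν) (∏ t, PowerSeries.coeff (μ t) (HS n)) := by
  simp only [coeff_HS]
  rw [prod_univ_sum, coeff_sum]
  simp only [← monomial_sum_one, coeff_monomial]
  rw [← Nat.cast_one (R := ℤ), ← Nat.cast_zero (R := ℤ)]
  simp only [← Nat.cast_ite, ← Nat.cast_sum, ← card_filter, Nat.cast_inj]
  rw [← Fintype.card_coe, ← Nat.card_eq_fintype_card, MM]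
  refine Nat.card_eq_of_bijective (fun N => ⟨fun t => fs fun s => N.1 s t, by
    simpa [Finsupp.ext_iff, Finsupp.finset_sum_apply] using ⟨N.2.2, N.2.1⟩⟩) ⟨fun a b e => Subtype.ext (funext fun s => funext fun t => ?_), ?_⟩
  · exact DFunLike.congr_fun (congrFun (congrArg Subtype.val e) t) s
  · rintro ⟨L, hL⟩
    refine ⟨⟨fun s t => L t s, ?_⟩, Subtype.ext (funext fun t => Finsupp.ext fun s => rfl)⟩
    exact And.symm (by simpa [Finsupp.ext_iff, Finsupp.finset_sum_apply] using hL)

/-- the transition coefficients -/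
noncomputable def QQ (k : Fin n) : Polynomial (MvPolynomial (Fin n) ℤ) := ∏ i ∈ univ.erase k, (1 - Polynomial.C (X i) * Polynomial.X)

theorem QQ_deg (k : Fin n) : (QQ k).natDegree < n := by
  have : (QQ k).natDegree ≤ ∑ i ∈ univ.erase k, 1 :=
    (Polynomial.natDegree_prod_le _ _).trans (sum_le_sum fun i _ => by compute_degree)
  have h := k.2
  rw [sum_const, card_erase_of_mem (mem_univ _), card_univ, Fintype.card_fin, smul_eq_mul] at this
  omega

theorem HS_mul (k : Fin n) : HS n * (QQ k : PowerSeries _) = PowerSeries.mk fun m => X k ^ m := by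
  have h : ∀ i : Fin n, (PowerSeries.mk fun m => (X i : MvPolynomial (Fin n) ℤ) ^ m) *
      ((1 - Polynomial.C (X i) * Polynomial.X : Polynomial (MvPolynomial (Fin n) ℤ)) : PowerSeries _) = 1 := fun i => by
    ext1 m
    rcases m with _ | m
    · simp
    · simp [mul_sub, ← mul_assoc, PowerSeries.coeff_succ_mul_X, pow_succ, PowerSeries.coeff_one]
  rw [HS, QQ, ← mul_prod_erase _ _ (mem_univ k), mul_assoc, ← Polynomial.coeToPowerSeries.ringHom_apply, map_prod, ← prod_mul_distrib,
    prod_eq_one fun i _ => (by exact h i), mul_one]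

theorem X_pow_eq (k : Fin n) (l : ℕ) : (X k : MvPolynomial (Fin n) ℤ) ^ l = ∑ j : Fin n, hz n l j * (QQ k).coeff j := by
  have := congrArg (PowerSeries.coeff l) (HS_mul k)
  rw [PowerSeries.coeff_mk, mul_comm, PowerSeries.coeff_mul, Nat.sum_antidiagonal_eq_sum_range_succ_mk] at this
  rw [← this, Fin.sum_univ_eq_sum_range (fun j => hz n l j * (QQ k).coeff j),
    sum_subset (f := fun j => hz n l j * (QQ k).coeff j) (s₂ := range (l + 1 + n)) (range_mono (by omega)) fun j _ hj => by
      rw [Polynomial.coeff_eq_zero_of_natDegree_lt ((QQ_deg k).trans_le (by simpa using hj)), mul_zero],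
    ← sum_subset (f := fun j => hz n l j * (QQ k).coeff j) (s₁ := range (l + 1)) (range_mono (by omega)) fun j _ hj => by
      rw [hz, if_neg (by simp at hj; omega), zero_mul]]
  refine sum_congr rfl fun j hj => ?_
  rw [hz, if_pos (by simp at hj; omega), Polynomial.coeff_coe, mul_comm]

/-- alternants -/
noncomputable def alt (l : Fin n → ℕ) : MvPolynomial (Fin n) ℤ := (of fun i k => X k ^ l i : Matrix (Fin n) (Fin n) _).det

theorem alt_eq (l : Fin n → ℕ) : alt l = (of fun i (j : Fin n) => hz n (l i) j).det * (of fun (j k : Fin n) => (QQ k).coeff j).det := by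
  rw [← det_mul, alt]
  congr 1
  ext1 i k
  simp [mul_apply, X_pow_eq]

theorem jacobi_trudi (l : Fin n → ℕ) : alt l = alt Fin.val * (of fun i (j : Fin n) => hz n (l i) j).det := by
  have : (of fun (i j : Fin n) => hz n i j).det = 1 := by
    rw [det_of_lowerTriangular _ fun i j h => by simp only [of_apply, hz]; exact if_neg (not_le.2 h)]
    refine prod_eq_one fun i _ => ?_
    simp [hz, HS, map_prod]
  rw [alt_eq, alt_eq, this, one_mul, mul_comm]

theorem alt_sum (l : Fin n → ℕ) : alt l = ∑ σ : Equiv.Perm (Fin n), monomial (fs fun i => l (σ i)) (Equiv.Perm.sign σ : ℤ) := by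
  rw [alt, det_apply]
  refine sum_congr rfl fun σ _ => ?_
  simp only [of_apply, prod_X, Units.smul_def, smul_monomial, smul_eq_mul, mul_one]

theorem coeff_alt {l l' : Fin n → ℕ} (h : StrictMono l) (h' : StrictMono l') : coeff (fs l) (alt l') = if l' = l then 1 else 0 := by
  rw [alt_sum, coeff_sum, sum_eq_single 1]
  · simp [coeff_monomial, Finsupp.ext_iff, funext_iff]
  · intro σ _ hσ
    rw [coeff_monomial, if_neg fun e => hσ ?_]
    refine (Equiv.Perm.monotone_iff σ).1 fun i j k => h'.le_iff_le.1 ?_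
    have e := fun i => DFunLike.congr_fun e i
    simp only [fs_apply] at e
    rw [e, e]; exact h.monotone k
  · simp

theorem ortho {l l' : Fin n → ℕ} (h : StrictMono l) (h' : StrictMono l') :
    ∑ κ : Equiv.Perm (Fin n), ∑ κ' : Equiv.Perm (Fin n), (if (∀ i, (κ i).1 ≤ l i) ∧ ∀ i, (κ' i).1 ≤ l' i then
      (Equiv.Perm.sign κ : ℤ) * (Equiv.Perm.sign κ' : ℤ) * MM (fun i => l i - κ i) (fun i => l' i - κ' i) else 0) =
      if l' = l then 1 else 0 := by
  rw [← coeff_alt h h', jacobi_trudi, alt_sum, sum_mul, coeff_sum]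
  refine sum_congr rfl fun κ _ => ?_
  rw [coeff_monomial_mul', ← det_transpose, det_apply, coeff_sum]
  by_cases h1 : ∀ i, (κ i).1 ≤ l i
  · rw [if_pos (show (fs fun i => (κ i).1) ≤ fs l from h1), mul_sum]
    refine sum_congr rfl fun κ' _ => ?_
    rw [Units.smul_def, coeff_smul, smul_eq_mul, ← mul_assoc]
    by_cases h2 : ∀ i, (κ' i).1 ≤ l' i
    · rw [if_pos ⟨h1, h2⟩, MM_eq]
      simp only [transpose_apply, of_apply, hz, if_pos (h2 _)]
      congr 2
      ext; simp
    · obtain ⟨i, hi⟩ := not_forall.1 h2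
      rw [if_neg fun k => h2 k.2, prod_eq_zero (mem_univ i) (by simp only [transpose_apply, of_apply, hz, if_neg hi])]
      simp
  · rw [if_neg (show ¬ (fs fun i => (κ i).1) ≤ fs l from h1)]
    exact sum_eq_zero fun _ _ => if_neg fun k => h1 k.1

variable {F : Type*} [Field F]

theorem unip_eq (ν : Fin n → ℕ) : unipotentCharacterGL n F ν = ∑ κ : Equiv.Perm (Fin n),
    (if ∀ i : Fin n, (κ i).val ≤ ν i + i.val then ((Equiv.Perm.sign κ : ℤ) : ℂ) else 0) •
      fixedPointCharacter (parabolicGL n F fun i => ν i + i.val - (κ i).val) := by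
  ext g
  simp only [unipotentCharacterGL, Finset.sum_apply, Pi.smul_apply, smul_eq_mul, ite_mul, zero_mul]

theorem sum_sub {ν : Fin n → ℕ} (h : ∑ i, ν i = n) {κ : Equiv.Perm (Fin n)} (hκ : ∀ i : Fin n, (κ i).val ≤ ν i + i.val) :
    ∑ i, (ν i + i.val - (κ i).val) = n := by
  have h1 : ∑ i, (ν i + i.val - (κ i).val) + ∑ i, (κ i).val = ∑ i, ν i + ∑ i : Fin n, i.val := by
    rw [← sum_add_distrib, ← sum_add_distrib]
    exact sum_congr rfl fun i _ => Nat.sub_add_cancel (hκ i)
  rw [Equiv.sum_comp κ Fin.val] at h1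
  omega

theorem strict {ν : Fin n → ℕ} (h : Monotone ν) : StrictMono fun i : Fin n => ν i + i.val :=
  fun _ _ k => add_lt_add_of_le_of_lt (h k.le) k

theorem inner_unip [Fintype (GL (Fin n) F)] {ν ν' : Fin n → ℕ} (h1 : Monotone ν) (h2 : ∑ i, ν i = n) (h3 : Monotone ν')
    (h4 : ∑ i, ν' i = n) :
    classInner (unipotentCharacterGL n F ν') (unipotentCharacterGL n F ν) = if ν' = ν then 1 else 0 := by
  have := congrArg (Int.cast : ℤ → ℂ) (ortho (strict h1) (strict h3))
  simp only [funext_iff, add_left_inj] at this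
  push_cast at this
  simp only [funext_iff]
  rw [← this, unip_eq, unip_eq, classInner_sum_right]
  refine sum_congr rfl fun κ _ => ?_
  rw [classInner_sum_left]
  refine sum_congr rfl fun κ' _ => ?_
  rw [classInner_smul_left, classInner_smul_right]
  by_cases a : ∀ i : Fin n, (κ i).val ≤ ν i + i.val
  · by_cases b : ∀ i : Fin n, (κ' i).val ≤ ν' i + i.val
    · rw [if_pos a, if_pos b, if_pos ⟨a, b⟩, inner_parabolic (sum_sub h2 a) (sum_sub h4 b), map_intCast]; ring
    · simp [b]
  · simp [a]

theorem isGen_unip [Finite F] (ν : Fin n → ℕ) : IsGeneralizedCharacter _ (unipotentCharacterGL n F ν) := by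
  rw [unip_eq]
  refine isGen_sum _ _ fun κ _ => ?_
  split_ifs
  · exact (isCharacter_fpc _).isGen.intCast_smul _
  · simpa using isGen_zero

end CfsgH6.FL
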