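import Cfsg.Agent.H6.FL2

/-! Orders of parabolic subgroups of `GL_n` and degrees of unipotent characters. -/

set_option autoImplicit false

namespace CfsgH6.FL
open Matrix Finset Cfsg CfsgH3

variable {F : Type*} [Field F] {n m : ℕ}

/-- q-integers -/
def qi (q r : ℕ) : ℕ := ∑ l ∈ range r, q ^ l

/-- q-factorials -/
def qf (q r : ℕ) : ℕ := ∏ j ∈ range r, qi q (j + 1)

theorem qi_add (q a b : ℕ) : qi q (a + b) = qi q a + q ^ a * qi q b := by
  simp [qi, sum_range_add, mul_sum, pow_add]

theorem qi_pos (q r : ℕ) : 0 < qi q (r + 1) := by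
  rw [add_comm, qi_add]; simp [qi]

theorem qf_pos (q r : ℕ) : 0 < qf q r := prod_pos fun _ _ => qi_pos _ _

theorem card_GL [Fintype F] (ι : Type*) [Fintype ι] [DecidableEq ι] : Nat.card (GL ι F) =
    Fintype.card F ^ (∑ i ∈ range (Fintype.card ι), i) * (Fintype.card F - 1) ^ Fintype.card ι * qf (Fintype.card F) (Fintype.card ι) := by
  rw [Nat.card_congr (Units.mapEquiv (reindexAlgEquiv F F (Fintype.equivFin ι)).toMulEquiv).toEquiv]
  refine (card_GL_field _).trans ?_
  generalize Fintype.card ι = r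
  have h : 1 ≤ Fintype.card F := Fintype.card_pos
  generalize Fintype.card F = q at h
  rw [Fin.prod_univ_eq_prod_range (fun i => q ^ r - q ^ i), qf, ← prod_range_reflect (fun j => qi q (j + 1)), ← prod_pow_eq_pow_sum]
  rw [show (q - 1) ^ r = ∏ _i ∈ range r, (q - 1) by simp, ← prod_mul_distrib, ← prod_mul_distrib]
  refine prod_congr rfl fun i hi => ?_
  have hi := mem_range.1 hi
  rw [mul_assoc, mul_comm (q - 1), qi, geom_sum_mul_of_one_le h, Nat.mul_sub, ← pow_add, mul_one]
  congr 2; omega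

theorem card_Par [Finite F] (a : Fin n → Fin m) : Nat.card (Par F a) =
    (∏ s, Nat.card (GL {i // a i = s} F)) * Nat.card F ^ #{c : Fin n × Fin n | a c.1 < a c.2} := by
  rw [← Nat.card_pi, ← Fintype.card_subtype, ← Nat.card_eq_fintype_card, ← Nat.card_fun, ← Nat.card_prod]
  have hd : ∀ g : Par F a, ∀ s, (g.1.1.toSquareBlock a s).det ≠ 0 := fun g s => by
    have := g.1.det_ne_zero
    rw [BlockTriangular.det_fintype g.2] at this
    exact prod_ne_zero_iff.1 this s (mem_univ s)
  refine Nat.card_eq_of_bijective (fun g => (fun s => GeneralLinearGroup.mkOfDetNeZero _ (hd g s), fun c => g.1.1 c.1.1 c.1.2))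
    ⟨fun g h e => Subtype.ext (Units.ext (Matrix.ext fun i j => ?_)), ?_⟩
  · rcases lt_trichotomy (a i) (a j) with k | k | k
    · exact congrFun (congrArg Prod.snd e) ⟨(i, j), k⟩
    · have := congrArg Units.val (congrFun (congrArg Prod.fst e) (a j))
      exact congrFun (congrFun this ⟨i, k⟩) ⟨j, rfl⟩
    · rw [g.2 k, h.2 k]
  · rintro ⟨A, U⟩
    let M : Matrix (Fin n) (Fin n) F := of fun i j =>
      if h : a i = a j then (A (a j)).1 ⟨i, h⟩ ⟨j, rfl⟩ else if h : a i < a j then U ⟨(i, j), h⟩ else 0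
    have h1 : M.BlockTriangular a := fun i j h => by simp only [M, of_apply]; rw [dif_neg h.ne', dif_neg h.not_gt]
    have h2 : ∀ s, M.toSquareBlock a s = (A s).1 := fun s => by
      ext ⟨i, hi⟩ ⟨j, rfl⟩
      simp only [M, toSquareBlock_def, of_apply]
      rw [dif_pos hi]
    refine ⟨⟨GeneralLinearGroup.mkOfDetNeZero M ?_, h1⟩, Prod.ext (funext fun s => Units.ext (h2 s)) (funext fun c => ?_)⟩
    · rw [h1.det_fintype]
      exact prod_ne_zero_iff.2 fun s _ => h2 s ▸ (A s).det_ne_zero
    · change M _ _ = _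
      simp only [M, of_apply]
      rw [dif_neg c.2.ne, dif_pos c.2]

theorem card_pairs (a : Fin n → Fin m) :
    ∑ s, ∑ i ∈ range #{i | a i = s}, i + #{c : Fin n × Fin n | a c.1 < a c.2} = ∑ i ∈ range n, i := by
  have T : ∀ r : ℕ, 2 * ∑ i ∈ range r, i + r = r * r := fun r => by
    induction r with
    | zero => simp
    | succ r ih => rw [sum_range_succ]; nlinarith
  have h1 : #{c : Fin n × Fin n | a c.2 < a c.1} = #{c : Fin n × Fin n | a c.1 < a c.2} :=
    card_equiv (Equiv.prodComm _ _) (by simp)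
  have h2 : #{c : Fin n × Fin n | a c.1 = a c.2} = ∑ s, #{i | a i = s} * #{i | a i = s} := by
    rw [card_eq_sum_card_fiberwise (f := fun c => a c.2) (t := univ) (by simp)]
    refine sum_congr rfl fun s _ => ?_
    rw [← card_product]
    congr 1
    ext c
    simp only [mem_filter, mem_univ, true_and, mem_product]
    exact ⟨fun h => ⟨h.1.trans h.2, h.2⟩, fun h => ⟨h.1.trans h.2.symm, h.2⟩⟩
  have h3 : #{c : Fin n × Fin n | a c.1 < a c.2} + #{c : Fin n × Fin n | a c.1 = a c.2} + #{c : Fin n × Fin n | a c.2 < a c.1} = n * n := by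
    simp only [card_filter, ← sum_add_distrib]
    rw [sum_congr rfl (g := fun _ => 1) fun c _ => by simp only [Fin.lt_def, Fin.ext_iff]; split_ifs <;> omega]
    simp
  have h4 : ∑ s, #{i | a i = s} = n := by
    rw [← card_eq_sum_card_fiberwise (by simp)]; simp
  simp only [← T, sum_add_distrib, ← mul_sum, h4] at h2
  have := T n
  omega

theorem index_mul [Fintype F] {μ : Fin n → ℕ} (hμ : ∑ i, μ i = n) :
    (parabolicGL n F μ).index * ∏ i, qf (Fintype.card F) (μ i) = qf (Fintype.card F) n := by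
  have h1 := (parabolicGL n F μ).index_mul_card
  have h2 := card_pairs (lab hμ)
  rw [card_GL, par_eq hμ, card_Par] at h1
  simp only [card_GL, Fintype.card_subtype, card_lab, prod_mul_distrib, prod_pow_eq_pow_sum, hμ, Fintype.card_fin,
    Nat.card_eq_fintype_card] at h1 h2
  rw [← h2, pow_add, ← par_eq hμ] at h1
  have h3 := Fintype.one_lt_card (α := F)
  refine mul_left_cancel₀ (a := Fintype.card F ^ (∑ s, ∑ i ∈ range (μ s), i) *
    Fintype.card F ^ #{c : Fin n × Fin n | lab hμ c.1 < lab hμ c.2} * (Fintype.card F - 1) ^ n) ?_ ?_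
  · have : 0 < Fintype.card F - 1 := by omega
    positivity
  · rw [← h1]; ring

theorem qf_sub (q l j : ℕ) : (∏ k ∈ range j, ((qi q l : ℂ) - qi q k)) * qf q (l - j) =
    if j ≤ l then (q : ℂ) ^ (∑ k ∈ range j, k) * qf q l else 0 := by
  split_ifs with h
  · induction j with
    | zero => simp
    | succ j ih =>
      obtain ⟨d, rfl⟩ := Nat.exists_eq_add_of_le h
      have := ih (by omega)
      rw [show j + 1 + d - j = d + 1 by omega, qf, prod_range_succ, ← qf] at this
      rw [prod_range_succ, sum_range_succ, pow_add, mul_right_comm (_ ^ _) (_ ^ _) (qf q _ : ℂ), ← this, add_tsub_cancel_left,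
        show j + 1 + d = j + (d + 1) by omega, qi_add]
      push_cast; ring
  · rw [prod_eq_zero (i := l) (by simpa using h) (sub_self _), zero_mul]

theorem sum_T (n : ℕ) : ∑ j ∈ range n, ∑ k ∈ range j, k = n * (n - 1) * (n - 2) / 6 := by
  have : ∀ n, ∑ j ∈ range n, ∑ k ∈ range j, k = n.choose 3 := fun n => by
    induction n with
    | zero => simp
    | succ n ih => rw [sum_range_succ, ih, Nat.choose_succ_succ' n 2, sum_range_id, Nat.choose_two_right, add_comm]
  rw [this, Nat.choose_eq_descFactorial_div_factorial]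
  simp [Nat.descFactorial_succ, Nat.factorial, mul_comm, mul_left_comm]

theorem degree [Fintype F] {ν : Fin n → ℕ} (hsum : ∑ i, ν i = n) :
    unipotentCharacterGL n F ν 1 * (Fintype.card F : ℂ) ^ (n * (n - 1) * (n - 2) / 6) * ∏ i : Fin n, (qf (Fintype.card F) (ν i + i) : ℂ) =
      qf (Fintype.card F) n * ∏ i : Fin n, ∏ j ∈ Ioi i, ((qi (Fintype.card F) (ν j + j) : ℂ) - qi (Fintype.card F) (ν i + i)) := by
  set q := Fintype.card F
  rw [← det_vandermonde, det_eval_matrixOfPolynomials_eq_det_vandermonde _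
    (fun j : Fin n => ∏ k ∈ range j, (Polynomial.X - Polynomial.C (qi q k : ℂ)))
    (fun i => by rw [Polynomial.natDegree_prod_of_monic _ _ fun _ _ => Polynomial.monic_X_sub_C _]; simp only [Polynomial.natDegree_X_sub_C]; simp)
    (fun i => Polynomial.monic_prod_of_monic _ _ fun _ _ => Polynomial.monic_X_sub_C _), ← det_transpose, det_apply,
    unipotentCharacterGL, sum_mul, sum_mul, mul_sum]
  refine sum_congr rfl fun κ _ => ?_
  simp only [transpose_apply, of_apply, Polynomial.eval_prod, Polynomial.eval_sub, Polynomial.eval_X, Polynomial.eval_C]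
  have h0 : ∏ i : Fin n, (qf q (ν i + i - κ i) : ℂ) ≠ 0 := prod_ne_zero_iff.2 fun i _ => by exact_mod_cast (qf_pos _ _).ne'
  refine mul_right_cancel₀ h0 ?_
  rw [Units.smul_def, zsmul_eq_mul, mul_assoc (qf q n : ℂ), mul_assoc (_ : ℂ) (∏ _, _) (∏ _, _), mul_assoc (_ : ℂ) (∏ _, _) (∏ _, _),
    ← prod_mul_distrib (f := fun i : Fin n => ∏ k ∈ range (κ i), _)]
  simp only [qf_sub]
  split_ifs with h
  · have h1 := congrArg (Nat.cast : ℕ → ℂ) (index_mul (F := F) (sum_sub hsum h))
    push_cast at h1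
    simp only [if_pos (h _), prod_mul_distrib, prod_pow_eq_pow_sum]
    rw [fpc_one, ← h1, Equiv.sum_comp κ fun j => ∑ k ∈ range j.1, k, Fin.sum_univ_eq_sum_range fun j => ∑ k ∈ range j, k, sum_T]
    ring
  · obtain ⟨i, hi⟩ := not_forall.1 h
    rw [prod_eq_zero (f := fun i : Fin n => if (κ i).1 ≤ ν i + i then _ else 0) (mem_univ i) (if_neg hi)]
    simp

theorem isIrr_unip [Fintype F] {ν : Fin n → ℕ} (hmono : Monotone ν) (hsum : ∑ i, ν i = n) :
    IsIrrCharacter _ (unipotentCharacterGL n F ν) := by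
  classical
  refine (isGen_unip ν).isIrr_of_re_nonneg (by rw [inner_unip hmono hsum hmono hsum, if_pos rfl]) ?_
  obtain ⟨d, hd⟩ := (isGen_unip (F := F) ν).exists_int_apply_one
  have h := degree (F := F) hsum
  rw [hd] at h ⊢
  have h' : d * (Fintype.card F : ℤ) ^ (n * (n - 1) * (n - 2) / 6) * ∏ i : Fin n, (qf (Fintype.card F) (ν i + i) : ℤ) =
      qf (Fintype.card F) n * ∏ i : Fin n, ∏ j ∈ Ioi i, ((qi (Fintype.card F) (ν j + j) : ℤ) - qi (Fintype.card F) (ν i + i)) := by
    exact_mod_cast h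
  have h1 : 0 ≤ d := by
    have h2 : 0 ≤ ∏ i : Fin n, ∏ j ∈ Ioi i, ((qi (Fintype.card F) (ν j + j) : ℤ) - qi (Fintype.card F) (ν i + i)) :=
      prod_nonneg fun i _ => prod_nonneg fun j hj => by
        obtain ⟨e, he⟩ := Nat.exists_eq_add_of_le (strict hmono (mem_Ioi.1 hj)).le
        simp only at he
        rw [he, qi_add]; push_cast
        rw [add_sub_cancel_left]; positivity
    have h3 : 0 < ∏ i : Fin n, (qf (Fintype.card F) (ν i + i) : ℤ) := prod_pos fun i _ => by exact_mod_cast qf_pos _ _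
    have h4 : 0 < (Fintype.card F : ℤ) ^ (n * (n - 1) * (n - 2) / 6) := by
      have := Fintype.card_pos (α := F)
      positivity
    exact nonneg_of_mul_nonneg_left (nonneg_of_mul_nonneg_left (h' ▸ mul_nonneg (by positivity) h2) h3) h4
  simpa using h1

end CfsgH6.FL
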