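import Cfsg.Agent.H6.FieldFix
import Cfsg.Agent.H6.TwistM

/-! Field automorphisms of groups generated by words in root elements. -/

set_option autoImplicit false

namespace CfsgH6.Good

open Cfsg.Lie

variable {D : ChevalleyDatum} (G : Good D) {F : Type*} [Field F]

theorem map_word {F₀ : Type*} [Field F₀] (ι : F₀ →+* F) (w : List (ℕ × F₀)) :
    Matrix.GeneralLinearGroup.map ι (wordG (G.gl F₀).x w) = wordG (G.gl F).x (w.map fun p => (p.1, ι p.2)) := by
  simp only [wordG, map_list_prod, List.map_map]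
  congr 2
  funext p
  simp only [Function.comp_apply]
  split_ifs
  exacts [G.map_gl_x .., map_one _]

theorem map_US (ι : F →+* F) {S : Set (Fin D.nroots)} {g : GL D.Idx F} (h : g ∈ (G.gl F).US S) :
    Matrix.GeneralLinearGroup.map ι g ∈ (G.gl F).US S :=
  ((G.gl F).US_le (K := ((G.gl F).US S).comap (Matrix.GeneralLinearGroup.map ι))).2 (fun r hr t => by
    rw [Subgroup.mem_comap, G.map_gl_x]; exact (G.gl F).x_mem hr _) h

theorem map_h (ι : F →+* F) (r : Fin D.nroots) (t : F) :
    Matrix.GeneralLinearGroup.map ι ((G.gl F).h r t) = (G.gl F).h r (ι t) := by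
  simp [Cover.h, Cover.n, G.map_gl_x]

theorem map_HH (ι : F →+* F) {g : GL D.Idx F} (h : g ∈ (G.gl F).HH) : Matrix.GeneralLinearGroup.map ι g ∈ (G.gl F).HH :=
  (Subgroup.closure_le (K := (G.gl F).HH.comap (Matrix.GeneralLinearGroup.map ι))).2 (by
    rintro _ ⟨r, t, ht, rfl⟩
    rw [SetLike.mem_coe, Subgroup.mem_comap, G.map_h]
    exact Subgroup.subset_closure ⟨r, _, (map_ne_zero ι).2 ht, rfl⟩) h

include G in
theorem exists_fieldAut [Finite F] (σ : F →+* F) {S : Set (List (ℕ × F))}
    (h : ∀ w ∈ S, (w.map fun p => (p.1, σ p.2)) ∈ S) :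
    ∃ θ : MulAut (D.genSubgroup F S), ∀ g, (θ g).1 = Matrix.GeneralLinearGroup.map σ g.1 := by
  have h1 : D.genSubgroup F S ≤ (D.genSubgroup F S).comap (Matrix.GeneralLinearGroup.map σ) := by
    rw [G.genSubgroup_eq]
    refine (Subgroup.closure_le _).2 ?_
    rintro _ ⟨w, hw, rfl⟩
    exact Subgroup.subset_closure ⟨_, h w hw, G.map_word σ w⟩
  exact ⟨MulEquiv.ofBijective (((Matrix.GeneralLinearGroup.map σ).comp (Subgroup.subtype _)).codRestrict
    (D.genSubgroup F S) fun g => h1 g.2)
    (Finite.injective_iff_bijective.1 fun a b e => Subtype.ext (Units.ext (Matrix.map_injective σ.injective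
      (congrArg (fun x => x.1.1) e)))), fun _ => rfl⟩

end CfsgH6.Good
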