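import Cfsg.Agent.H6.Hc1
import Cfsg.Agent.H5.Symp

set_option autoImplicit false

open Matrix

namespace CfsgH6.Hc

variable {r q : ℕ} [hr : Fact r.Prime]

theorem v_pow' (hq : 2 ≤ q) {i : ℕ} (hi : ¬ r ∣ i) :
    padicValNat r (q ^ i - 1) =
      if orderOf (q : ZMod r) ∣ i then padicValNat r (q ^ orderOf (q : ZMod r) - 1) else 0 := by
  split_ifs with h
  · obtain ⟨k, rfl⟩ := h
    set d := orderOf (q : ZMod r) with hd
    have d0 : 0 < d := Nat.pos_of_ne_zero (by rintro e; simp [e] at hi)
    have h3 : q ^ d - 1 ≠ 0 := by have := Nat.one_lt_pow d0.ne' hq; omega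
    have h4 : ¬ r ∣ ∑ j ∈ Finset.range k, (q ^ d) ^ j := by
      rw [← ZMod.natCast_eq_zero_iff]
      push_cast
      rw [hd, pow_orderOf_eq_one]
      simp only [one_pow, Finset.sum_const, Finset.card_range, nsmul_eq_mul, mul_one,
        ZMod.natCast_eq_zero_iff]
      exact fun h => hi (h.mul_left _)
    have h5 : (∑ j ∈ Finset.range k, (q ^ d) ^ j) * (q ^ d - 1) = (q ^ d) ^ k - 1 :=
      geom_sum_mul_of_one_le (Nat.one_le_pow _ _ (by omega)) k
    rw [pow_mul, ← h5, padicValNat.mul (fun e => h4 (by rw [e]; exact dvd_zero _)) h3,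
      padicValNat.eq_zero_of_not_dvd h4, zero_add]
  · exact padicValNat.eq_zero_of_not_dvd (by rwa [dvd_iff (by omega)])

theorem v_Sp {F : Type*} [Field F] [Fintype F] (hq : Fintype.card F = q) {n : ℕ} (hr2 : r ≠ 2)
    (hrn : n < r) (hrq : ¬ r ∣ q) : (Nat.card (symplecticGroup (Fin n) F)).factorization r =
      ((Finset.Icc 1 n).filter (fun i => orderOf (q : ZMod r) ∣ 2 * i)).card *
        padicValNat r (q ^ orderOf (q : ZMod r) - 1) := by
  have h2 : 2 ≤ q := hq ▸ Fintype.one_lt_card
  have ne : ∀ i : ℕ, q ^ (2 * (i + 1)) - 1 ≠ 0 := fun i => by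
    have := Nat.one_lt_pow (show 2 * (i + 1) ≠ 0 by omega) h2; omega
  rw [CfsgH5.card_symplecticGroup, Nat.card_eq_fintype_card, hq,
    Nat.factorization_mul (by positivity) (Finset.prod_ne_zero_iff.2 fun i _ => ne i), Finsupp.add_apply,
    Nat.factorization_eq_zero_of_not_dvd (fun h => hrq (hr.out.dvd_of_dvd_pow h)), zero_add,
    Nat.factorization_prod_apply (fun i _ => ne i), Finset.sum_congr rfl (fun i hi => by
      rw [Nat.factorization_def _ hr.out, v_pow' h2 (fun h => by
        rcases (Nat.Prime.dvd_mul hr.out).1 h with h | h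
        · exact hr2 ((Nat.prime_dvd_prime_iff_eq hr.out Nat.prime_two).1 h)
        · have := Nat.le_of_dvd (by omega) h
          have := Finset.mem_range.1 hi
          omega)]),
    Finset.card_filter, Finset.sum_mul, Finset.range_eq_Ico,
    Finset.sum_Ico_add' (fun i => if orderOf (q : ZMod r) ∣ 2 * i then
      padicValNat r (q ^ orderOf (q : ZMod r) - 1) else 0) 0 n 1]
  simp [Finset.Ico_add_one_right_eq_Icc]

theorem ex_Sp {F R : Type*} [Field F] [CommRing R] [Algebra F R] [Module.Finite F R] {n : ℕ}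
    (hR : Module.finrank F R = n) (τ : R →ₗ[F] F) (hτ : ∀ x, (∀ y, τ (x * y) = 0) → x = 0) :
    ∃ Φ : SpecialLinearGroup (Fin 2) R →* symplecticGroup (Fin n) F, Function.Injective Φ := by
  let B : LinearMap.BilinForm F R := (LinearMap.mul F R).compr₂ τ
  have hB : B.Nondegenerate := ⟨hτ, fun x h => hτ x fun y => by rw [mul_comm]; exact h y⟩
  let b := Module.finBasisOfFinrankEq F R hR
  let c := b.prod (B.dualBasis hB b)
  let ω : LinearMap.BilinForm F (R × R) :=
    B.compl₁₂ (LinearMap.snd F R R) (LinearMap.fst F R R) -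
      B.compl₁₂ (LinearMap.fst F R R) (LinearMap.snd F R R)
  have hω : ∀ x y, ω x y = τ (x.2 * y.1 - x.1 * y.2) := fun x y => by simp [ω, B]
  have hJ : LinearMap.BilinForm.toMatrix c ω = J (Fin n) F := by
    have h1 : ∀ i j, τ (B.dualBasis hB b i * b j) = if j = i then 1 else 0 :=
      LinearMap.BilinForm.apply_dualBasis_left hB b
    ext (i | i) (j | j) <;> rw [LinearMap.BilinForm.toMatrix_apply, hω]
    · simp [c, J]
    · simp [c, J, mul_comm (b i), h1, one_apply]
    · simp [c, J, h1, one_apply, eq_comm]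
    · simp [c, J]
  let φ : SpecialLinearGroup (Fin 2) R → (R × R →ₗ[F] R × R) := fun M =>
    { toFun := fun x => (M.1 0 0 * x.1 + M.1 0 1 * x.2, M.1 1 0 * x.1 + M.1 1 1 * x.2)
      map_add' := fun x y => by ext <;> simp <;> ring
      map_smul' := fun s x => by ext <;> simp }
  refine ⟨MonoidHom.mk' (fun M => ⟨LinearMap.toMatrix c c (φ M), ?_⟩) fun M N => Subtype.ext ?_,
    fun M N e => ?_⟩
  · rw [SymplecticGroup.mem_iff', ← hJ, ← LinearMap.BilinForm.toMatrix_comp]
    congr 1
    refine LinearMap.ext₂ fun x y => ?_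
    rw [LinearMap.BilinForm.comp_apply, hω, hω]
    congr 1
    have := M.det_coe
    rw [det_fin_two] at this
    simp only [φ, LinearMap.coe_mk, AddHom.coe_mk]
    linear_combination (x.2 * y.1 - x.1 * y.2) * this
  · change LinearMap.toMatrix c c (φ (M * N)) = LinearMap.toMatrix c c (φ M) * LinearMap.toMatrix c c (φ N)
    rw [← LinearMap.toMatrix_comp]
    congr 1
    refine LinearMap.ext fun x => ?_
    ext <;> simp [φ, mul_apply, Fin.sum_univ_two] <;> ring
  · have e1 : φ M = φ N := (LinearMap.toMatrix c c).injective (congrArg Subtype.val e)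
    have e2 := LinearMap.congr_fun e1 (1, 0)
    have e3 := LinearMap.congr_fun e1 (0, 1)
    simp only [φ, LinearMap.coe_mk, AddHom.coe_mk, mul_one, mul_zero, add_zero, zero_add,
      Prod.mk.injEq] at e2 e3
    ext i j
    fin_cases i <;> fin_cases j
    exacts [e2.1, e3.1, e2.2, e3.2]

theorem ex_Sp2 {F K : Type*} [Field F] [Finite F] [Field K] [Finite K] [Algebra F K] (n : ℕ) {e : ℕ}
    (he : Module.finrank F K = e) :
    ∃ Φ : (Fin (n / e) → SpecialLinearGroup (Fin 2) K) →* symplecticGroup (Fin n) F,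
      Function.Injective Φ := by
  let R := (Fin (n / e) → K) × (Fin (n % e) → F)
  have hR : Module.finrank F R = n := by
    rw [Module.finrank_prod, Module.finrank_pi_fintype, Module.finrank_fin_fun]
    simp [he, Nat.div_add_mod']
  let τ : R →ₗ[F] F := (∑ i, (Algebra.trace F K).comp (LinearMap.proj i)).comp (LinearMap.fst _ _ _) +
    (∑ i, LinearMap.proj i : (Fin (n % e) → F) →ₗ[F] F).comp (LinearMap.snd _ _ _)
  obtain ⟨Φ, hΦ⟩ := ex_Sp hR τ fun x h => by
    refine Prod.ext (funext fun i => (traceForm_nondegenerate F K).1 _ fun y => ?_) (funext fun i => ?_)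
    · have := h (Pi.single i y, 0)
      simp only [τ, LinearMap.add_apply, LinearMap.comp_apply, LinearMap.sum_apply] at this
      rw [Finset.sum_eq_single i (fun j _ hj => by simp [R, hj]) (by simp)] at this
      simpa [R] using this
    · have := h (0, Pi.single i 1)
      simp only [τ, LinearMap.add_apply, LinearMap.comp_apply, LinearMap.sum_apply] at this
      rw [Finset.sum_eq_single i (fun j _ hj => by simp [R, hj]) (by simp)] at this
      simpa [R] using this
  refine ⟨Φ.comp (MonoidHom.mk' (fun g => ⟨Matrix.of fun j k =>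
    ((fun i => (g i).1 j k, fun _ => (1 : Matrix (Fin 2) (Fin 2) F) j k) : R), ?_⟩)
    fun g h => Subtype.ext ?_), hΦ.comp fun g h e => ?_⟩
  · rw [det_fin_two]
    refine Prod.ext (funext fun i => ?_) (funext fun i => by simp [R])
    have := (g i).det_coe
    rw [det_fin_two] at this
    simpa [R] using this
  · change Matrix.of _ = Matrix.of _ * Matrix.of _
    ext j k
    · simp [R, mul_apply, Fin.sum_univ_two]
    · fin_cases j <;> fin_cases k <;> simp [R, mul_apply, Fin.sum_univ_two]
  · funext i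
    ext j k
    exact congrFun (congrArg Prod.fst (congrFun (congrFun (congrArg Subtype.val e) j) k)) i

theorem ex_Sp3 {F : Type*} [Field F] [Fintype F] (hq : Fintype.card F = q) (n : ℕ) (hrq : ¬ r ∣ q) :
    ∃ f : (Fin ((Finset.Icc 1 n).filter (fun i => orderOf (q : ZMod r) ∣ 2 * i)).card →
      Multiplicative (ZMod (r ^ padicValNat r (q ^ orderOf (q : ZMod r) - 1)))) →*
        symplecticGroup (Fin n) F, Function.Injective f := by
  have h2 : 2 ≤ q := hq ▸ Fintype.one_lt_card
  have d0 := ord_pos hrq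
  obtain ⟨p, hp⟩ := CharP.exists F
  have : Fact p.Prime := ⟨CharP.char_is_prime F p⟩
  obtain ⟨e, e0, h1, h3⟩ : ∃ e, 0 < e ∧ (∀ i, orderOf (q : ZMod r) ∣ 2 * i ↔ e ∣ i) ∧
      (orderOf (q : ZMod r) = e ∨ orderOf (q : ZMod r) = 2 * e) := by
    rcases Nat.even_or_odd (orderOf (q : ZMod r)) with ⟨e, h⟩ | h
    · refine ⟨e, by omega, fun i => ?_, Or.inr (by omega)⟩
      rw [h, ← two_mul, Nat.mul_dvd_mul_iff_left two_pos]
    · exact ⟨_, d0, fun i => (Nat.coprime_two_right.2 h).dvd_mul_left, Or.inl rfl⟩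
  have : NeZero e := ⟨e0.ne'⟩
  let K := FiniteField.Extension F p e
  have := Fintype.ofFinite K
  have hK : Fintype.card K = q ^ e := by
    rw [← Nat.card_eq_fintype_card, FiniteField.natCard_extension, Nat.card_eq_fintype_card, hq]
  obtain ⟨f, hf⟩ : ∃ f : (Fin 1 → Multiplicative (ZMod (r ^ padicValNat r
      (q ^ orderOf (q : ZMod r) - 1)))) →* SpecialLinearGroup (Fin 2) K, Function.Injective f := by
    rcases h3 with h | h
    · exact ex_SL1 1 (by rw [hK, ← h]; exact pow_padicValNat_dvd)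
    · obtain ⟨g, hg⟩ := ex_GL (F := K) 2 two_pos (m := r ^ padicValNat r (q ^ orderOf (q : ZMod r) - 1))
        (by rw [hK, ← pow_mul, mul_comm, ← h]; exact pow_padicValNat_dvd)
      refine ex_SL2 (fun k => ?_) g hg
      rw [hK, dvd_iff (by omega), h] at k
      have := Nat.le_of_dvd e0 k
      omega
  obtain ⟨Φ, hΦ⟩ := ex_Sp2 (F := F) (K := K) n (FiniteField.finrank_extension F p e)
  rw [show ((Finset.Icc 1 n).filter (fun i => orderOf (q : ZMod r) ∣ 2 * i)).card = n / e by
    rw [← Nat.Ioc_filter_dvd_card_eq_div]; simp only [h1]; rfl]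
  refine ⟨Φ.comp (MonoidHom.pi fun i => (f.comp (MonoidHom.pi fun _ => MonoidHom.id _)).comp
    (Pi.evalMonoidHom _ i)), hΦ.comp fun x y e => funext fun i => ?_⟩
  exact congrFun (hf (congrFun e i)) 0

end CfsgH6.Hc
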