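import Cfsg.Agent.H6.Emb
import Cfsg.Agent.H6.GoodD4

/-! A map of root elements from type D4 to type D4. -/

namespace CfsgH6

open Cfsg.Lie

set_option maxRecDepth 100000

/-- packed map -/
def mapD4b : MapD where
  ι := 0x171614110f0c1513100e120d0a05090704020b0806030100
  γ := 0x1b00d8
  e := 0x0
  p := 0

theorem mapD4b_0 : mapD4b.chk fastD4 fastD4 0 24 = true := by decide +kernel

theorem okD4b : MapOK chevD4 chevD4 mapD4b := mapOK_of_chk checkedD4 checkedD4 _ fun r hr => by
  have hr' : r < 24 := hr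
  exact ⟨0, 24, by omega, by omega, mapD4b_0⟩

theorem smD4b : ∀ i : Fin chevD4.rank, mapD4b.fι (chevD4.simple i) = chevD4.simple ([3, 1, 0, 2].getD i 0) ∧
    mapD4b.fγ (chevD4.simple i) = 1 := by decide +kernel

theorem feD4b (r : ℕ) : mapD4b.fe r = 1 := by simp [MapD.fe, mapD4b]

end CfsgH6
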