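import Cfsg.Agent.H6.OutTw2

/-! The outer automorphism group of the twisted group of type F4. -/

set_option autoImplicit false

namespace CfsgH6

open Cfsg.Lie

set_option maxRecDepth 100000

theorem Cover.τ_word {D : ChevalleyDatum} {G : Good D} {F : Type*} [Field F] {Γ : Type*} [Group Γ] {C : Cover G F Γ}
    (h3 : C.R3) (d : Fin D.rank → Fˣ) (w : List (ℕ × F)) : h3.τ d * wordG C.x w * (h3.τ d)⁻¹ =
      wordG C.x (w.map fun p => (p.1, (∏ i, d i ^ D.cartan i p.1 : Fˣ) * p.2)) := by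
  induction w with
  | nil => simp [C.wordG_nil]
  | cons p w ih =>
    rw [List.map_cons, C.word_cons, C.word_cons, ← ih, ← conj_mul]
    congr 1
    unfold Cover.xn
    split_ifs with h
    · rw [h3.τ_conj, G.chr_pw']
    · simp

theorem sz_rigid {R K : Type*} [Group R] [Field K] [Finite K] [CharP K 2] {φ : K →+* K} (h0 : ∀ t, φ (φ t) ^ 2 = t)
    {α : K → K → R} (h1 : ∀ t u t' u', α t u * α t' u' = α (t + t') (u + u' + φ t * t'))
    (h2 : ∀ {t u t' u'}, α t u = α t' u' → u = u') {θ : MulAut R}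
    (h3 : ∀ s ≠ 0, ∃ k, θ k = k ∧ ∀ t u, k * α t u * k⁻¹ = α (s * t) (φ s * s * u)) {c : K} (h4 : θ (α 1 0) = α 1 c)
    {y : K} (h5 : φ y ≠ y) (t u : K) : θ (α t u) = α t u := by
  have a1 : ∀ s ≠ 0, θ (α s 0) = α s (φ s * s * c) := fun s hs => by
    obtain ⟨k, b1, b2⟩ := h3 s hs
    rw [← mul_one s, ← mul_zero (φ s * s), ← b2, map_mul, map_mul, map_inv, b1, h4, b2, mul_one]
  have a2 : Function.Injective fun s => φ s * s := fun s t e => by
    by_cases ht : t = 0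
    · simpa [ht] using e
    have b1 : φ (s / t) * (s / t) = 1 := by
      rw [map_div₀, div_mul_div_comm, show φ s * s = φ t * t from e]; exact div_self (by simpa using ht)
    have b2 := congrArg φ b1
    rw [map_mul, map_one, ← b1, mul_comm, mul_right_inj' (left_ne_zero_of_mul_eq_one b1)] at b2
    have b3 := h0 (s / t)
    rw [b2, sq, mul_right_eq_self₀] at b3
    exact (div_eq_one_iff_eq ht).1 (b3.resolve_right (right_ne_zero_of_mul_eq_one b1))
  have a3 : ∀ v, θ (α 0 v) = α 0 v := fun v => by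
    obtain ⟨s, rfl⟩ := Finite.surjective_of_injective a2 v
    by_cases hs : s = 0
    · have : α 0 0 = 1 := by simpa using h1 0 0 0 0
      simp [hs, this]
    have := congrArg θ (h1 s 0 s 0)
    rw [map_mul, a1 s hs, h1] at this
    simpa only [CharTwo.add_self_eq_zero, zero_add] using this.symm
  have a4 : ∀ t u, θ (α t u) = θ (α t 0) * α 0 u := fun t u => by rw [← a3, ← map_mul, h1]; simp
  obtain rfl : c = 0 := by
    have := congrArg θ (h1 y 0 1 0)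
    rw [map_mul, a4 (y + 1), a1 y fun e => h5 (by simp [e]), h4, a1 _ fun e => h5 (by
      rw [CharTwo.add_eq_zero.1 e, map_one]), h1, h1] at this
    have := h2 this
    rw [map_add, map_one] at this
    exact (mul_eq_zero.1 (by linear_combination (norm := (ring_nf; reduce_mod_char!)) this)).resolve_left
      (sub_ne_zero.2 h5)
  by_cases ht : t = 0
  · rw [ht, a3]
  · rw [a4, a1 t ht, h1]; simp

variable {K : Type*} [Field K] [Fintype K] [CharP K 2] {φ : K →+* K} {m : ℕ}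

omit [Fintype K] in
theorem b2_mul {Γ : Type*} [Group Γ] (C : Cover goodF4 K Γ) (a b c d a' b' c' d' : K) :
    wordG C.x [(27, a), (25, b), (28, c), (30, d)] * wordG C.x [(27, a'), (25, b'), (28, c'), (30, d')] =
      wordG C.x [(27, a + a'), (25, b + b'), (28, c + c' + a' * b), (30, d + d' + a' ^ 2 * b)] := by
  have h : SwOK chevF4 27 25 [(28, -1, 1, 1), (30, -1, 2, 1)] ∧ SwOK chevF4 27 28 [(30, 2, 1, 1)] ∧
    SwOK chevF4 27 30 [] ∧ SwOK chevF4 25 28 [] ∧ SwOK chevF4 25 30 [] ∧ SwOK chevF4 28 30 [] := by decide +kernel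
  simp only [C.word_cons, mul_assoc, C.word_nil_mul, C.xn_swap h.1, C.xn_comm' h.2.1 (by simpa using CharTwo.two_eq_zero),
    C.xn_comm h.2.2.1, C.xn_comm h.2.2.2.1, C.xn_comm h.2.2.2.2.1, C.xn_comm h.2.2.2.2.2, C.xn_add, List.map_cons,
    List.map_nil]
  simp [CharTwo.neg_eq, add_comm, add_left_comm]

variable (hφ : ∀ t, φ t = t ^ 2 ^ m) (hK : Fintype.card K = 2 ^ (2 * m + 1))
include hφ hK

theorem outF4 (hm1 : 1 ≤ m) : Nat.card (Cfsg.Out (TF4g hφ hK).G1) = Nat.card (RingAut K) := by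
  set T := TF4g hφ hK
  have hm : ∀ i t, T.f (goodF4.sm i) t = mF4 φ i t := (XF4 φ).f_sm
  have hm' : ∀ i t, T.f (goodF4.sm i).rev t = mF4 φ i t := (XF4 φ).f_sm_rev
  have ho : Orth chevF4 (T.nodes 0) := by
    have : ∀ i, clF4 i = 0 → ∀ j, clF4 j = 0 → i ≠ j → chevF4.cartan i (chevF4.simple j) = 0 := by decide +kernel
    exact this
  have b0 : ∀ (i : Fin chevF4.rank) t, mF4 φ i t = φ t ^ mapF4.fe (chevF4.simple i) := fun i t => by
    rw [mF4, ← goodF4.sm_val]; exact (XF4 φ).hm _ t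
  have b1 : ∀ g, g ∈ (goodF4.gl K).US (T.Sp 1) ∧ g ∈ T.Fix ↔ ∃ t u, g = wordG (goodF4.gl K).x
      [(27, φ t), (25, t), (28, φ t * t + u), (30, φ u ^ 2)] := fun g => by
    refine (posF4 hφ hK _ (XF4 φ).fn_gl (T.nil_Sp 1) clsF4.2.1 g).trans ?_
    simp only [b2ClassWord, hφ, pow_succ _ (2 ^ m), mul_comm 2 (2 ^ m), pow_mul]
    rfl
  obtain ⟨α, a1⟩ : ∃ α : K → K → T.G1, ∀ t u, (α t u : GL _ K) = wordG (goodF4.gl K).x
      [(27, φ t), (25, t), (28, φ t * t + u), (30, φ u ^ 2)] :=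
    ⟨fun t u => ⟨_, T.mem_G1_of_Sp ((b1 _).2 ⟨t, u, rfl⟩).1 ((b1 _).2 ⟨t, u, rfl⟩).2⟩, fun _ _ => rfl⟩
  have a2 : ∀ y : T.G1, (y : GL _ K) ∈ (goodF4.gl K).US (T.Sp 1) ↔ ∃ t u, y = α t u := fun y =>
    ⟨fun h => ((b1 _).1 ⟨h, T.G1_le_Fix y.2⟩).imp fun t h => h.imp fun u h => Subtype.ext (h.trans (a1 ..).symm),
      fun ⟨t, u, h⟩ => ((b1 _).2 ⟨t, u, h ▸ a1 ..⟩).1⟩
  have a3 : ∀ t u t' u', α t u * α t' u' = α (t + t') (u + u' + φ t * t') := fun t u t' u' => Subtype.ext (by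
    rw [Subgroup.coe_mul, a1, a1, a1, b2_mul]
    simp only [map_add, map_mul, CharTwo.add_sq, mul_pow, theta_theta hφ hK]
    congr 4
    · congr 1; linear_combination (norm := (ring_nf; reduce_mod_char!))
    · rw [mul_comm])
  have a4 : ∀ {t u t' u'}, α t u = α t' u' → u = u' := fun e => by
    have := congrArg Subtype.val e
    rw [a1, a1] at this
    have := (goodF4.gl K).word_inj (T.nil_Sp 1) clsF4.2.1.1 clsF4.2.1.2.1 clsF4.2.1.2.2 rfl rfl this
    simp only [List.cons.injEq, Prod.mk.injEq, true_and] at this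
    simpa [this.2.1] using this.2.2.1
  have a5 : ∀ t u, (goodF4.gl K).lc (1 : Fin 4) (goodF4.sm (1 : Fin 4)) (α t u) = φ t ∧
      (goodF4.gl K).lc (2 : Fin 4) (goodF4.sm (2 : Fin 4)) (α t u) = t := fun t u => by
    have h3 : ∀ r : Fin chevF4.nroots, (r : ℕ) ∈ [27, 25, 28, 30] → goodF4.Pos r := by decide +kernel
    rw [a1]
    exact ⟨((goodF4.gl K).lc_word _ (by exact h3)).trans (by simp [show chevF4.simple 1 = 27 from rfl]),
      ((goodF4.gl K).lc_word _ (by exact h3)).trans (by simp [show chevF4.simple 2 = 25 from rfl])⟩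
  have a6 : ∀ t, ∃ y : T.G1, (y : GL _ K) ∈ (goodF4.gl K).US (T.Sp 0) ∧
      ∀ i, T.cl i = 0 → (goodF4.gl K).lc i (goodF4.sm i) y = ![φ t, 0, 0, t] i := fun t =>
    T.exists_orth ho hm ![φ t, 0, 0, t] fun (i : Fin 4) hi => by
      fin_cases i
      exacts [((b0 ..).trans (theta_theta hφ hK t)).symm, absurd hi one_ne_zero, absurd hi one_ne_zero,
        ((b0 ..).trans (pow_one _)).symm]
  obtain ⟨a, ha, ha'⟩ := a6 1
  have h1 : ∀ θ ∈ (goodF4.gl K).A0 T.G1, ∀ c, T.Maps θ c c := fun θ h c => by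
    obtain ⟨d, hd⟩ := T.exists_maps h c
    have hs : √(2 ^ (2 * m + 1) : ℕ) ^ 2 = _ := Real.sq_sqrt (Nat.cast_nonneg _)
    have := (hqF4 hφ hK _ _ hs c).symm.trans ((congrArg _ hd.card_eq).trans (hqF4 hφ hK _ _ hs d))
    rw [T.N_s' foldF4, T.N_s' foldF4, pow_right_inj₀ (by positivity) (by
      rw [Ne, Real.sqrt_eq_one]; exact_mod_cast (Nat.one_lt_two_pow (by omega)).ne')] at this
    rwa [show d = c by revert this; generalize d = d, c = c; revert c d; decide] at hd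
  have h2 : ∀ s : Kˣ, (![s ^ 2 ^ m, 1, 1, s] : Fin 4 → Kˣ) ∈ T.Cf (mF4 φ) := fun s =>
    (mem_CfF4 hφ hK _ _ _).2 ⟨rfl, (one_pow _).symm⟩
  have h3 : ∀ (s : Kˣ) r, ∏ i : Fin chevF4.rank, (![s ^ 2 ^ m, 1, 1, s] : Fin 4 → Kˣ) i ^ chevF4.cartan i r =
      (s ^ 2 ^ m) ^ chevF4.cartan 0 r * s ^ chevF4.cartan 3 r := fun s r =>
    (Fin.prod_univ_four fun i => (![s ^ 2 ^ m, 1, 1, s] : Fin 4 → Kˣ) i ^ chevF4.cartan i r).trans (by simp)
  have h4 : chevF4.cartan 0 (goodF4.sm (3 : Fin 4)) = 0 ∧ chevF4.cartan 3 (goodF4.sm (3 : Fin 4)) = 2 ∧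
    chevF4.cartan 0 27 = -1 ∧ chevF4.cartan 3 27 = 0 ∧ chevF4.cartan 0 25 = 0 ∧ chevF4.cartan 3 25 = -1 ∧
    chevF4.cartan 0 28 = -1 ∧ chevF4.cartan 3 28 = -1 ∧ chevF4.cartan 0 30 = -2 ∧ chevF4.cartan 3 30 = -1 := by
      decide +kernel
  have h5 : ∀ θ ∈ (goodF4.gl K).A0 T.G1, ∃ t u, t ≠ 0 ∧ θ (α 1 0) = α t u := fun θ h => by
    obtain ⟨t, u, e⟩ := (a2 _).1 (((h1 θ h 1).1 _).2 ((a2 _).2 ⟨1, 0, rfl⟩))
    refine ⟨t, u, fun ht => ?_, e⟩
    have c0 : α 0 0 = 1 := by simpa using a3 0 0 0 0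
    have := congrArg θ (a3 1 0 1 0)
    rw [map_mul, e, ht, a3, CharTwo.add_self_eq_zero, CharTwo.add_self_eq_zero, CharTwo.add_self_eq_zero, mul_zero,
      add_zero, c0, eq_comm, map_eq_one_iff _ θ.injective, ← c0] at this
    simpa using a4 this
  have := T.card_out hm hm' (fun σ i t => by simp [b0, hφ]) (center_eq_bot_of_simple (simpleF4 hφ hK hm1)) ![a, α 1 0]
    (fun c => by fin_cases c; exacts [ha, (a2 _).2 ⟨_, _, rfl⟩]) (fun (i : Fin 4) => by
      fin_cases i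
      exacts [(ha' _ rfl).trans (map_one φ), (a5 ..).1.trans (map_one φ), (a5 ..).2, ha' _ rfl]) h1
    (fun θ h (i : Fin 4) => by
      obtain ⟨t, u, ht, e⟩ := h5 θ h
      fin_cases i
      exacts [T.lc_ne_zero hm (i := (0 : Fin 4)) ho (h1 θ h _) ha ((ha' _ rfl).trans (map_one φ)),
        ne_of_eq_of_ne ((congrArg _ (congrArg _ e)).trans (a5 ..).1) ((map_ne_zero φ).2 ht),
        ne_of_eq_of_ne ((congrArg _ (congrArg _ e)).trans (a5 ..).2) ht,
        T.lc_ne_zero hm (i := (3 : Fin 4)) ho (h1 θ h _) ha (ha' _ rfl)])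
    (3 : Fin 4) ho (fun t => (a6 t).imp fun y h => ⟨h.1, h.2 (3 : Fin 4) rfl⟩)
    (fun s => ⟨_, τF4 hφ hK (h2 s), (h3 ..).trans (by simp [h4, zpow_ofNat])⟩) fun θ h h6 h7 => ?_
  · rw [H1F4, Subgroup.card_map_of_injective (goodF4.τ_gl_injective K (pw_inj_F4 _)), mul_comm] at this
    exact Nat.eq_of_mul_eq_mul_left Nat.card_pos this
  refine Twist.eq_one_of_fix h fun c => ?_
  fin_cases c
  · exact h6
  intro y hy
  obtain ⟨t, u, rfl⟩ := (a2 y).1 hy
  obtain ⟨t', c, -, e⟩ := h5 θ h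
  obtain rfl : t' = 1 := ((congrArg _ (congrArg _ e)).trans (a5 ..).2).symm.trans (h7 (2 : Fin 4))
  obtain ⟨y, hy⟩ : ∃ y, φ y ≠ y := by
    obtain ⟨y, hy⟩ := exists_pow_ne_one (K := K)
    refine ⟨y, fun e => hy 1 one_ne_zero ?_ (Units.ext ?_)⟩
    · have := Nat.pow_le_pow_right two_pos (show 3 ≤ 2 * m + 1 by omega)
      simp only [hK]; omega
    · have := theta_theta hφ hK y
      rw [e, e, sq] at this
      simpa using this
  refine sz_rigid (theta_theta hφ hK) a3 a4 (fun s hs => ?_) e hy t u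
  obtain ⟨k, c1, c2⟩ := T.τ_fix (goodF4.gl_R3 K) ho hm hm' (h2 (Units.mk0 s hs)⁻¹) (fun (i : Fin 4) hi => by
    fin_cases i
    exacts [(hi rfl).elim, rfl, rfl, (hi rfl).elim]) h (h1 θ h 0) h6
  refine ⟨k, c1, fun t u => Subtype.ext ?_⟩
  rw [Subgroup.coe_mul, Subgroup.coe_mul, Subgroup.coe_inv, c2, a1, a1]
  refine (Cover.τ_word ..).trans ?_
  simp only [List.map_cons, List.map_nil, h3, h4, map_mul, mul_pow, theta_theta hφ hK]
  simp [← hφ, zpow_ofNat]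
  rw [mul_comm s (_ ^ 2), mul_add, mul_mul_mul_comm (φ s) s]

end CfsgH6
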