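import Cfsg.Agent.H6.Cent
import Cfsg.Agent.H6.FieldTw

/-! Outer automorphism groups of twisted groups: the general counting argument. -/

set_option autoImplicit false

namespace CfsgH6

open Cfsg.Lie

variable {D : ChevalleyDatum}

theorem exists_pow_eq_of_pow {A : Type*} [CommGroup A] [Finite A] [IsCyclic A] {a b : ℕ} (h : Nat.card A = a * b)
    {x : A} (hx : x ^ a = 1) : ∃ y, y ^ b = x := by
  obtain ⟨g, hg⟩ := IsCyclic.exists_ofOrder_eq_natCard (α := A)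
  obtain ⟨k, rfl⟩ := (Submonoid.mem_powers_iff _ _).1 (mem_powers_iff_mem_zpowers.2
    (((Subgroup.card_eq_iff_eq_top _).1 ((Nat.card_zpowers g).trans hg)).ge (Subgroup.mem_top x)))
  rw [← pow_mul, ← orderOf_dvd_iff_pow_eq_one, hg, h, mul_comm k] at hx
  obtain ⟨j, rfl⟩ := Nat.dvd_of_mul_dvd_mul_left (Nat.pos_of_mul_pos_right (h ▸ Nat.card_pos)) hx
  exact ⟨g ^ j, by rw [← pow_mul, mul_comm]⟩

namespace Twist

section
variable {G : Good D} {F : Type*} [Field F] {Γ : Type*} [Group Γ] {C : Cover G F Γ} {ι : Type} (T : Twist C ι)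
  {m : Fin D.rank → F →+* F}

theorem lc_fix (hm : ∀ i t, T.f (G.sm i) t = m i t) {a : Γ} (ha : a ∈ C.U) (hf : a ∈ T.Fix) (i : Fin D.rank) :
    C.lc (T.p i) (G.sm (T.p i)) a = m i (C.lc i (G.sm i) a) := by
  obtain ⟨b, -, h1, h2⟩ := C.US_induction (p := fun a => ∃ b ∈ C.U, (a, b) ∈ T.R ∧
    C.lc (T.p i) (G.sm (T.p i)) b = m i (C.lc i (G.sm i) a)) ⟨1, one_mem _, T.R.one_mem, by simp [C.lc_one]⟩
    (fun g hg r hr t ⟨b, hb, h1, h2⟩ => ⟨_, mul_mem hb (C.x_mem_U (T.pos_ρ.2 hr) _), R_mul h1 (T.R_x r t), by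
      rw [C.lc_U _ _ hb (C.x_mem_U (T.pos_ρ.2 hr) _), C.lc_U _ _ hg (C.x_mem_U hr _), h2, map_add]
      by_cases e : r = G.sm i
      · rw [e, T.ρ_sm, C.lc_sm, C.lc_sm, hm]
      · rw [C.lc_x, C.lc_x, if_neg e, if_neg fun e' => e (T.ρ.injective (e'.trans (T.ρ_sm i).symm)), map_zero]⟩) ha
  rwa [R_unique h1 hf] at h2

theorem eq_one_of_lc {c : ι} (ho : Orth D (T.nodes c)) {a : Γ} (ha : a ∈ C.US (T.Sp c))
    (h : ∀ i, T.cl i = c → C.lc i (G.sm i) a = 0) : a = 1 := by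
  obtain ⟨L, hL, hn⟩ := Cover.exists_list (T.Sp c)
  obtain ⟨t, rfl⟩ := C.exists_prodL (T.nil_Sp c) hL hn ha
  have key : ∀ r ∈ L, ∃ i, T.cl i = c ∧ r = G.sm i := fun r hr => by
    obtain ⟨i, hi, e⟩ := G.inJ_orth ho ((hL r).1 hr).2
    exact ⟨i, hi, e.resolve_right fun e => G.not_pos_sm_rev i (e ▸ ((hL r).1 hr).1)⟩
  have h1 : ∀ j, G.fn 1 (G.sm j) = 1 := fun j => by simp [Good.fn, Good.fv, G.vec_sm]
  rw [C.prodL_congr (t' := 0) fun r hr => ?_, C.prodL_zero]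
  obtain ⟨i, hi, rfl⟩ := key r hr
  have := (C.lc_prodL (T.nil_Sp c) i (r := G.sm i) (by rw [h1]; exact one_pos) (fun s hs => (hL s).1 hs) hn (t := 0)
    (t' := t) fun s hs e => by
      obtain ⟨j, -, rfl⟩ := key s hs
      rw [h1, h1] at e; omega).2
  rw [C.prodL_zero, inv_one, one_mul, h i hi, if_pos hr] at this
  simpa [G.cov_sm] using this.symm

theorem eq_of_lc (hm : ∀ i t, T.f (G.sm i) t = m i t) {i : Fin D.rank} (ho : Orth D (T.nodes (T.cl i))) {a b : T.G1}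
    (ha : (a : Γ) ∈ C.US (T.Sp (T.cl i))) (hb : (b : Γ) ∈ C.US (T.Sp (T.cl i)))
    (h : C.lc i (G.sm i) a = C.lc i (G.sm i) b) : a = b := by
  have h1 := T.Sp_le_U _ (mul_mem ha (inv_mem hb))
  have h2 : C.lc i (G.sm i) (a * (b : Γ)⁻¹) = 0 := by
    have := C.lc_U i i h1 (T.Sp_le_U _ hb)
    rw [inv_mul_cancel_right, h] at this
    exact add_eq_right.1 this.symm
  refine Subtype.ext (mul_inv_eq_one.1 (T.eq_one_of_lc ho (mul_mem ha (inv_mem hb)) fun j hj => ?_))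
  obtain ⟨k, rfl⟩ := T.cl_trans i j hj.symm
  clear hj
  induction k with
  | zero => exact h2
  | succ k ih =>
    rw [pow_succ', Equiv.Perm.mul_apply, T.lc_fix hm h1 (T.G1_le_Fix (mul_mem a.2 (inv_mem b.2))), ih, map_zero]

theorem τ_mem_of (h3 : C.R3) {c : ι} (ho : Orth D (T.nodes c)) (hm : ∀ i t, T.f (G.sm i) t = m i t)
    (hm' : ∀ i t, T.f (G.sm i).rev t = m i t) {d : Fin D.rank → Fˣ} (hd : d ∈ T.Cf m) (hs : ∀ i, T.cl i ≠ c → d i = 1)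
    {M : Subgroup Γ} (h1 : ∀ a ∈ C.US (T.Sp c), a ∈ T.Fix → a ∈ M) (h2 : ∀ a ∈ C.US (T.Sn c), a ∈ T.Fix → a ∈ M) :
    h3.τ d ∈ M := by
  classical
  obtain ⟨L, hL, hn⟩ : ∃ L : List (Fin D.rank), (∀ i, i ∈ L ↔ T.cl i = c) ∧ L.Nodup :=
    ⟨(Finset.univ.filter fun i => T.cl i = c).toList, by simp, Finset.nodup_toList _⟩
  have h0 : d = ∏ i ∈ L.toFinset, Pi.mulSingle i (d i) :=
    (Finset.univ_prod_mulSingle d).symm.trans (Finset.prod_subset (Finset.subset_univ _) fun i _ hi => by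
      rw [hs i (by simpa [hL] using hi), Pi.mulSingle_one]).symm
  have h2 : ∀ t : Fin D.rank → F, (∀ i, t (T.p i) = m i (t i)) → (L.map fun i => C.n (G.sm i) (t i)).prod ∈ M := by
    intro t ht
    have h4 : (L.map fun i => C.x (G.sm i) (t i)).prod ∈ M := h1 _ (Subgroup.list_prod_mem _ fun g hg => by
        obtain ⟨i, hi, rfl⟩ := List.mem_map.1 hg
        exact C.x_mem (S := T.Sp c) ⟨G.pos_sm i, G.inJ_sm.2 ((hL i).1 hi)⟩ _)
      (T.fix_orth ho hL hn (Or.inl rfl) fun i _ => by rw [hm, ht])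
    have h5 : (L.map fun i => C.x (G.sm i).rev (-(t i)⁻¹)).prod ∈ M := h2 _ (Subgroup.list_prod_mem _ fun g hg => by
        obtain ⟨i, hi, rfl⟩ := List.mem_map.1 hg
        exact C.x_mem (S := T.Sn c) ⟨G.not_pos_sm_rev i, G.inJ_rev.2 (G.inJ_sm.2 ((hL i).1 hi))⟩ _)
      (T.fix_orth ho hL hn (Or.inr rfl) (t := fun i => -(t i)⁻¹) fun i _ => by simp [hm', ht])
    have a1 := fun i => x_e_mem (C := C) (Or.inl rfl) i
    have a2 := fun i => x_e_mem (C := C) (Or.inr rfl) i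
    simp only [Cover.n]
    rw [prod_map_mul_of_commute _ _ _ (T.pairwise_orth ho hL hn (fun i => a1 i _)
      fun i => mul_mem (a1 i _) (a2 i _)), prod_map_mul_of_commute _ _ _ (T.pairwise_orth ho hL hn
        (fun i => a2 i _) fun i => a1 i _)]
    exact mul_mem (mul_mem h4 h5) h4
  rw [h0, List.prod_toFinset _ hn, map_list_prod, List.map_map]
  simp only [Function.comp_def, h3.τ_single, Cover.h]
  have a := fun i t => C.n_mem (S := {G.sm i, (G.sm i).rev}) (r := G.sm i) (by simp) (by simp) t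
  rw [prod_map_mul_of_commute _ _ _ (T.pairwise_orth ho hL hn (fun i => a i _) fun i => a i _)]
  exact mul_mem (h2 _ hd) (h2 (fun _ => -1) (by simp))

theorem τ_fix (h3 : C.R3) {c : ι} (ho : Orth D (T.nodes c)) (hm : ∀ i t, T.f (G.sm i) t = m i t)
    (hm' : ∀ i t, T.f (G.sm i).rev t = m i t) {d : Fin D.rank → Fˣ} (hd : d ∈ T.Cf m) (hs : ∀ i, T.cl i ≠ c → d i = 1)
    {θ : MulAut T.G1} (h0 : θ ∈ C.A0 T.G1) (hc : T.Maps θ c c)
    (h : ∀ y : T.G1, (y : Γ) ∈ C.US (T.Sp c) → θ y = y) : ∃ k : T.G1, θ k = k ∧ (k : Γ) = h3.τ d :=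
  T.τ_mem_of h3 ho hm hm' hd hs (M := (θ.toMonoidHom.eqLocus (MonoidHom.id _)).map T.G1.subtype)
    (fun a ha hf => ⟨⟨a, T.mem_G1_of_Sp ha hf⟩, h _ ha, rfl⟩)
    fun a ha hf => ⟨⟨a, T.mem_G1_of_Sn ha hf⟩, hc.fix_Sn h0 h ha, rfl⟩

theorem fix_of (h3 : C.R3) {c : ι} (ho : Orth D (T.nodes c)) (hm : ∀ i t, T.f (G.sm i) t = m i t)
    (hm' : ∀ i t, T.f (G.sm i).rev t = m i t) {θ : MulAut T.G1} (h0 : θ ∈ C.A0 T.G1) (hc : ∀ c, T.Maps θ c c)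
    (h : ∀ y : T.G1, (y : Γ) ∈ C.US (T.Sp c) → θ y = y) (j : Fin D.rank) (ho' : Orth D (T.nodes (T.cl j))) {a : T.G1}
    (ha : (a : Γ) ∈ C.US (T.Sp (T.cl j))) (h1 : C.lc j (G.sm j) a = 1) (h2 : C.lc j (G.sm j) (θ a) = 1)
    (h4 : ∀ t : Fˣ, (T.p j = j → m j t = t) → ∃ d ∈ T.Cf m, (∀ i, T.cl i ≠ c → d i = 1) ∧
      ∏ i, d i ^ D.cartan i (G.sm j) = t) (y : T.G1) (hy : (y : Γ) ∈ C.US (T.Sp (T.cl j))) : θ y = y := by
  by_cases e : C.lc j (G.sm j) y = 0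
  · rw [T.eq_of_lc hm ho' (b := 1) hy (one_mem _) (e.trans (C.lc_one _ _).symm), map_one]
  obtain ⟨d, hd, hs, h5⟩ := h4 (Units.mk0 _ e) fun e' => by
    have := T.lc_fix hm (T.Sp_le_U _ hy) (T.G1_le_Fix y.2) j
    rw [e'] at this
    exact this.symm
  obtain ⟨k, h6, h7⟩ := T.τ_fix h3 ho hm hm' hd hs h0 (hc c) h
  have h8 : y = k * a * k⁻¹ := T.eq_of_lc hm ho' hy ((C.mon_HH (h7 ▸ h3.τ_mem d)).conj_mem (fun _ h => h) ha) (by
    rw [Subgroup.coe_mul, Subgroup.coe_mul, Subgroup.coe_inv, h7, C.lc_conj (h3.π_τ d), G.chr_pw', h5, h1, mul_one]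
    rfl)
  rw [h8, map_mul, map_mul, map_inv, h6, T.eq_of_lc hm ho' (((hc _).1 a).2 ha) ha (h2.trans h1.symm)]

variable {T} in
theorem Maps.card_eq {θ : MulAut T.G1} {c d : ι} (h : T.Maps θ c d) :
    Nat.card ↥(C.US (T.Sp c) ⊓ T.Fix) = Nat.card ↥(C.US (T.Sp d) ⊓ T.Fix) := by
  have key : ∀ c, Nat.card ↥(C.US (T.Sp c) ⊓ T.Fix) = Nat.card {a : T.G1 // (a : Γ) ∈ C.US (T.Sp c)} := fun c =>
    Nat.card_congr ⟨fun a => ⟨⟨a, T.mem_G1_of_Sp a.2.1 a.2.2⟩, a.2.1⟩,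
      fun a => ⟨a.1, Subgroup.mem_inf.2 ⟨a.2, T.G1_le_Fix a.1.2⟩⟩, fun _ => rfl, fun _ => rfl⟩
  rw [key, key]
  exact Nat.card_congr (θ.toEquiv.subtypeEquiv fun a => (h.1 a).symm)

end

variable {G : Good D} {F : Type*} [Field F] [Finite F] {ι : Type} (T : Twist (G.gl F) ι) {m : Fin D.rank → F →+* F}

theorem exists_aut (ψ : GL D.Idx F →* GL D.Idx F) (hi : Function.Injective ψ) (g : Fin D.nroots → F → F)
    (hψ : ∀ r t, ψ ((G.gl F).x r t) = (G.gl F).x r (g r t))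
    (h1 : ∀ i t, T.f (G.sm i) (g (G.sm i) t) = g (G.sm (T.p i)) (T.f (G.sm i) t))
    (h2 : ∀ i t, T.f (G.sm i).rev (g (G.sm i).rev t) = g (G.sm (T.p i)).rev (T.f (G.sm i).rev t)) :
    ∃ θ ∈ (G.gl F).A0 T.G1, ∀ a, (θ a : GL D.Idx F) = ψ a := by
  have a1 : ∀ {S a}, a ∈ (G.gl F).US S → ψ a ∈ (G.gl F).US S := fun {S _} h =>
    ((G.gl F).US_le (K := ((G.gl F).US S).comap ψ)).2 (fun r hr t => by
      rw [Subgroup.mem_comap, hψ]; exact (G.gl F).x_mem hr _) h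
  have a2 : ∀ {a}, a ∈ T.Fix → ψ a ∈ T.Fix := fun h => by
    obtain ⟨⟨a, b⟩, ⟨h3, h4⟩, rfl⟩ := (G.gl F).Gr_le_of_pm (K := (T.R ⊓ T.R.comap (ψ.prodMap ψ)).map (MonoidHom.fst _ _))
      (fun i t => ⟨_, Subgroup.mem_inf.2 ⟨T.R_x _ t, by
        simpa [hψ, T.ρ_sm, ← h1] using T.R_x (G.sm i) (g _ t)⟩, rfl⟩)
      (fun i t => ⟨_, Subgroup.mem_inf.2 ⟨T.R_x _ t, by
        simpa [hψ, T.ρ_sm, T.ρ_rev, ← h2] using T.R_x (G.sm i).rev (g _ t)⟩, rfl⟩) (T.Fix_le_Gr h)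
    obtain rfl : b = a := R_unique h3 h
    exact h4
  have a3 : T.G1 ≤ T.G1.comap ψ := T.G1_le (fun c a h => T.mem_G1_of_Sp (a1 h.1) (a2 h.2))
    fun c a h => T.mem_G1_of_Sn (a1 h.1) (a2 h.2)
  exact ⟨MulEquiv.ofBijective ((ψ.comp T.G1.subtype).codRestrict T.G1 fun g => a3 g.2)
    (Finite.injective_iff_bijective.1 fun a b e => Subtype.ext (hi (congrArg Subtype.val e))),
    ⟨pres_of_le fun _ => a1, pres_of_le fun _ => a1⟩, fun _ => rfl⟩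

theorem exists_diag_field (hm : ∀ i t, T.f (G.sm i) t = m i t) (hm' : ∀ i t, T.f (G.sm i).rev t = m i t)
    (hσ : ∀ (σ : RingAut F) i t, m i (σ t) = σ (m i t)) (p : T.Cf m × RingAut F) :
    ∃ θ ∈ (G.gl F).A0 T.G1, ∀ (a : T.G1) i, (G.gl F).lc i (G.sm i) (θ a) = p.1.1 i * p.2 ((G.gl F).lc i (G.sm i) a) := by
  obtain ⟨θ, h1, h2⟩ := T.exists_aut ((MulAut.conj (G.hdU p.1.1)).toMonoidHom.comp
    (Matrix.GeneralLinearGroup.map (p.2 : F →+* F))) ((MulAut.conj _).injective.comp fun a b e =>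
      Units.ext (Matrix.map_injective p.2.injective (congrArg Units.val e)))
    (fun r t => Good.chr p.1.1 (G.vec r) * p.2 t) (fun r t => by simp [G.map_gl_x, G.hdU_conj])
    (fun i t => by simp [hm, G.chr_sm, p.1.2 i, hσ]) fun i t => by simp [hm', G.chr_rev, G.chr_sm, p.1.2 i, hσ]
  refine ⟨θ, h1, fun a i => ?_⟩
  rw [h2]
  exact ((G.gl F).lc_conj (G.hdU_val _) ..).trans (by rw [G.chr_sm]; rfl)

theorem card_out (hm : ∀ i t, T.f (G.sm i) t = m i t) (hm' : ∀ i t, T.f (G.sm i).rev t = m i t)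
    (hσ : ∀ (σ : RingAut F) i t, m i (σ t) = σ (m i t)) (hz : Subgroup.center T.G1 = ⊥) (a : ι → T.G1)
    (ha : ∀ c, (a c : GL D.Idx F) ∈ (G.gl F).US (T.Sp c)) (ha' : ∀ i, (G.gl F).lc i (G.sm i) (a (T.cl i)) = 1)
    (h1 : ∀ θ ∈ (G.gl F).A0 T.G1, ∀ c, T.Maps θ c c)
    (h2 : ∀ θ ∈ (G.gl F).A0 T.G1, ∀ i, (G.gl F).lc i (G.sm i) (θ (a (T.cl i))) ≠ 0)
    (j : Fin D.rank) (ho : Orth D (T.nodes (T.cl j)))
    (hs : ∀ t, ∃ y : T.G1, (y : GL D.Idx F) ∈ (G.gl F).US (T.Sp (T.cl j)) ∧ (G.gl F).lc j (G.sm j) y = t)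
    (hh : ∀ s : Fˣ, ∃ d, (G.gl_R3 F).τ d ∈ T.G1 ∧ ∏ i, d i ^ D.cartan i (G.sm j) = s ^ 2)
    (hr : ∀ θ ∈ (G.gl F).A0 T.G1, (∀ y : T.G1, (y : GL D.Idx F) ∈ (G.gl F).US (T.Sp (T.cl j)) → θ y = y) →
      (∀ i, (G.gl F).lc i (G.sm i) (θ (a (T.cl i))) = 1) → θ = 1) :
    Nat.card (Cfsg.Out T.G1) * Nat.card ↥((G.gl F).HH ⊓ T.G1) = Nat.card (T.Cf m) * Nat.card (RingAut F) := by
  rw [← card_A0 rfl (G.gl_R3 F) hz, ← Nat.card_prod]
  choose Θ t1 t2 using T.exists_diag_field hm hm' hσ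
  choose e e1 e2 using hs
  refine (Nat.card_congr (Equiv.ofBijective (fun p => ⟨Θ p, t1 p⟩) ⟨fun p p' h => ?_, fun ⟨θ, h⟩ => ?_⟩)).symm
  · have h4 := fun y i => (t2 p y i).symm.trans (Subtype.mk.inj h ▸ t2 p' y i)
    have h3 : p.1 = p'.1 := Subtype.ext (funext fun i => Units.ext (by simpa [ha'] using h4 (a (T.cl i)) i))
    refine Prod.ext h3 (RingEquiv.ext fun t => ?_)
    have := h4 (e t) j
    rwa [e2, h3, Units.mul_right_inj] at this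
  have h3 : e 1 = a (T.cl j) := T.eq_of_lc hm ho (e1 _) (ha _) ((e2 _).trans (ha' _).symm)
  have h4 := fun y hy => T.Sp_le_U _ (((h1 θ h (T.cl j)).1 y).2 hy)
  obtain ⟨φ, hφ⟩ := exists_semilinear (fun t => (G.gl F).lc j (G.sm j) (θ (e t))) (fun s t => by
    rw [T.eq_of_lc hm ho (e1 (s + t)) (b := e s * e t) (mul_mem (e1 s) (e1 t)) (by
      rw [Subgroup.coe_mul, (G.gl F).lc_U _ _ (T.Sp_le_U _ (e1 s)) (T.Sp_le_U _ (e1 t)), e2, e2, e2]), map_mul,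
      Subgroup.coe_mul, (G.gl F).lc_U _ _ (h4 _ (e1 s)) (h4 _ (e1 t))]) (h3 ▸ h2 θ h j) fun s hs => by
    obtain ⟨d, hd, h5⟩ := hh (Units.mk0 s hs)
    obtain ⟨-, c, hc⟩ := (G.gl F).exists_hd ((pres_HH h ⟨_, hd⟩).2 ((G.gl_R3 F).τ_mem d))
    refine ⟨Good.chr c (G.vec (G.sm j)), fun t => ?_⟩
    rw [T.eq_of_lc hm ho (e1 (s ^ 2 * t)) (b := ⟨_, hd⟩ * e t * (⟨_, hd⟩ : T.G1)⁻¹)
      (((G.gl F).mon_HH ((G.gl_R3 F).τ_mem d)).conj_mem (fun _ h => h) (e1 t)) (by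
        rw [Subgroup.coe_mul, Subgroup.coe_mul, Subgroup.coe_inv, (G.gl F).lc_conj ((G.gl_R3 F).π_τ d), G.chr_pw', h5,
          e2, e2]; rfl), map_mul, map_mul, map_inv]
    exact (G.gl F).lc_conj hc ..
  have h5 : (fun i => Units.mk0 _ (h2 θ h i)) ∈ T.Cf m := fun i => by
    simp only [Units.val_mk0, T.cl_p]
    exact T.lc_fix hm (T.Sp_le_U _ (((h1 θ h _).1 _).2 (ha _))) (T.G1_le_Fix (θ _).2) i
  refine ⟨(⟨_, h5⟩, RingEquiv.ofBijective φ (Finite.injective_iff_bijective.1 φ.injective)),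
    Subtype.ext (inv_mul_eq_one.1 (hr _ (mul_mem (inv_mem (t1 _)) h) (fun y hy => ?_) fun i => ?_))⟩
  · rw [MulAut.mul_apply, MulAut.inv_apply, MulEquiv.symm_apply_eq]
    refine T.eq_of_lc hm ho (((h1 θ h _).1 y).2 hy) (((h1 _ (t1 _) _).1 y).2 hy) ?_
    rw [t2, ← T.eq_of_lc hm ho (e1 _) hy (e2 _), hφ, e2, h3]
    rfl
  · have := t2 (⟨_, h5⟩, RingEquiv.ofBijective φ (Finite.injective_iff_bijective.1 φ.injective))
      (((Θ (⟨_, h5⟩, RingEquiv.ofBijective φ (Finite.injective_iff_bijective.1 φ.injective)))⁻¹ * θ) (a (T.cl i))) i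
    rw [MulAut.mul_apply, MulAut.apply_inv_self] at this
    exact φ.injective (mul_left_cancel₀ (h2 θ h i) (this.symm.trans (by rw [map_one, mul_one])))

end Twist

end CfsgH6
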