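import Cfsg.Agent.H6.OutTw
import Cfsg.Agent.H6.TwD4
import Cfsg.Agent.H6.TwE6b
import Cfsg.Agent.H6.TwF4

/-! Outer automorphism groups of the twisted groups of types D4, E6 and F4. -/

set_option autoImplicit false

namespace CfsgH6

open Cfsg.Lie

set_option maxRecDepth 100000

variable {D : ChevalleyDatum}

theorem center_eq_bot_of_simple {Γ : Type*} [Group Γ] (h : IsSimpleGroup Γ ∧ ¬ IsMulCommutative Γ) :
    Subgroup.center Γ = ⊥ :=
  (h.1.eq_bot_or_eq_top_of_normal _ inferInstance).resolve_right fun e =>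
    h.2 ⟨⟨fun a b => Subgroup.mem_center_iff.1 (e.ge (Subgroup.mem_top b)) a⟩⟩

namespace Twist

section
variable {G : Good D} {F : Type*} [Field F] {Γ : Type*} [Group Γ] {C : Cover G F Γ} {ι : Type} (T : Twist C ι)
  {m : Fin D.rank → F →+* F}

theorem exists_orth {c : ι} (ho : Orth D (T.nodes c)) (hm : ∀ i t, T.f (G.sm i) t = m i t) (t : Fin D.rank → F)
    (ht : ∀ i, T.cl i = c → t (T.p i) = m i (t i)) :
    ∃ y : T.G1, (y : Γ) ∈ C.US (T.Sp c) ∧ ∀ i, T.cl i = c → C.lc i (G.sm i) y = t i := by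
  classical
  obtain ⟨L, hL, hn⟩ : ∃ L : List (Fin D.rank), (∀ i, i ∈ L ↔ T.cl i = c) ∧ L.Nodup :=
    ⟨(Finset.univ.filter fun i => T.cl i = c).toList, by simp, Finset.nodup_toList _⟩
  have h1 : (L.map fun i => C.x (G.sm i) (t i)).prod ∈ C.US (T.Sp c) := Subgroup.list_prod_mem _ fun g hg => by
    obtain ⟨i, hi, rfl⟩ := List.mem_map.1 hg
    exact C.x_mem (S := T.Sp c) ⟨G.pos_sm i, G.inJ_sm.2 ((hL i).1 hi)⟩ _
  refine ⟨⟨_, T.mem_G1_of_Sp h1 (T.fix_orth ho hL hn (Or.inl rfl) fun i hi => by rw [hm, ht i ((hL i).1 hi)])⟩, h1,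
    fun i hi => ?_⟩
  have : ∀ L : List (Fin D.rank), C.lc i (G.sm i) (L.map fun k => C.x (G.sm k) (t k)).prod =
      (L.map fun k => if k = i then t k else 0).sum := fun L => by
    induction L with
    | nil => exact C.lc_one _ _
    | cons k L ih =>
      rw [List.map_cons, List.prod_cons, C.lc_U _ _ (C.x_mem_U (G.pos_sm _) _) (Subgroup.list_prod_mem _ fun g hg => by
        obtain ⟨i, -, rfl⟩ := List.mem_map.1 hg
        exact C.x_mem_U (G.pos_sm _) _), ih, List.map_cons, List.sum_cons]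
      by_cases e : k = i
      · rw [e, C.lc_sm, if_pos rfl]
      · rw [C.lc_x, if_neg (G.sm_inj.ne e), if_neg e]
  rw [this, ← List.sum_toFinset _ hn]
  simp [hL, hi]

theorem lc_ne_zero (hm : ∀ i t, T.f (G.sm i) t = m i t) {i : Fin D.rank} (ho : Orth D (T.nodes (T.cl i)))
    {θ : MulAut T.G1} (h : T.Maps θ (T.cl i) (T.cl i)) {a : T.G1} (ha : (a : Γ) ∈ C.US (T.Sp (T.cl i)))
    (h1 : C.lc i (G.sm i) a = 1) : C.lc i (G.sm i) (θ a) ≠ 0 := fun e => by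
  rw [(map_eq_one_iff _ θ.injective).1 (T.eq_of_lc hm ho (b := 1) ((h.1 a).2 ha) (one_mem _)
    (e.trans (C.lc_one _ _).symm))] at h1
  exact zero_ne_one ((C.lc_one _ _).symm.trans h1)

end

end Twist

theorem exists_norm {K : Type*} [Field K] [Fintype K] {q k : ℕ} (hK : Fintype.card K = q ^ k) {t : Kˣ}
    (ht : (t : K) ^ q = t) : ∃ s : Kˣ, s ^ (∑ i ∈ Finset.range k, q ^ i) = t := by
  have hq : 1 ≤ q := Nat.pos_of_ne_zero fun e => t.ne_zero (by
    have := Fintype.one_lt_card (α := K)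
    rw [hK, e] at this
    cases k <;> simp at this)
  obtain ⟨q, rfl⟩ := Nat.exists_eq_add_of_le' hq
  refine exists_pow_eq_of_pow (a := q) (by
    rw [Nat.card_units, Nat.card_eq_fintype_card, hK, mul_comm, ← geom_sum_mul_add, Nat.add_sub_cancel]) ?_
  rwa [← Units.val_pow_eq_pow_val, Units.val_inj, pow_succ, mul_eq_right] at ht

theorem prodD4 {A : Type*} [CommGroup A] (d : Fin 4 → A) (j : Fin 4) :
    ∏ i : Fin chevD4.rank, d i ^ chevD4.cartan i (goodD4.sm j) =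
      ![d 0 ^ 2 * (d 1)⁻¹, (d 0)⁻¹ * d 1 ^ 2 * (d 2)⁻¹ * (d 3)⁻¹, (d 1)⁻¹ * d 2 ^ 2, (d 1)⁻¹ * d 3 ^ 2] j := by
  have : ∀ i j : Fin 4, chevD4.cartan i (goodD4.sm j) =
    (!![2, -1, 0, 0; -1, 2, -1, -1; 0, -1, 2, 0; 0, -1, 0, 2] : Matrix (Fin 4) (Fin 4) ℤ) i j := fun i j =>
      (congrArg _ (goodD4.sm_val j)).trans (congrFun₂ cartanM_D4 i j)
  refine (Fin.prod_univ_four fun i => d i ^ chevD4.cartan i (goodD4.sm j)).trans ?_
  simp only [this]
  fin_cases j <;> simp [zpow_ofNat]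

theorem prodE6 {A : Type*} [CommGroup A] (d : Fin 6 → A) (j : Fin 6) :
    ∏ i : Fin chevE6.rank, d i ^ chevE6.cartan i (goodE6.sm j) =
      ![d 0 ^ 2 * (d 2)⁻¹, d 1 ^ 2 * (d 3)⁻¹, (d 0)⁻¹ * d 2 ^ 2 * (d 3)⁻¹, (d 1)⁻¹ * (d 2)⁻¹ * d 3 ^ 2 * (d 4)⁻¹,
        (d 3)⁻¹ * d 4 ^ 2 * (d 5)⁻¹, (d 4)⁻¹ * d 5 ^ 2] j := by
  have : ∀ i j : Fin 6, chevE6.cartan i (goodE6.sm j) = (!![2, 0, -1, 0, 0, 0; 0, 2, 0, -1, 0, 0; -1, 0, 2, -1, 0, 0;
      0, -1, -1, 2, -1, 0; 0, 0, 0, -1, 2, -1; 0, 0, 0, 0, -1, 2] : Matrix (Fin 6) (Fin 6) ℤ) i j := fun i j =>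
    (congrArg _ (goodE6.sm_val j)).trans (congrFun₂ cartanM_E6 i j)
  refine (Fin.prod_univ_six fun i => d i ^ chevE6.cartan i (goodE6.sm j)).trans ?_
  simp only [this]
  fin_cases j <;> simp [zpow_ofNat]

variable {K : Type*} [Field K] [Fintype K] {φ : K →+* K} {q : ℕ} (hφ : ∀ t, φ t = t ^ q)
include hφ

theorem outD4 (hK : Fintype.card K = q ^ 3) : Nat.card (Cfsg.Out (TD4g hφ hK).G1) = Nat.card (RingAut K) := by
  set T := TD4g hφ hK
  have hq : 2 ≤ q := by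
    have := Fintype.one_lt_card (α := K)
    by_contra h
    interval_cases q <;> omega
  have hm := (XD4 φ).f_sm
  have hm' := (XD4 φ).f_sm_rev
  choose a ha ha' using fun c => T.exists_orth (orthD4 c) (m := fun _ => φ) hm 1 fun _ _ => (map_one _).symm
  have h1 : ∀ θ ∈ (goodD4.gl K).A0 T.G1, ∀ c, T.Maps θ c c := fun θ h c => by
    obtain ⟨d, hd⟩ := T.exists_maps h c
    have := hd.card_eq
    rw [hqD4, hqD4, T.N_s' foldD4, T.N_s' foldD4, Nat.pow_right_inj hq] at this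
    rwa [show d = c by revert this; generalize d = d, c = c; revert c d; decide] at hd
  have h2 : ∀ s : Kˣ, (![s, 1, Units.map (φ : K →* K) s, Units.map (φ : K →* K) (Units.map (φ : K →* K) s)] :
    Fin 4 → Kˣ) ∈ T.Cf fun _ => φ := fun s => (mem_CfD4 hφ hK _ _ _).2 ⟨one_pow _, rfl, rfl⟩
  have := T.card_out (m := fun _ => φ) hm hm' (fun σ i t => by simp [hφ]) (center_eq_bot_of_simple (simpleD4 hφ hK)) a ha
    (fun i => ha' _ i rfl) h1 (fun θ h i => T.lc_ne_zero hm (orthD4 _) (h1 θ h _) (ha _) (ha' _ i rfl))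
    (0 : Fin 4) (orthD4 _) (fun t => (T.exists_orth (orthD4 _) (m := fun _ => φ) hm ![t, 0, φ t, φ (φ t)]
      fun (i : Fin 4) _ => by
        fin_cases i
        exacts [rfl, (map_zero _).symm, rfl, (φφD4 hφ hK t).symm]).imp fun y h => ⟨h.1, h.2 (0 : Fin 4) rfl⟩)
    (fun s => ⟨_, τD4 hφ hK _ _ _ (h2 s), (prodD4 ..).trans (by simp)⟩) fun θ h h3 h4 => ?_
  · rw [card_H1D4, card_CfD4, mul_comm] at this
    exact Nat.eq_of_mul_eq_mul_left (Nat.mul_pos (by omega) (by have := Nat.pow_le_pow_left hq 3; omega)) this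
  refine Twist.eq_one_of_fix h fun c => ?_
  fin_cases c
  swap
  · exact h3
  refine T.fix_of (goodD4.gl_R3 K) (orthD4 1) hm hm' h (h1 θ h) h3 (1 : Fin 4) (orthD4 _) (ha _) (ha' _ _ rfl) (h4 _)
    fun t ht => ?_
  obtain ⟨s, rfl⟩ := exists_norm hK ((hφ _).symm.trans (ht rfl))
  refine ⟨_, h2 s⁻¹, fun (i : Fin 4) hi => ?_, (prodD4 ..).trans ?_⟩
  · fin_cases i
    exacts [(hi rfl).elim, rfl, (hi rfl).elim, (hi rfl).elim]
  ext
  simp [hφ, Finset.sum_range_succ, pow_add, sq, pow_mul]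

theorem outE6 (hK : Fintype.card K = q ^ 2) :
    Nat.card (Cfsg.Out (TE6g hφ hK).G1) = Nat.gcd 3 (q + 1) * Nat.card (RingAut K) := by
  set T := TE6g hφ hK
  have hq : 2 ≤ q := by
    have := Fintype.one_lt_card (α := K)
    by_contra h
    interval_cases q <;> omega
  have hm := (XE6 φ).f_sm
  have hm' := (XE6 φ).f_sm_rev
  choose a ha ha' using fun c => T.exists_orth (orthE6 c) (m := fun _ => φ) hm 1 fun _ _ => (map_one _).symm
  have h1 : ∀ θ ∈ (goodE6.gl K).A0 T.G1, ∀ c, T.Maps θ c c := fun θ h c => by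
    choose d hd using T.exists_maps h
    have h2 : ∀ c, (cdE6 c).2.2 = (cdE6 (d c)).2.2 := fun c => by
      have := (hd c).card_eq
      rwa [hqE6, hqE6, T.N_s' foldE6, T.N_s' foldE6, Nat.pow_right_inj hq] at this
    have h3 := fun c c' => (hd c).order h (hd c')
    simp only [twordE6 T rfl] at h3
    have : ∀ d : Fin 4 → Fin 4, (∀ c, (cdE6 c).2.2 = (cdE6 (d c)).2.2) → (∀ c c', twmE6 (d c) (d c') = twmE6 c c') →
      ∀ c, d c = c := by decide +kernel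
    simpa only [this d h2 h3] using hd c
  have h2 : ∀ s : Kˣ, (![1, 1, s, 1, Units.map (φ : K →* K) s, 1] : Fin 6 → Kˣ) ∈ T.Cf fun _ => φ := fun s =>
    (mem_CfE6 hφ hK _ _ _).2 ⟨one_pow _, one_pow _, rfl, (map_one _).symm⟩
  have := T.card_out (m := fun _ => φ) hm hm' (fun σ i t => by simp [hφ]) (center_eq_bot_of_simple (simpleE6 hφ hK)) a ha
    (fun i => ha' _ i rfl) h1 (fun θ h i => T.lc_ne_zero hm (orthE6 _) (h1 θ h _) (ha _) (ha' _ i rfl))
    (2 : Fin 6) (orthE6 _) (fun t => (T.exists_orth (orthE6 _) (m := fun _ => φ) hm ![0, 0, t, 0, φ t, 0]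
      fun (i : Fin 6) _ => by
        fin_cases i
        exacts [(map_zero _).symm, (map_zero _).symm, rfl, (map_zero _).symm, (φφE6 hφ hK t).symm,
          (map_zero _).symm]).imp fun y h => ⟨h.1, h.2 (2 : Fin 6) rfl⟩)
    (fun s => ⟨_, τE6 hφ hK _ _ _ (h2 s), (prodE6 ..).trans (by simp)⟩) fun θ h h3 h4 => ?_
  · rw [card_CfE6, ← card_H1E6 hφ hK, mul_right_comm] at this
    exact Nat.eq_of_mul_eq_mul_right Nat.card_pos this
  have h5 : ∀ s (i : Fin 6), T.cl i ≠ 2 → (![1, 1, s, 1, Units.map (φ : K →* K) s, 1] : Fin 6 → Kˣ) i = 1 :=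
    fun s i hi => by
      fin_cases i
      exacts [rfl, rfl, (hi rfl).elim, rfl, (hi rfl).elim, rfl]
  have h6 := T.fix_of (goodE6.gl_R3 K) (orthE6 2) hm hm' h (h1 θ h) h3 (3 : Fin 6) (orthE6 _) (ha _) (ha' _ _ rfl) (h4 _)
    fun t ht => by
      obtain ⟨s, rfl⟩ := exists_norm hK ((hφ _).symm.trans (ht rfl))
      exact ⟨_, h2 s⁻¹, h5 _, (prodE6 ..).trans (by ext; simp [hφ, Finset.sum_range_succ, pow_add])⟩
  refine Twist.eq_one_of_fix h fun c => ?_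
  fin_cases c
  · refine T.fix_of (goodE6.gl_R3 K) (orthE6 1) hm hm' h (h1 θ h) h6 (1 : Fin 6) (orthE6 _) (ha _) (ha' _ _ rfl) (h4 _)
      fun t ht => ⟨![1, 1, 1, t⁻¹, 1, 1], (mem_CfE6 hφ hK _ _ _).2 ⟨one_pow _, ?_, (map_one _).symm, (map_one _).symm⟩,
        fun (i : Fin 6) hi => ?_, (prodE6 ..).trans (by simp)⟩
    · simpa using (hφ _).symm.trans (ht rfl)
    · fin_cases i
      exacts [rfl, rfl, rfl, (hi rfl).elim, rfl, rfl]
  · exact h6
  · exact h3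
  · exact T.fix_of (goodE6.gl_R3 K) (orthE6 2) hm hm' h (h1 θ h) h3 (0 : Fin 6) (orthE6 _) (ha _) (ha' _ _ rfl) (h4 _)
      fun t _ => ⟨_, h2 t⁻¹, h5 _, (prodE6 ..).trans (by simp)⟩

end CfsgH6
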