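import Cfsg.Agent.H6.Ree6
import Cfsg.Agent.H6.Wt

/-! The Schur multiplier of the small Ree groups. -/

set_option autoImplicit false

namespace CfsgH6.Ree

open CfsgH2 Subgroup Cfsg
open scoped commutatorElement

universe u

variable {R : Type u} [Group R] {K : Type*} [Field K] [Fintype K] {m : ℕ} (X : Ree R K m)

local notation "r" => 3 ^ (m + 1)

theorem w_mul0 (t u v u' v' : K) : X.w t u v * X.w 0 u' v' = X.w t (u + u') (v + v') := by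
  simp [X.w_mul]

theorem w_inv0 (u v : K) : (X.w 0 u v)⁻¹ = X.w 0 (-u) (-v) := by simp [X.w_inv]

/-- the second term of the central series -/
def U2 : Subgroup R where
  carrier := {g | ∃ u v, g = X.w 0 u v}
  one_mem' := ⟨0, 0, X.w_zero.symm⟩
  mul_mem' := by rintro _ _ ⟨u, v, rfl⟩ ⟨u', v', rfl⟩; exact ⟨_, _, X.w_mul0 ..⟩
  inv_mem' := by rintro _ ⟨u, v, rfl⟩; exact ⟨_, _, X.w_inv0 ..⟩

/-- the centre of `U` -/
def W : Subgroup R where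
  carrier := {g | ∃ v, g = X.w 0 0 v}
  one_mem' := ⟨0, X.w_zero.symm⟩
  mul_mem' := by rintro _ _ ⟨v, rfl⟩ ⟨v', rfl⟩; exact ⟨_, by rw [X.w_mul0, add_zero]⟩
  inv_mem' := by rintro _ ⟨v, rfl⟩; exact ⟨_, by rw [X.w_inv0, neg_zero]⟩

theorem W_le : X.W ≤ X.U2 := fun _ ⟨_, h⟩ => ⟨_, _, h⟩

theorem U2_le : X.U2 ≤ X.U := fun _ ⟨_, _, h⟩ => ⟨_, _, _, h⟩

theorem conj_w0 (t u v u' v' : K) : X.w t u v * X.w 0 u' v' * (X.w t u v)⁻¹ = X.w 0 u' (v' + u' * t) := by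
  rw [X.w_mul0, X.w_inv, X.w_mul, neg_r]
  congr 1
  exacts [by ring, by ring, by linear_combination t ^ 2 * t ^ r * X.three]

theorem comm_U {a b : R} (ha : a ∈ X.U) (hb : b ∈ X.U) : ⁅a, b⁆ ∈ X.U2 := by
  obtain ⟨t, u, v, rfl⟩ := ha
  obtain ⟨t', u', v', rfl⟩ := hb
  simp only [commutatorElement_def, X.w_inv, X.w_mul]
  exact ⟨_, _, by congr 1; ring⟩

theorem comm_w0 (t u v u' v' : K) : ⁅X.w t u v, X.w 0 u' v'⁆ = X.w 0 0 (u' * t) := by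
  rw [commutatorElement_def, X.conj_w0]
  simp [X.w_inv0, X.w_mul0]

theorem comm_hw (a : Kˣ) (u v : K) : ⁅X.h a, X.w 0 u v⁆ = X.w 0 ((a ^ r / a - 1) * u) ((a - 1) * v) := by
  simp [commutatorElement_def, X.h_w, X.w_inv0, X.w_mul0, sub_mul, sub_eq_add_neg, add_mul]

theorem norm_of {M : Subgroup R} (h1 : ∀ t u v, ∀ y ∈ M, X.w t u v * y * (X.w t u v)⁻¹ ∈ M)
    (h2 : ∀ a, ∀ y ∈ M, X.h a * y * (X.h a)⁻¹ ∈ M) : X.B ≤ N[M] :=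
  haveI := X.finite
  sup_le (fun _ ⟨t, u, v, e⟩ => e ▸ mem_norm_of_conj (h1 t u v)) fun _ ⟨a, e⟩ => e ▸ mem_norm_of_conj (h2 a)

theorem norm_W : X.B ≤ N[X.W] :=
  X.norm_of (by rintro _ _ _ _ ⟨_, rfl⟩; exact ⟨_, X.conj_w0 ..⟩)
    (by rintro _ _ ⟨_, rfl⟩; exact ⟨_, by rw [X.h_w, mul_zero, mul_zero]⟩)

theorem norm_U2 : X.B ≤ N[X.U2] :=
  X.norm_of (by rintro _ _ _ _ ⟨_, _, rfl⟩; exact ⟨_, _, X.conj_w0 ..⟩)
    (by rintro _ _ ⟨_, _, rfl⟩; exact ⟨_, _, by rw [X.h_w, mul_zero]⟩)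

theorem e1_add (x y : K) : ∃ g ∈ X.U2, X.w (x + y) 0 0 = X.w x 0 0 * X.w y 0 0 * g :=
  ⟨_, ⟨_, _, rfl⟩, by rw [X.w_mul, X.w_mul0, add_neg_cancel, add_neg_cancel]⟩

include X

theorem exists_gen (hm : 1 ≤ m) : ∃ a : K, a ≠ 0 ∧ a ≠ 1 ∧ a ≠ -1 := by
  classical
  obtain ⟨a, -, h⟩ := Finset.exists_mem_notMem_of_card_lt_card (s := {0, 1, -1}) (t := Finset.univ (α := K))
    (Finset.card_le_three.trans_lt (by rw [Finset.card_univ, X.hK]; exact lt_self_pow₀ (by omega) (by omega)))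
  exact ⟨a, by simpa [not_or] using h⟩

theorem exists_α {c : K} (hc : c ≠ 0) : ∃ a : Kˣ, (a : K) ^ 2 / a ^ r = c :=
  ⟨Units.mk0 _ (mul_ne_zero (pow_ne_zero 2 hc) (pow_ne_zero r hc)), by
    rw [Units.val_mk0, mul_pow _ _ r, X.pow_rr, ← pow_mul c 2, mul_comm 2, pow_mul]; field_simp⟩

theorem exists_β {c : K} (hc : c ≠ 0) : ∃ a : Kˣ, (a : K) ^ r / a = c ∨ (a : K) ^ r / a = -c := by
  obtain ⟨k, hk⟩ := q_eq m
  have h := FiniteField.pow_card_sub_one_eq_one c hc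
  rw [X.hK, hk, show 8 * k + 3 - 1 = (4 * k + 1) * 2 by omega, pow_mul] at h
  have h1 := pow_ne_zero (2 * k + 1) hc
  refine ⟨Units.mk0 _ (mul_ne_zero h1 (pow_ne_zero r h1)), ?_⟩
  rw [Units.val_mk0, mul_pow _ _ r, X.pow_rr, show (c ^ (2 * k + 1)) ^ r * (c ^ (2 * k + 1)) ^ 3 / (c ^ (2 * k + 1) *
    (c ^ (2 * k + 1)) ^ r) = c ^ (4 * k + 1) * c by field_simp; ring]
  exact (sq_eq_one_iff.1 h).imp (fun e => by rw [e, one_mul]) fun e => by rw [e, neg_one_mul]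

variable {E : Type*} [Group E] {f : K → K → E} (h : Bi f)
include h

theorem kill_inv (hm : 1 ≤ m) (h1 : ∀ c ≠ 0, ∀ x y, f (c * x) (c * y) = f x y) (x y : K) : f x y = 1 := by
  obtain ⟨a, a1, a2, a3⟩ := X.exists_gen hm
  exact h.kill_inv (fun c hc => Bi.of_inv hc (h1 c hc)) a1 (fun e => a3 (eq_neg_of_add_eq_zero_left e))
    (fun e => a2 (sub_eq_zero.1 (pow_eq_zero_iff two_ne_zero |>.1 (by linear_combination e - a * X.three)))) x y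

theorem kill_neg (h1 : ∀ x y, f x (-y) = f x y) (x y : K) : f x y = 1 :=
  h.kill (c := 1) (d := -1) (fun x y => by simp [h1]) Bi.one
    (fun e => one_ne_zero (α := K) (by linear_combination X.three + e)) x y

theorem kill_αγ (hm : 1 ≤ m) (h1 : ∀ (a : Kˣ) x y, f (a ^ 2 / a ^ r * x) (a * y) = f x y) (x y : K) : f x y = 1 := by
  obtain ⟨a, a1, a2, a3⟩ := X.exists_gen hm
  have a4 : a + 1 ≠ 0 := fun e => a3 (eq_neg_of_add_eq_zero_left e)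
  have h2 : ∀ c ≠ 0, FR f (c ^ r / c ^ 2) c := fun c hc => by
    simpa [div_eq_mul_inv, mul_comm] using Bi.of_inv (inv_ne_zero hc) (h1 (Units.mk0 c hc)⁻¹)
  refine h.kill' (h2 _ a4) (h.add (h2 _ a1) Bi.one) (fun e => ?_) x y
  rw [X.add_r, one_pow] at e
  field_simp at e
  have h3 : a ^ r = a ^ 3 := mul_left_cancel₀ (sub_ne_zero.2 a2)
    (by linear_combination e + (a * a ^ r + a ^ 3) * X.three)
  haveI := X.charP
  haveI := Fact.mk Nat.prime_three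
  have h4 : a ^ r = a := frobenius_inj K 3 (by
    rw [frobenius_def, frobenius_def, ← pow_mul, mul_comm, pow_mul, ← h3, X.pow_rr, h3])
  exact (sq_eq_one_iff.1 (X.sq_of_r a1 h4)).elim a2 a3

omit h

theorem van1 (hm : 1 ≤ m) : CExt.Van E X.B X.U ⊥ X.W := by
  rintro F h1 h2 h3 - - _ ⟨t, u, v, rfl⟩ _ ⟨y, rfl⟩
  have m3 : ∀ y, X.w 0 0 y ∈ X.W := fun y => ⟨y, rfl⟩
  have b : ∀ a ∈ X.U, ∀ y y', F a (X.w 0 0 (y + y')) = F a (X.w 0 0 y) * F a (X.w 0 0 y') := fun a ha y y' => by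
    rw [← h2 a ha _ (m3 _) _ (m3 _), X.w_mul0, add_zero]
  have i := fun a t u v y => h3 _ (X.h_mem a) _ (X.w_mem t u v) _ (m3 y)
  simp only [X.h_w, mul_zero] at i
  have s3 := X.kill_inv (f := fun x y => F (X.w 0 0 x) (X.w 0 0 y)) ⟨fun x x' y => by
    rw [← h1 _ (X.w_mem ..) _ (X.w_mem ..) _ (m3 _), X.w_mul0, add_zero], fun x => b _ (X.w_mem ..)⟩ hm
    fun c hc x y => by simpa using i (Units.mk0 c hc) 0 0 x y
  have s2 := X.kill_neg (f := fun x y => F (X.w 0 x 0) (X.w 0 0 y)) ⟨fun x x' y => by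
    rw [← h1 _ (X.w_mem ..) _ (X.w_mem ..) _ (m3 _), X.w_mul0, add_zero], fun x => b _ (X.w_mem ..)⟩
    fun x y => by simpa [neg_r] using i (-1) 0 x 0 y
  have s : ∀ a ∈ X.U, ∀ g ∈ X.U2, ∀ y, F (a * g) (X.w 0 0 y) = F a (X.w 0 0 y) := by
    rintro a ha _ ⟨u, v, rfl⟩ y
    rw [h1 _ ha _ (X.w_mem ..) _ (m3 _), ← add_zero u, ← zero_add v, ← X.w_mul0, h1 _ (X.w_mem ..) _ (X.w_mem ..) _ (m3 _),
      s2, s3, mul_one, mul_one]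
  have s1 := X.kill_αγ (f := fun x y => F (X.w x 0 0) (X.w 0 0 y)) ⟨fun x x' y => by
    obtain ⟨g, hg, e⟩ := X.e1_add x x'
    rw [e, s _ (mul_mem (X.w_mem ..) (X.w_mem ..)) g hg, h1 _ (X.w_mem ..) _ (X.w_mem ..) _ (m3 _)],
    fun x => b _ (X.w_mem ..)⟩ hm fun a x y => by simpa using i a x 0 0 y
  rw [← zero_add u, ← zero_add v, ← X.w_mul0, s _ (X.w_mem ..) _ ⟨_, _, rfl⟩, s1]

theorem van2 (hm : 1 ≤ m) : CExt.Van E X.B X.U X.W X.U2 := by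
  rintro F h1 h2 h3 h4 h5 _ ⟨t, u, v, rfl⟩ _ ⟨y, y', rfl⟩
  have m2 : ∀ y y', X.w 0 y y' ∈ X.U2 := fun y y' => ⟨y, y', rfl⟩
  have b : ∀ a ∈ X.U, ∀ y y', F a (X.w 0 (y + y') 0) = F a (X.w 0 y 0) * F a (X.w 0 y' 0) := fun a ha y y' => by
    rw [← h2 a ha _ (m2 ..) _ (m2 ..), X.w_mul0, add_zero]
  have i := fun a t u v y => h3 _ (X.h_mem a) _ (X.w_mem t u v) _ (m2 y 0)
  simp only [X.h_w, mul_zero] at i
  have b2 : Bi fun x y => F (X.w 0 x 0) (X.w 0 y 0) := ⟨fun x x' y => by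
    rw [← h1 _ (X.w_mem ..) _ (X.w_mem ..) _ (m2 ..), X.w_mul0, add_zero], fun x => b _ (X.w_mem ..)⟩
  have s2 := X.kill_inv b2 hm fun c hc x y => by
    obtain ⟨a, e | e⟩ := X.exists_β hc
    · simpa [e] using i a 0 x 0 y
    · have := i a 0 (-x) 0 (-y)
      simp only [e, mul_zero, neg_mul_neg] at this
      simpa [this] using b2.neg Bi.one x (-y)
  have s : ∀ a ∈ X.U, ∀ g ∈ X.U2, ∀ y, F (a * g) (X.w 0 y 0) = F a (X.w 0 y 0) := by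
    rintro a ha _ ⟨u, v, rfl⟩ y
    rw [h1 _ ha _ (X.w_mem ..) _ (m2 ..), ← add_zero u, ← zero_add v, ← X.w_mul0, h1 _ (X.w_mem ..) _ (X.w_mem ..) _ (m2 ..),
      s2, h5 _ ⟨_, rfl⟩ _ (m2 ..), mul_one, mul_one]
  have s1 := X.kill_neg (f := fun y x => F (X.w x 0 0) (X.w 0 y 0)) ⟨fun y y' x => b _ (X.w_mem ..) y y', fun y x x' => by
    obtain ⟨g, hg, e⟩ := X.e1_add x x'
    rw [e, s _ (mul_mem (X.w_mem ..) (X.w_mem ..)) g hg, h1 _ (X.w_mem ..) _ (X.w_mem ..) _ (m2 ..)]⟩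
    fun x y => by simpa [neg_r] using i (-1) y 0 0 x
  rw [← add_zero y, ← zero_add y', ← X.w_mul0, h2 _ (X.w_mem ..) _ (m2 ..) _ (m2 ..), h4 _ (X.w_mem ..) _ ⟨_, rfl⟩, mul_one,
    ← zero_add u, ← zero_add v, ← X.w_mul0, s _ (X.w_mem ..) _ ⟨_, _, rfl⟩, s1]

theorem van3 (hm : 1 ≤ m) : CExt.Van E X.B X.U X.U2 X.U := by
  rintro F h1 h2 h3 h4 h5 _ ⟨t, u, v, rfl⟩ _ ⟨t', u', v', rfl⟩
  have s : ∀ a ∈ X.U, ∀ g ∈ X.U2, ∀ y ∈ X.U, F (a * g) y = F a y ∧ F y (a * g) = F y a := fun a ha g hg y hy =>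
    ⟨by rw [h1 _ ha _ (X.U2_le hg) _ hy, h5 _ hg _ hy, mul_one], by rw [h2 _ hy _ ha _ (X.U2_le hg), h4 _ hy _ hg, mul_one]⟩
  have s1 := X.kill_inv (f := fun x y => F (X.w x 0 0) (X.w y 0 0)) ⟨fun x x' y => by
    obtain ⟨g, hg, e⟩ := X.e1_add x x'
    rw [e, (s _ (mul_mem (X.w_mem ..) (X.w_mem ..)) g hg _ (X.w_mem ..)).1, h1 _ (X.w_mem ..) _ (X.w_mem ..) _ (X.w_mem ..)],
    fun y x x' => by
    obtain ⟨g, hg, e⟩ := X.e1_add x x'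
    rw [e, (s _ (mul_mem (X.w_mem ..) (X.w_mem ..)) g hg _ (X.w_mem ..)).2, h2 _ (X.w_mem ..) _ (X.w_mem ..) _ (X.w_mem ..)]⟩
    hm fun c hc x y => by
    obtain ⟨a, rfl⟩ := X.exists_α hc
    simpa [X.h_w] using h3 _ (X.h_mem a) _ (X.w_mem x 0 0) _ (X.w_mem y 0 0)
  rw [← zero_add u, ← zero_add v, ← X.w_mul0, (s _ (X.w_mem ..) _ ⟨_, _, rfl⟩ _ (X.w_mem ..)).1, ← zero_add u', ← zero_add v',
    ← X.w_mul0, (s _ (X.w_mem ..) _ ⟨_, _, rfl⟩ _ (X.w_mem ..)).2, s1]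

variable {π : E →* R} (Y : CExt π)
include Y

theorem sm3 (hm : 1 ≤ m) : ∀ z ∈ ⁅X.U.comap π, X.U.comap π⁆, π z = 1 → z = 1 := by
  obtain ⟨a, a1, a2, a3⟩ := X.exists_gen hm
  have a4 : a - 1 ≠ 0 := sub_ne_zero.2 a2
  have a5 : a ^ r / a - 1 ≠ 0 := sub_ne_zero.2 fun e =>
    (sq_eq_one_iff.1 (X.sq_of_r a1 ((div_eq_one_iff_eq a1).1 e))).elim a2 a3
  have hB : ∀ k ∈ X.B, ∃ u ∈ X.U, ∃ c ∈ X.B, c * X.h (Units.mk0 a a1) = X.h (Units.mk0 a a1) * c ∧ k = u * c := fun k hk => by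
    obtain ⟨u, hu, c, e⟩ := X.mem_B.1 hk
    exact ⟨u, hu, _, X.h_mem c, by rw [← map_mul, mul_comm, map_mul], e⟩
  obtain ⟨Q, hQ⟩ := (Y.sec_bot X.B).step X.U_le_B (X.W_le.trans X.U2_le)
    (by rintro _ ⟨t, u, v, rfl⟩ _ ⟨y, rfl⟩; simp [X.comm_w0, X.w_zero]) (X.van1 hm) bot_le (X.h_mem _) X.norm_W hB
    (by rintro _ ⟨y, rfl⟩; simp [X.comm_hw, X.w_eq_one, a4])
    (by rintro _ ⟨y, rfl⟩; exact ⟨_, ⟨(a - 1)⁻¹ * y, rfl⟩, by simp [X.comm_hw, a4]⟩)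
  obtain ⟨Q', hQ'⟩ := hQ.step X.U_le_B X.U2_le
    (by rintro _ ⟨t, u, v, rfl⟩ _ ⟨y, y', rfl⟩; exact ⟨_, X.comm_w0 ..⟩) (X.van2 hm) X.W_le (X.h_mem _) X.norm_U2 hB
    (by
      rintro _ ⟨y, y', rfl⟩ ⟨v, e⟩
      obtain rfl := (mul_eq_zero.1 (X.w_inj (X.comm_hw .. ▸ e)).2.1).resolve_left a5
      exact ⟨_, rfl⟩)
    (by rintro _ ⟨y, y', rfl⟩; exact ⟨_, ⟨(a ^ r / a - 1)⁻¹ * y, (a - 1)⁻¹ * y', rfl⟩, by simp [X.comm_hw, a4, a5]⟩)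
  exact fun z => hQ'.top X.U_le_B le_rfl (fun _ ha _ => X.comm_U ha) (X.van3 hm) le_rfl

theorem sm2 (hm : 1 ≤ m) {S : Subgroup R} (h : Syl 2 S ⊤) : ∀ z ∈ S, ∀ s ∈ S, Y.cm z s = 1 := fun z hz s hs => by
  haveI := X.finite
  by_cases h1 : z = 1
  · simp [h1]
  have h2 := X.seven_mul h hz h1
  rw [X.card_norm_syl h hm] at h2
  obtain ⟨y, hy, h3⟩ := exists_prime_order_mem Nat.prime_three (H := C1[z] ⊓ N[S]) (by omega)
  have c := fun {a b} => comm_of_isMulComm (X.elem h.pg).1 (a := a) (b := b)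
  have h4 : ∀ s ∈ S, Y.cm z (y * s * y⁻¹) = Y.cm z s := fun s hs => by
    rw [← Y.cj_z y (Y.π_cm_of (c hz hs)), Y.cj_cm, mem_centralizer_singleton_iff.1 hy.1, mul_inv_cancel_right]
  have h5 := conj_mem_of_norm hy.2 hs
  have h6 := conj_mem_of_norm hy.2 h5
  have h7 : zpowers z = S ⊓ C1[y] := eq_of_le_of_card_le (zpowers_le.2 ⟨hz, mem_centralizer_singleton_iff.2
    (mem_centralizer_singleton_iff.1 hy.1).symm⟩) (by
      have a1 := X.card_syl h ▸ card_dvd_of_le (inf_le_left : S ⊓ C1[y] ≤ S)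
      have a2 : ¬ 4 ∣ o[S ⊓ C1[y]] := fun e => X.not_four h3.symm.dvd (e.trans (card_dvd_of_le inf_le_right))
      have a3 := Nat.le_of_dvd (by norm_num) a1
      rw [Nat.card_zpowers, orderOf_eq_prime ((X.elem h.pg).2 z hz) h1]
      generalize o[S ⊓ C1[y]] = k at *
      interval_cases k <;> omega)
  have h8 : Y.cm z (s * (y * s * y⁻¹) * (y * (y * s * y⁻¹) * y⁻¹)) = 1 := by
    have : y * y * y = 1 := by rw [← pow_three', ← h3, pow_orderOf_eq_one]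
    rcases mem_zpowers_two (sq z ▸ (X.elem h.pg).2 z hz) (h7.ge ⟨mul_mem (mul_mem hs h5) h6,
      mem_centralizer_singleton_iff.2 (by
        rw [eq_comm, ← mul_inv_eq_iff_eq_mul]
        calc _ = y * s * y⁻¹ * (y * (y * s * y⁻¹) * y⁻¹) * (y * y * y * s * (y * y * y)⁻¹) := by group
          _ = _ := by rw [this, one_mul, inv_one, mul_one, ← c hs (mul_mem h5 h6), mul_assoc s])⟩) with e | e <;> simp [e]
  have h9 : Y.cm z s * Y.cm z s = 1 := by rw [← Y.cm_mul_right_of (c hz hs), ← sq, (X.elem h.pg).2 s hs, Y.cm_one_right]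
  rwa [Y.cm_mul_right_of (c hz h6), Y.cm_mul_right_of (c hz h5), h4 _ h5, h4 _ hs, h9, one_mul] at h8

omit Y in
theorem sm (hm : 1 ≤ m) : HasCyclicSchurMultiplier R 1 := by
  haveI := X.finite
  refine sm_one fun E _ _ π Y p hp => ?_
  haveI := Fact.mk hp
  by_cases h3 : p = 3
  · exact ⟨X.U, h3 ▸ relIndex_top_right X.U ▸ X.syl_U.nd, X.sm3 Y hm⟩
  obtain ⟨P, hP⟩ := exists_syl p (⊤ : Subgroup R)
  refine ⟨P, relIndex_top_right P ▸ hP.nd, ?_⟩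
  by_cases h2 : p = 2
  · subst h2; exact Y.triv_of_cm (X.sm2 Y hm hP)
  by_cases h : P = ⊥
  · exact Y.triv_of_cyc (h ▸ inferInstance)
  obtain ⟨i, T, A, h1, h4⟩ := X.exists_tor_pg h2 h3 hP.pg h
  haveI := h1.cyc
  exact Y.triv_of_cyc (isCyclic_of_le h4)

end CfsgH6.Ree
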