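import Cfsg.Agent.H2.Syl
import Cfsg.Agent.H6.AutField
import Cfsg.Prelude.Def_KGroupFacts

/-! Automorphisms of split BN-pairs of rank one. -/

set_option autoImplicit false

namespace CfsgH6

open Subgroup CfsgH2

/-- a split BN-pair of rank one -/
structure Rk1 {R : Type*} [Group R] (p : ℕ) (U H : Subgroup R) (n : R) : Prop where
  syl : Syl p U ⊤
  norm : N[U] = U ⊔ H
  bru : ∀ g, g ∈ U ⊔ H ∨ ∃ u ∈ U, ∃ b ∈ U ⊔ H, g = u * n * b
  nU : ∀ u ∈ U, n * u * n⁻¹ ∈ U ⊔ H → u = 1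
  memH : ∀ b ∈ U ⊔ H, n * b * n⁻¹ ∈ U ⊔ H ↔ b ∈ H
  nn : n⁻¹ = n
  notMem : n ∉ U ⊔ H
  cU : ∀ h ∈ H, (∀ u ∈ U, h * u * h⁻¹ = u) → h = 1
  cH : ∀ u ∈ U, (∀ h ∈ H, h * u * h⁻¹ = u) → u = 1

/-- the automorphisms fixing two subgroups -/
def A2 {R : Type*} [Group R] (U H : Subgroup R) : Subgroup (MulAut R) where
  carrier := {θ | U.map θ.toMonoidHom = U ∧ H.map θ.toMonoidHom = H}
  one_mem' := ⟨map_id _, map_id _⟩
  mul_mem' {a b} h h' := ⟨(map_map U a.toMonoidHom b.toMonoidHom).symm.trans (by rw [h'.1, h.1]),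
    (map_map H a.toMonoidHom b.toMonoidHom).symm.trans (by rw [h'.2, h.2])⟩
  inv_mem' {a} h := ⟨(map_symm_eq_iff_map_eq _).2 h.1, (map_symm_eq_iff_map_eq _).2 h.2⟩

theorem mem_A2 {R : Type*} [Group R] [Finite R] {U H : Subgroup R} {θ : MulAut R} (h1 : ∀ u ∈ U, θ u ∈ U)
    (h2 : ∀ u ∈ H, θ u ∈ H) : θ ∈ A2 U H :=
  ⟨eq_of_le_of_card_ge (map_le_iff_le_comap.2 h1) (card_map_of_injective θ.injective).ge,
    eq_of_le_of_card_ge (map_le_iff_le_comap.2 h2) (card_map_of_injective θ.injective).ge⟩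

namespace Rk1

variable {R : Type*} [Group R] {p : ℕ} {U H : Subgroup R} {n : R} (X : Rk1 p U H n)
include X

theorem mem_V {g : R} : g ∈ N[U.map (cj n)] ↔ n * g * n⁻¹ ∈ U ⊔ H := by
  rw [normalizer_map_cj, mem_map_cj, X.norm, X.nn]

theorem H_eq : H = N[U] ⊓ N[U.map (cj n)] := Subgroup.ext fun g => by
  rw [mem_inf, X.mem_V, X.norm]
  exact ⟨fun h => ⟨mem_sup_right h, (X.memH g (mem_sup_right h)).2 h⟩, fun h => (X.memH g h.1).1 h.2⟩

theorem core {k : R} (h : ∀ x, x * k * x⁻¹ ∈ U ⊔ H) : k = 1 := by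
  have h1 : k ∈ U ⊔ H := by simpa using h 1
  refine X.cU k ((X.memH k h1).1 (h n)) fun u hu => mul_inv_eq_one.1 (X.nU _ (mul_mem (conj_mem_of_norm (X.norm.ge h1) hu)
    (inv_mem hu)) ?_)
  convert mul_mem (h n) (inv_mem (h (n * u))) using 1
  group

theorem center : center R = ⊥ := eq_bot_iff.2 fun k hk => X.core fun x => by
  rw [mem_center_iff.1 hk, mul_inv_cancel_right, ← X.norm]
  exact center_le_normalizer _ hk

variable [Fact p.Prime] [Finite R]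

theorem exists_u {θ : MulAut R} (h : U.map θ.toMonoidHom = U) :
    ∃ u ∈ U, (U.map (cj n)).map θ.toMonoidHom = (U.map (cj n)).map (cj u) := by
  rw [map_map_cj, h]
  obtain hb | ⟨u, hu, b, hb, e⟩ := X.bru (θ n)
  · refine absurd ?_ X.notMem
    rw [← X.norm, ← h, ← map_normalizer_eq_of_bijective _ θ.bijective] at hb
    exact X.norm ▸ (mem_map_iff_mem θ.injective).1 hb
  · exact ⟨u, hu, by rw [map_cj_cj, MulEquiv.coe_toMonoidHom, e, ← map_cj_cj, map_cj_eq (X.norm.ge hb)]⟩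

theorem map_V {θ : MulAut R} (h : θ ∈ A2 U H) : (U.map (cj n)).map θ.toMonoidHom = U.map (cj n) := by
  obtain ⟨u, hu, e⟩ := X.exists_u h.1
  obtain rfl : u = 1 := X.cH u hu fun k hk => by
    have h1 : k ∈ N[(U.map (cj n)).map θ.toMonoidHom] := by
      rw [← map_normalizer_eq_of_bijective _ θ.bijective]
      exact map_mono (X.H_eq.le.trans inf_le_right) (h.2.ge hk)
    rw [e, normalizer_map_cj, mem_map_cj, X.mem_V] at h1
    have h2 := conj_mem_of_norm (X.norm.ge (mem_sup_right hk)) hu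
    refine (inv_mul_eq_one.1 (X.nU _ (mul_mem (inv_mem hu) h2) ?_)).symm
    convert mul_mem h1 (inv_mem ((X.memH k (mem_sup_right hk)).2 hk)) using 1
    group
  rw [e, map_cj_one]

omit [Fact p.Prime] [Finite R] in
theorem mem_of_V {θ : MulAut R} (h1 : U.map θ.toMonoidHom = U)
    (h2 : (U.map (cj n)).map θ.toMonoidHom = U.map (cj n)) : θ ∈ A2 U H :=
  ⟨h1, by
    rw [X.H_eq, map_inf _ _ _ θ.injective, map_normalizer_eq_of_bijective _ θ.bijective,
      map_normalizer_eq_of_bijective _ θ.bijective, h1, h2]⟩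

theorem eq_one {θ : MulAut R} (h : θ ∈ A2 U H) (h1 : ∀ u ∈ U, θ u = u) : θ = 1 := by
  have a1 : ∀ b ∈ U ⊔ H, θ b ∈ U ⊔ H := fun b hb => by
    rw [← h.1, ← h.2, ← Subgroup.map_sup]; exact mem_map_of_mem _ hb
  have a2 : n⁻¹ * θ n ∈ U ⊔ H := by
    have := X.map_V h
    rw [map_map_cj, h.1] at this
    rw [← X.norm, ← map_cj_eq_iff, ← map_cj_cj]
    exact (congrArg _ this).trans (map_cj_inv_cj ..)
  have a3 : ∀ g, g⁻¹ * θ g ∈ U ⊔ H := fun g => by
    obtain hb | ⟨u, hu, b, hb, rfl⟩ := X.bru g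
    · exact mul_mem (inv_mem hb) (a1 g hb)
    · convert mul_mem (mul_mem (inv_mem hb) a2) (a1 b hb) using 1
      rw [map_mul, map_mul, h1 u hu]; group
  refine MulEquiv.ext fun g => (inv_mul_eq_one.1 (X.core fun x => ?_)).symm
  convert mul_mem (a3 (g * x⁻¹)) (inv_mem (a3 x⁻¹)) using 1
  simp [mul_assoc]

theorem card_A2 : Nat.card (A2 U H) = Nat.card (Cfsg.Out R) * Nat.card H := by
  have h1 : Function.Surjective ((QuotientGroup.mk' (Cfsg.Inn R)).comp (A2 U H).subtype) := fun θ => by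
    obtain ⟨θ, rfl⟩ := QuotientGroup.mk'_surjective _ θ
    obtain ⟨g, -, e⟩ := (map_top_of_surjective θ.toMonoidHom θ.surjective ▸ X.syl.map θ.toMonoidHom).conj X.syl
    have e1 : U.map (MulAut.conj g * θ).toMonoidHom = U := (map_map U (cj g) θ.toMonoidHom).symm.trans e
    obtain ⟨u, hu, e2⟩ := X.exists_u e1
    refine ⟨⟨MulAut.conj u⁻¹ * (MulAut.conj g * θ), X.mem_of_V ((map_map U (cj u⁻¹) _).symm.trans (by
      rw [e1, map_cj_of_mem (inv_mem hu)])) ((map_map _ (cj u⁻¹) _).symm.trans (by rw [e2, map_cj_inv_cj]))⟩, ?_⟩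
    simp only [MonoidHom.comp_apply, coe_subtype, map_mul, QuotientGroup.mk'_apply]
    rw [(QuotientGroup.eq_one_iff (N := Cfsg.Inn R) (MulAut.conj g)).2 ⟨_, rfl⟩,
      (QuotientGroup.eq_one_iff (N := Cfsg.Inn R) (MulAut.conj u⁻¹)).2 ⟨_, rfl⟩, one_mul, one_mul]
  have h2 : Function.Injective (MulAut.conj : R →* MulAut R) := (injective_iff_map_eq_one _).2 fun g e =>
    mem_bot.1 (X.center ▸ mem_center_iff.2 fun a => (mul_inv_eq_iff_eq_mul.1 (DFunLike.congr_fun e a)).symm)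
  rw [← card_mul_index ((QuotientGroup.mk' (Cfsg.Inn R)).comp (A2 U H).subtype).ker, index_ker, MonoidHom.range_eq_top.2 h1, card_top, mul_comm,
    ← MonoidHom.comap_ker, QuotientGroup.ker_mk', ← card_map_of_injective (K := H) h2,
    ← card_map_of_injective (subtype_injective _), map_comap_eq, range_subtype]
  congr 3
  ext θ
  constructor
  · rintro ⟨h, g, rfl⟩
    exact ⟨g, X.H_eq.ge ⟨map_cj_eq_iff.1 h.1, map_cj_eq_iff.1 (X.map_V h)⟩, rfl⟩
  · rintro ⟨g, hg, rfl⟩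
    exact ⟨⟨map_cj_eq (X.H_eq.le hg).1, map_cj_of_mem hg⟩, g, rfl⟩

theorem card_out {K : Type*} [Field K] [Finite K] (e : K → R) (h1 : ∀ a b, e (a + b) = e a * e b)
    (h2 : Function.Injective e) (h3 : ∀ h ∈ H, ∃ c, ∀ v, h * e v * h⁻¹ = e (c * v))
    (h4 : ∀ c : Kˣ, ∃ h ∈ H, ∀ v, h * e v * h⁻¹ = e (c * v)) (h5 : ∀ θ ∈ A2 U H, ∀ v, ∃ v', θ (e v) = e v')
    (h6 : ∀ θ ∈ A2 U H, (∀ v, θ (e v) = e v) → ∀ u ∈ U, θ u = u)
    (h7 : ∀ σ : RingAut K, ∃ θ ∈ A2 U H, ∀ v, θ (e v) = e (σ v)) (h8 : Nat.card H = Nat.card K - 1) :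
    Nat.card (Cfsg.Out R) = Nat.card (RingAut K) := by
  choose d d1 d2 using h4
  choose f f1 f2 using h7
  have d3 : ∀ c, MulAut.conj (d c) ∈ A2 U H := fun c => ⟨map_cj_eq (X.H_eq.le (d1 c)).1, map_cj_of_mem (d1 c)⟩
  have h0 : e 0 = 1 := by simpa using h1 0 0
  refine Nat.eq_of_mul_eq_mul_right (Nat.card_pos (α := H)) ?_
  rw [← X.card_A2, h8, ← Nat.card_units, mul_comm, ← Nat.card_prod]
  refine (Nat.card_congr (Equiv.ofBijective (fun a => ⟨_, mul_mem (d3 a.1) (f1 a.2)⟩) ⟨fun a b h => ?_, fun ⟨θ, h⟩ => ?_⟩)).symm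
  · have : ∀ v, a.1 * a.2 v = b.1 * b.2 v := fun v => h2 (by
      simpa [f2, d2] using DFunLike.congr_fun (Subtype.mk.inj h) (e v))
    have h9 : a.1 = b.1 := Units.ext (by simpa using this 1)
    exact Prod.ext h9 (RingEquiv.ext fun v => mul_left_cancel₀ b.1.ne_zero (h9 ▸ this v))
  · choose g hg using h5 θ h
    have g1 : g 1 ≠ 0 := fun e' => one_ne_zero (h2 (θ.injective (by rw [hg, e', h0, map_one])))
    obtain ⟨φ, hφ⟩ := exists_semilinear g (fun a b => h2 (by rw [← hg, h1, map_mul, hg, hg, h1])) g1 fun s hs => by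
      obtain ⟨c, hc⟩ := h3 _ (h.2.le (mem_map_of_mem _ (d1 (Units.mk0 _ (pow_ne_zero 2 hs)))))
      exact ⟨c, fun t => h2 (by simpa [← hg, ← hc] using congrArg θ (d2 (Units.mk0 _ (pow_ne_zero 2 hs)) t).symm)⟩
    refine ⟨(Units.mk0 _ g1, RingEquiv.ofBijective φ (Finite.injective_iff_bijective.1 φ.injective)),
      Subtype.ext (inv_mul_eq_one.1 ?_)⟩
    have := mul_mem (inv_mem (mul_mem (d3 (Units.mk0 _ g1)) (f1 (RingEquiv.ofBijective φ
      (Finite.injective_iff_bijective.1 φ.injective))))) h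
    refine X.eq_one this (h6 _ this fun v => ?_)
    rw [MulAut.mul_apply, MulAut.inv_apply, MulEquiv.symm_apply_eq, MulAut.mul_apply, f2, MulAut.conj_apply, d2, hg, hφ]
    rfl

end Rk1

end CfsgH6
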