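import Cfsg.Agent.H6.Ree7
import Cfsg.Agent.H6.Rk1

/-! Automorphisms of the small Ree groups. -/

set_option autoImplicit false

namespace CfsgH6.Ree

open CfsgH2 Subgroup Cfsg
open scoped commutatorElement

variable {R : Type*} [Group R] {K : Type*} [Field K] [Fintype K] {m : ℕ} (X : Ree R K m)

local notation "r" => 3 ^ (m + 1)

theorem rk1 (hm : 1 ≤ m) : Rk1 3 X.U X.h.range X.n where
  syl := X.syl_U
  norm := X.norm_U
  bru := X.bru'
  nU _ := X.n_U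
  memH b hb := ⟨fun h => (X.mem_H hb h).imp fun _ => Eq.symm, fun ⟨a, e⟩ => e ▸ X.n_h' a ▸ X.h_mem _⟩
  nn := X.n_inv
  notMem := X.n_notMem
  cU := by
    rintro _ ⟨a, rfl⟩ h
    rw [(X.comm_h (h _ (X.w_mem 1 0 0))).resolve_right fun e => one_ne_zero e.1, map_one]
  cH := by
    rintro _ ⟨t, u, v, rfl⟩ h
    obtain ⟨a, a1, a2, a3⟩ := X.exists_gen hm
    obtain e | ⟨e1, e2, e | e⟩ := X.comm_h (h _ ⟨Units.mk0 a a1, rfl⟩)
    exacts [absurd (congrArg Units.val e) a2, absurd (congrArg Units.val e) a3, X.w_eq_one.2 ⟨e1, e, e2⟩]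

theorem mem_W {x : R} (hx : x ∈ X.U) (h : ∀ y ∈ X.U, ⁅y, x⁆ = 1) : ∃ v, x = X.w 0 0 v := by
  obtain ⟨t, u, v, rfl⟩ := hx
  obtain rfl : t = 0 := by
    simpa [X.comm_w0, X.w_eq_one] using (commutatorElement_eq_one_iff_commute.1 (h _ (X.w_mem 0 1 0))).symm.commutator_eq
  obtain rfl : u = 0 := by simpa [X.comm_w0, X.w_eq_one] using h _ (X.w_mem 1 0 0)
  exact ⟨v, rfl⟩

include X in
theorem α_eq {c : K} (hc : c ≠ 0) : (c ^ 2 * c ^ r) ^ 2 / (c ^ 2 * c ^ r) ^ r = c := by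
  rw [mul_pow _ _ r, X.pow_rr, ← pow_mul c 2 r, mul_comm 2, pow_mul]; field_simp

include X in
theorem cube_inj {s t : K} (h : s ^ 2 * s ^ r = t ^ 2 * t ^ r) : s = t := by
  by_cases hs : s = 0
  · simpa [hs, eq_comm (b := t)] using h.symm
  by_cases ht : t = 0
  · simpa [ht] using h
  rw [← X.α_eq hs, h, X.α_eq ht]

theorem rigid (hm : 1 ≤ m) {θ : MulAut R} (h : θ ∈ A2 X.U X.h.range) (h1 : ∀ v, θ (X.w 0 0 v) = X.w 0 0 v) :
    ∀ u ∈ X.U, θ u = u := by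
  have a1 : ∀ a, θ (X.h a) = X.h a := fun a => by
    obtain ⟨b, e⟩ := h.2.le (mem_map_of_mem _ ⟨a, rfl⟩)
    have := congrArg θ (X.h_w a 0 0 1)
    rw [map_mul, map_mul, map_inv] at this
    simp only [mul_zero, h1, ← show X.h b = θ (X.h a) from e, X.h_w] at this
    exact e.symm.trans (congrArg X.h (Units.ext (by simpa using (X.w_inj this).2.2)))
  have a2 : ∀ t u v, ∃ u' v', θ (X.w t u v) = X.w t u' v' := fun t u v => by
    obtain ⟨t', u', v', e⟩ := h.1.le (mem_map_of_mem _ (X.w_mem t u v))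
    have := congrArg θ (X.w_cube t u v)
    rw [map_pow, h1, show θ _ = _ from e, X.w_cube] at this
    exact ⟨u', v', X.cube_inj (neg_injective (X.w_inj this).2.2) ▸ e⟩
  have a3 : ∀ u, θ (X.w 0 u 0) = X.w 0 u 0 := fun u => by
    obtain ⟨u', v', e⟩ := a2 0 u 0
    obtain ⟨b, c, e'⟩ := a2 1 0 0
    have b1 := congrArg θ (X.comm_w0 1 0 0 u 0)
    have b2 := congrArg θ (X.z_w 0 u 0)
    rw [map_commutatorElement, h1, e, e', X.comm_w0] at b1
    rw [map_mul, map_mul, map_inv, neg_zero, z, a1, e, ← z, X.z_w] at b2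
    rw [e, ← mul_one u, ← (X.w_inj b1).2.2, mul_one, show v' = 0 by linear_combination (X.w_inj b2).2.2 + v' * X.three]
  have a4 : ∀ g ∈ X.U2, θ g = g := by
    rintro _ ⟨u, v, rfl⟩
    rw [← add_zero u, ← zero_add v, ← X.w_mul0, map_mul, a3, h1]
  have a5 : ∀ t, ∃ v, θ (X.w t 0 0) = X.w t 0 v := fun t => by
    obtain ⟨u, v, e⟩ := a2 t 0 0
    have b := congrArg θ (X.wz_sq t 0 0)
    rw [map_pow, map_mul, z, a1, ← z, e, X.wz_sq, a4 _ ⟨_, _, rfl⟩] at b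
    exact ⟨v, by rw [e, show u = 0 by linear_combination -(X.w_inj b).2.1]⟩
  choose c hc using a5
  have a6 : ∀ s t, c (s + t) = c s + c t := fun s t => by
    obtain ⟨_, ⟨u, v, rfl⟩, e⟩ := X.e1_add s t
    have := congrArg θ e
    rw [map_mul, map_mul, hc, hc, hc, a4 _ ⟨_, _, rfl⟩] at this
    simp only [X.w_mul] at this e
    linear_combination (X.w_inj this).2.2 - (X.w_inj e).2.2
  have a7 : ∀ t ≠ 0, c t = t ^ 2 * t ^ r * c 1 := fun t ht => by
    have := congrArg θ (X.h_w (Units.mk0 _ (mul_ne_zero (pow_ne_zero 2 ht) (pow_ne_zero r ht))) 1 0 0)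
    rw [map_mul, map_mul, map_inv] at this
    simp only [a1, hc, X.h_w, mul_zero, Units.val_mk0, X.α_eq ht, mul_one] at this
    exact (X.w_inj this).2.2.symm
  have a8 : c 1 = 0 := by_contra fun e => by
    obtain ⟨a, b1, b2, b3⟩ := X.exists_gen hm
    have b4 := a6 a 1
    have b5 := a6 (a + -1) 1
    rw [neg_add_cancel_right, a7 _ (sub_ne_zero.2 b2 ∘ (sub_eq_add_neg a 1).trans), X.add_r, neg_r] at b5
    rw [a7 _ fun e => b3 (eq_neg_of_add_eq_zero_left e), X.add_r] at b4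
    exact (sq_eq_one_iff.1 (X.sq_of_r b1 (mul_left_cancel₀ (mul_ne_zero b1 e) (by
      linear_combination b4 + b5 - (a * a ^ r + a ^ 2) * c 1 * X.three)))).elim b2 b3
  rintro _ ⟨t, u, v, rfl⟩
  rw [← zero_add u, ← zero_add v, ← X.w_mul0, map_mul, a4 _ ⟨_, _, rfl⟩, hc]
  by_cases ht : t = 0
  · rw [ht, show c 0 = 0 by simpa using a6 0 0]
  · rw [a7 t ht, a8, mul_zero]

theorem card_out (hm : 1 ≤ m) (h : ∀ σ : RingAut K, ∃ θ ∈ A2 X.U X.h.range, ∀ v, θ (X.w 0 0 v) = X.w 0 0 (σ v)) :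
    Nat.card (Out R) = 2 * m + 1 := by
  haveI := X.finite
  haveI := X.charP
  haveI := Fact.mk Nat.prime_three
  refine ((X.rk1 hm).card_out (X.w 0 0) (fun a b => by rw [X.w_mul0, add_zero]) (fun _ _ e => (X.w_inj e).2.2)
    (fun _ ⟨a, e⟩ => ⟨a, fun v => by simp [← e, X.h_w]⟩) (fun a => ⟨_, ⟨a, rfl⟩, fun v => by simp [X.h_w]⟩)
    (fun θ hθ v => X.mem_W (hθ.1.le (mem_map_of_mem _ (X.w_mem ..))) fun y hy => ?_) (fun _ => X.rigid hm) h
    (X.card_H.trans (X.card_K ▸ rfl))).trans (card_ringAut X.hK)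
  obtain ⟨_, ⟨t, u, v', rfl⟩, rfl⟩ := hθ.1.ge hy
  rw [MulEquiv.coe_toMonoidHom, ← map_commutatorElement, X.comm_w0, zero_mul, X.w_zero, map_one]

end CfsgH6.Ree
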