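import Cfsg.Agent.H8.Sz10
import Cfsg.Agent.H6.Wt
import Cfsg.Agent.H6.Rk1

/-! Outer automorphisms and Schur multiplier of the Suzuki groups. -/

set_option autoImplicit false

namespace CfsgH6

open CfsgH2 Subgroup Cfsg CfsgH8.SzG
open scoped commutatorElement

theorem out_congr {G G' : Type*} [Group G] [Group G'] (e : G ≃* G') : Nat.card (Out G) = Nat.card (Out G') := by
  refine Nat.card_congr (QuotientGroup.congr _ _ (MulAut.congr e) (le_antisymm ?_ ?_)).toEquiv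
  · rintro _ ⟨_, ⟨g, rfl⟩, rfl⟩
    exact ⟨e g, MulEquiv.ext fun x => by simp⟩
  · rintro _ ⟨g, rfl⟩
    exact ⟨_, ⟨e.symm g, rfl⟩, MulEquiv.ext fun x => by simp⟩

namespace SzA

variable {F : Type*} [Field F] {m : ℕ} [Fintype F] [h : SzF F m]

theorem B_eq : U F m ⊔ D F m = B F m := le_antisymm (sup_le U_le_B D_le_B) fun _ hg => by
  obtain ⟨a, b, t, rfl⟩ := mem_B.1 hg
  exact mul_mem (mem_sup_left (u_mem ..)) (mem_sup_right (d_mem _))

theorem w_notMem : w F m ∉ B F m := fun e => inf_ne_zer (e.symm.trans w_none)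

include h in
theorem two : (2 : F) = 0 := haveI := charP (F := F) (m := m); CharTwo.two_eq_zero

theorem rk1 : Rk1 2 (U F m) (D F m) (w F m) where
  syl := syl_top (sylU F m)
  norm := norm_U.trans B_eq.symm
  bru g := B_eq (F := F) (m := m) ▸ (bruhat g).imp mem_B.2 fun ⟨_, _, _, _, _, e⟩ => ⟨_, u_mem .., _, mem_B.2 ⟨_, _, _, rfl⟩, e⟩
  nU x hx e := by_contra fun e' => w_notMem (mem_B_of_conj hx e' (B_eq.le e))
  memH b hb := by
    rw [B_eq] at hb ⊢
    rw [D_eq, mem_inf, and_iff_right hb, MulAction.mem_stabilizer_iff, MulAction.mem_stabilizer_iff, w_inv, mul_smul,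
      mul_smul, ← eq_inv_smul_iff, w_inv, w_none]
  nn := w_inv
  notMem := B_eq (F := F) (m := m) ▸ w_notMem
  cU := by
    rintro _ ⟨t, rfl⟩ e
    have := (u_inj ((d_u_inv t 1 0).symm.trans (e _ (u_mem ..)))).1
    rw [show t = 1 from Units.ext (sq_inj (m := m) (by simpa using this)), map_one]
  cH := by
    rintro _ ⟨a, b, rfl⟩ e
    obtain ⟨t, ht⟩ := exists_unit_ne_one (F := F) (m := m)
    obtain ⟨e1, e2⟩ := u_inj ((d_u_inv t a b).symm.trans (e _ (d_mem t)))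
    exact u_eq_one.2 ⟨by_contra fun e => ht (Units.ext (sq_inj (m := m) (by simpa [e] using e1))),
      by_contra fun e => ht (Units.ext (thmul_eq_one (m := m) (by simpa [e] using e2)))⟩

theorem rigid {θ : MulAut (Sz F m)} (h0 : θ ∈ A2 (U F m) (D F m)) (h1 : ∀ v, θ (u m 0 v) = u m 0 v) :
    ∀ x ∈ U F m, θ x = x := by
  have a1 : ∀ a, θ (d m a) = d m a := fun a => by
    obtain ⟨b, e⟩ := h0.2.le (mem_map_of_mem _ (d_mem a))
    have := congrArg θ (d_u_inv a 0 1)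
    rw [map_mul, map_mul, map_inv, mul_zero, h1, h1, ← show d m b = θ (d m a) from e, d_u_inv] at this
    exact e.symm.trans (congrArg (d m) (Units.ext (thmul_inj (sq_inj (m := m) (by simpa using (u_inj this).2)))))
  have a2 : ∀ t, ∃ v, θ (u m t 0) = u m t v := fun t => by
    obtain ⟨t', v, e⟩ := h0.1.le (mem_map_of_mem _ (u_mem t 0))
    have := congrArg θ (u_sq (m := m) t 0)
    rw [map_pow, h1, ← show _ = θ _ from e, u_sq] at this
    exact ⟨v, thmul_inj (u_inj this).2 ▸ e.symm⟩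
  choose c hc using a2
  have a3 : ∀ a b, θ (u m a b) = u m a (c a + b) := fun a b => by
    rw [show u m a b = u m a 0 * u m 0 b by simp [u_mul], map_mul, hc, h1]; simp [u_mul]
  have a4 : ∀ s t, c (s + t) = c s + c t := fun s t => by
    have := congrArg θ (u_mul (m := m) s 0 t 0)
    rw [map_mul, hc, hc, a3, u_mul] at this
    linear_combination -(u_inj this).2
  have a5 : ∀ s ≠ 0, c s = th m s * s * c 1 := fun s hs => by
    obtain ⟨t, rfl⟩ := exists_sq (m := m) s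
    have := congrArg θ (d_u_inv (m := m) (Units.mk0 t fun e => hs (by simp [e])) 1 0)
    rw [map_mul, map_mul, map_inv, a1, hc, d_u_inv, mul_zero, hc] at this
    simpa [mul_pow] using (u_inj this).2.symm
  have a6 : c 1 = 0 := by_contra fun e => by
    obtain ⟨y, y0, y1⟩ := exists_ne01 (F := F) (m := m)
    have := a4 y 1
    rw [a5 y y0, a5 _ fun e => y1 (by linear_combination e - two (F := F) (m := m)), th_add, th_one] at this
    exact (th_eq_self (m := m) (mul_right_cancel₀ e (by linear_combination this - y * c 1 * two (F := F) (m := m)))).elim y0 y1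
  rintro _ ⟨a, b, rfl⟩
  by_cases ha : a = 0
  · rw [ha, h1]
  · rw [a3, a5 a ha, a6, mul_zero, zero_add]

theorem card_out : Nat.card (Out (Sz F m)) = 2 * m + 1 := by
  haveI := charP (F := F) (m := m)
  refine (rk1.card_out (u m 0) (fun a b => by simp [u_mul]) (fun _ _ e => (u_inj e).2)
    (fun _ hx => (B_conj_z (D_le_B hx)).imp fun _ e => e.2) (fun a => (exists_d_z a.ne_zero).elim fun t e => ⟨_, d_mem t, e⟩)
    (fun θ hθ v => (mem_ZU_of_sq (hθ.1.le (mem_map_of_mem _ (u_mem ..))) (by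
      rw [MulEquiv.coe_toMonoidHom, ← map_pow, ZU_sq (u_mem_ZU v), map_one])).imp fun _ => Eq.symm)
    (fun _ => rigid) (fun σ => ⟨MulEquiv.ofBijective (emb m m (σ : F →+* F)) (Finite.injective_iff_bijective.1 (emb_inj _)),
      mem_A2 ?_ ?_, fun v => by simp [emb_u]⟩) (card_D.trans (by simp))).trans (card_ringAut h.hF)
  · rintro _ ⟨a, b, rfl⟩; exact ⟨_, _, (emb_u ..).symm⟩
  · rintro _ ⟨a, rfl⟩; exact ⟨_, (emb_d ..).symm⟩

include h in
theorem exists_gen (hm : 2 ≤ m) : ∃ c : F, c ≠ 0 ∧ c ^ 21 ≠ 1 := by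
  obtain ⟨g, hg⟩ := isCyclic_iff_exists_orderOf_eq_natCard.1 (inferInstance : IsCyclic Fˣ)
  refine ⟨g, g.ne_zero, fun e => ?_⟩
  have := Nat.le_of_dvd (by norm_num) (orderOf_dvd_of_pow_eq_one (x := g) (n := 21) (Units.ext (by simpa using e)))
  have h2 := Nat.pow_le_pow_right (n := 2) (by norm_num) (show 5 ≤ 2 * m + 1 by omega)
  rw [hg, Nat.card_units, Nat.card_eq_fintype_card, h.hF] at this
  omega

variable {E : Type*} [Group E] {f : F → F → E} (hf : Bi f) (hm : 2 ≤ m)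
include h hf hm

theorem kill_inv (h1 : ∀ c ≠ 0, ∀ x y, f (c * x) (c * y) = f x y) (x y : F) : f x y = 1 := by
  obtain ⟨c, c0, c1⟩ := exists_gen (F := F) hm
  refine hf.kill_inv (fun c hc => Bi.of_inv hc (h1 c hc)) c0 (fun e => c1 ?_) (fun e => c1 ?_) x y
  · rw [show c = 1 by linear_combination e - two (F := F) (m := m), one_pow]
  · rw [show 21 = 3 * 7 by rfl, pow_mul, show c ^ 3 = 1 by linear_combination (c - 1) * e, one_pow]

theorem kill_αγ (h1 : ∀ c ≠ 0, ∀ x y, f (c * x) (th m c * c * y) = f x y) (x y : F) : f x y = 1 := by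
  obtain ⟨c, c0, c1⟩ := exists_gen (F := F) hm
  have h2 := two (F := F) (m := m)
  have c2 : c + 1 ≠ 0 := fun e => c1 (by rw [show c = 1 by linear_combination e - h2, one_pow])
  have h3 : ∀ c ≠ 0, FR f c (th m c * c)⁻¹ := fun c hc => Bi.of_inv (by simpa using hc) (h1 c hc)
  refine hf.kill (h3 _ c2) (hf.add (h3 _ c0) Bi.one) (fun e => c1 ?_) x y
  have c3 : th m c ≠ 0 := by simpa using c0
  have c4 : th m c + 1 ≠ 0 := by simpa using (th_eq_zero (m := m)).not.2 c2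
  rw [th_add, th_one] at e
  field_simp at e
  have e' := congrArg (th m) e
  simp only [th_mul, th_add, th_th, th_one] at e'
  generalize th m c = T at *
  have := charP (F := F) (m := m)
  have e1 : T * (c ^ 2 + c + 1) = (c + 1) ^ 3 := by
    linear_combination (norm := (ring_nf; reduce_mod_char!)) e' + (c ^ 2 + c) * e
  have e2 : c * (c + 1) * (c ^ 6 + c ^ 5 + c ^ 4 + c ^ 3 + c ^ 2 + c + 1) = 0 := by
    linear_combination (norm := (ring_nf; reduce_mod_char!)) (c ^ 2 + c + 1) ^ 2 * e +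
      ((T * (c ^ 2 + c + 1) + (c + 1) ^ 3) * (c ^ 2 + c) + (c ^ 2 + c + 1) ^ 2) * e1
  rw [show 21 = 7 * 3 by rfl, pow_mul, show c ^ 7 = 1 by
    linear_combination (c - 1) * (mul_eq_zero.1 e2).resolve_left (mul_ne_zero c0 c2), one_pow]

omit hf

theorem van1 : CExt.Van E (B F m) (U F m) ⊥ (ZU F m) := by
  rintro G h1 h2 h3 - - _ ⟨t, v, rfl⟩ _ ⟨y, rfl⟩
  have b : ∀ a ∈ U F m, ∀ y y', G a (u m 0 (y + y')) = G a (u m 0 y) * G a (u m 0 y') := fun a ha y y' => by
    rw [← h2 a ha _ (u_mem_ZU _) _ (u_mem_ZU _)]; simp [u_mul]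
  have i := fun a t v y => h3 _ (D_le_B (d_mem a)) _ (u_mem t v) _ (u_mem_ZU y)
  simp only [d_u_inv, mul_zero] at i
  have s2 := kill_inv (f := fun x y => G (u m 0 x) (u m 0 y)) ⟨fun x x' y => by
    rw [← h1 _ (u_mem ..) _ (u_mem ..) _ (u_mem_ZU _)]; simp [u_mul], fun x => b _ (u_mem ..)⟩ hm fun c hc x y => by
    obtain ⟨t, ht⟩ := exists_d_z (m := m) hc
    rw [← ht, ← ht]; exact h3 _ (D_le_B (d_mem t)) _ (u_mem ..) _ (u_mem_ZU y)
  have s : ∀ t v y, G (u m t v) (u m 0 y) = G (u m t 0) (u m 0 y) := fun t v y => by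
    rw [show u m t v = u m t 0 * u m 0 v by simp [u_mul], h1 _ (u_mem ..) _ (u_mem ..) _ (u_mem_ZU _), s2, mul_one]
  rw [s]
  refine kill_αγ (f := fun x y => G (u m x 0) (u m 0 y)) ⟨fun x x' y => by
    rw [← h1 _ (u_mem ..) _ (u_mem ..) _ (u_mem_ZU _), u_mul, s _ (_ + _)], fun x => b _ (u_mem ..)⟩ hm
    (fun c hc x y => ?_) t y
  obtain ⟨t, rfl⟩ := exists_sq (m := m) c
  simpa [mul_pow] using i (Units.mk0 t fun e => hc (by simp [e])) x 0 y

theorem van2 : CExt.Van E (B F m) (U F m) (ZU F m) (U F m) := by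
  rintro G h1 h2 h3 h4 h5 _ ⟨t, v, rfl⟩ _ ⟨t', v', rfl⟩
  have s : ∀ t v, ∀ y ∈ U F m, G (u m t v) y = G (u m t 0) y ∧ G y (u m t v) = G y (u m t 0) := fun t v y hy => by
    rw [show u m t v = u m t 0 * u m 0 v by simp [u_mul], h1 _ (u_mem ..) _ (u_mem ..) _ hy, h5 _ (u_mem_ZU _) _ hy,
      h2 _ hy _ (u_mem ..) _ (u_mem ..), h4 _ hy _ (u_mem_ZU _)]
    simp
  rw [(s _ _ _ (u_mem ..)).1, (s _ _ _ (u_mem ..)).2]
  refine kill_inv (f := fun x y => G (u m x 0) (u m y 0)) ⟨fun x x' y => by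
    rw [← h1 _ (u_mem ..) _ (u_mem ..) _ (u_mem ..), u_mul, (s _ (_ + _) _ (u_mem ..)).1], fun y x x' => by
    rw [← h2 _ (u_mem ..) _ (u_mem ..) _ (u_mem ..), u_mul, (s _ (_ + _) _ (u_mem ..)).2]⟩ hm (fun c hc x y => ?_) t t'
  obtain ⟨t, rfl⟩ := exists_sq (m := m) c
  simpa [d_u_inv] using h3 _ (D_le_B (d_mem (Units.mk0 t fun e => hc (by simp [e])))) _ (u_mem x 0) _ (u_mem y 0)

theorem sm : HasCyclicSchurMultiplier (Sz F m) 1 := by
  refine sm_one fun E _ _ π Y p hp => ?_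
  haveI := Fact.mk hp
  by_cases h2 : p = 2
  swap
  · obtain ⟨P⟩ := Sylow.nonempty (p := p) (G := Sz F m)
    exact ⟨P, P.not_dvd_index, Y.triv_of_cyc (sylow_cyclic h2 P)⟩
  obtain ⟨t, ht⟩ := exists_unit_ne_one (F := F) (m := m)
  have a1 : (th m (t : F) * t) ^ 2 + 1 ≠ 0 := fun e =>
    ht (Units.ext (thmul_eq_one (m := m) (by linear_combination e - two (F := F) (m := m))))
  have a2 : ∀ y, ⁅d m t, u m 0 y⁆ = u m 0 (((th m (t : F) * t) ^ 2 + 1) * y) := fun y => by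
    simp [commutatorElement_def, d_u_inv, u_inv, u_mul, add_mul]
  obtain ⟨Q, hQ⟩ := (Y.sec_bot (B F m)).step U_le_B ZU_le_U
    (fun a ha y hy => commutatorElement_eq_one_iff_mul_comm.2 (ZU_comm hy ha)) (van1 hm) bot_le (D_le_B (d_mem t)) norm_ZU.ge
    (fun k hk => by
      obtain ⟨a, b, s, rfl⟩ := mem_B.1 hk
      exact ⟨_, u_mem .., _, D_le_B (d_mem s), by rw [← d_mul, mul_comm, d_mul], rfl⟩)
    (by rintro _ ⟨y, rfl⟩; simp [a2, u_eq_one, a1])
    (by rintro _ ⟨y, rfl⟩; exact ⟨_, u_mem_ZU (((th m (t : F) * t) ^ 2 + 1)⁻¹ * y), by simp [a2, a1]⟩)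
  exact ⟨_, h2 ▸ odd_index_U, fun z => hQ.top U_le_B le_rfl
    (by rintro _ ⟨a, b, rfl⟩ _ ⟨c, e, rfl⟩; exact ⟨_, (u_comm ..).symm⟩) (van2 hm) le_rfl⟩

end SzA

end CfsgH6
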