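import Cfsg.Agent.H6.I2TF4
import Cfsg.Agent.H6.Cent2

/-! Minimal parabolic subgroups of twisted groups; centralizers of involutions in the large Ree groups. -/

set_option autoImplicit false

namespace CfsgH6

open Cfsg.Lie

variable {D : ChevalleyDatum}

theorem Twist.card_P1 {G : Good D} {F : Type*} [Field F] {Γ : Type*} [Group Γ] {C : Cover G F Γ} {ι : Type}
    (T : Twist C ι) [Finite F] (c : ι) : Nat.card ↥(C.PJ (T.nodes c) ⊓ T.G1) =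
      Nat.card ↥(C.B ⊓ T.G1) * (Nat.card ↥(C.US (T.Sp c) ⊓ T.Fix) + 1) := by
  have hν := C.mem_PJ_of_mon (T.ν_NN c) (T.s_WJ c) (T.mon_ν c)
  have hU : C.US (T.Sp c) ≤ C.B := (C.US_mono fun _ h => h.1).trans C.U_le_B
  have h0 : ∀ {b b' v}, b ∈ C.B → b' ∈ C.B → v ∈ C.US (T.Sp c) → b * T.ν c * v ≠ b' := fun hb hb' hv e =>
    T.s_ne_one c (C.eq_one_of_mon_B (T.ν_NN c) (T.mon_ν c) (by
      have := mul_mem (mul_mem (inv_mem hb) hb') (inv_mem (hU hv))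
      rwa [← e, mul_assoc, mul_assoc, mul_inv_cancel, mul_one, inv_mul_cancel_left] at this))
  have : Finite ↥(C.US (T.Sp c) ⊓ T.Fix) := by
    have : Finite (C.US (T.Sp c)) := Nat.finite_of_card_ne_zero (by
      rw [C.card_US (T.nil_Sp c)]; exact pow_ne_zero _ Nat.card_pos.ne')
    exact Finite.of_injective _ (Subgroup.inclusion_injective inf_le_left)
  rw [← Finite.card_option, ← Nat.card_prod]
  refine (Nat.card_congr (Equiv.ofBijective (fun p : ↥(C.B ⊓ T.G1) × Option ↥(C.US (T.Sp c) ⊓ T.Fix) =>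
    match p with
    | (b, none) => ⟨b, C.B_le_PJ _ b.2.1, b.2.2⟩
    | (b, some v) => ⟨b * T.ν c * v, mul_mem (mul_mem (C.B_le_PJ _ b.2.1) hν) (C.B_le_PJ _ (hU v.2.1)),
      mul_mem (mul_mem b.2.2 (T.ν_G1 c)) (T.mem_G1_of_Sp v.2.1 v.2.2)⟩) ⟨?_, ?_⟩)).symm
  · rintro ⟨b, _ | v⟩ ⟨b', _ | v'⟩ h <;> replace h := congrArg Subtype.val h <;> simp only at h
    · rw [Subtype.ext h]
    · exact absurd h.symm (h0 b'.2.1 b.2.1 v'.2.1)
    · exact absurd h (h0 b.2.1 b'.2.1 v.2.1)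
    · obtain rfl : v = v' := Subtype.ext (C.canonical_unique b.2.1 b'.2.1 (T.mon_ν c)
        (by rw [T.invSet_s]; exact v.2.1) (by rw [T.invSet_s]; exact v'.2.1) (congrArg C.π h))
      rw [Subtype.ext (mul_right_cancel (mul_right_cancel h))]
  · rintro ⟨g, hg, hg'⟩
    obtain ⟨u, hu, hu', n, hn, hn', w, hw, h, v, hv, hv', rfl⟩ := T.canonical hg'
    have h1 := C.U_le_B (C.invSet_le_U _ hv)
    rcases T.eq_one_or_s hw (C.mem_WJ_of_mem_PJ hn h ((Subgroup.mul_mem_cancel_left _ (C.B_le_PJ _ (C.U_le_B hu))).1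
      ((Subgroup.mul_mem_cancel_right _ (C.B_le_PJ _ h1)).1 hg))) with rfl | rfl
    · exact ⟨(⟨_, mul_mem (mul_mem (C.U_le_B hu) (C.HH_le_B (C.mem_HH_of_mon hn h))) h1, hg'⟩, none), rfl⟩
    · exact ⟨(⟨_, Subgroup.mem_inf.2 ⟨mul_mem (C.U_le_B hu) (C.HH_le_B (C.mul_inv_mem_HH hn (T.ν_NN c) h (T.mon_ν c))),
        mul_mem hu' (mul_mem hn' (inv_mem (T.ν_G1 c)))⟩⟩, some ⟨v, T.invSet_s c ▸ hv, T.G1_le_Fix hv'⟩),
        Subtype.ext (by simp [mul_assoc])⟩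

variable {K : Type*} [Field K] [Fintype K] [CharP K 2] {φ : K →+* K} {m : ℕ} (hφ : ∀ t, φ t = t ^ 2 ^ m)
  (hK : Fintype.card K = 2 ^ (2 * m + 1))

theorem card_PF4 (c : Fin 2) : Nat.card ↥((goodF4.gl K).PJ ((TF4g hφ hK).nodes c) ⊓ (TF4g hφ hK).G1) =
    (2 ^ (2 * m + 1)) ^ 12 * (2 ^ (2 * m + 1) - 1) ^ 2 * ((2 ^ (2 * m + 1)) ^ (c + 1 : ℕ) + 1) := by
  have hs : √(2 ^ (2 * m + 1) : ℕ) ^ 2 = _ := Real.sq_sqrt (Nat.cast_nonneg _)
  have h1 := hqF4 hφ hK _ (XF4 φ).fn_gl hs c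
  rw [Twist.N_s' _ foldF4, show (cdF4 c).2.2 = 2 * (c + 1) by clear h1; revert c; decide, pow_mul, hs] at h1
  rw [Twist.card_P1, Twist.card_B1, card_U1F4, card_H1F4]
  congr 2
  exact_mod_cast h1

theorem cent_par_F4 {a b : GL chevF4.Idx K} (ha : a ∈ (TF4g hφ hK).G1) (hb : b ∈ (TF4g hφ hK).G1)
    (h : orderOf a = 2) (hab : Commute a b) :
    ∃ c, ∃ g ∈ (TF4g hφ hK).G1, g * b * g⁻¹ ∈ (goodF4.gl K).PJ ((TF4g hφ hK).nodes c) := by
  have key : ∀ {A B gs}, fastF4.chkE mapF4.fι A gs B = true →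
      (TF4g hφ hK).Cj ((goodF4.gl K).xw A) ((goodF4.gl K).xw B) :=
    checkedF4.chkE_sound (TF4g hφ hK) (fρ := mapF4.fι) (fun _ => rfl) (XF4 φ).f_one
  have h1 : ∀ {g z}, g ∈ (TF4g hφ hK).G1 → g * a * g⁻¹ = z →
      g * b * g⁻¹ ∈ (goodF4.gl K).Gr ⊓ Subgroup.centralizer {z} := fun {g z} hg e =>
    Subgroup.mem_inf.2 ⟨(TF4g hφ hK).G1_le_Gr (mul_mem (mul_mem hg hb) (inv_mem hg)), by
      rw [Subgroup.mem_centralizer_singleton_iff, ← e, conj_mul, conj_mul, hab.eq]⟩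
  have h2 : ∀ (r s : Fin chevF4.nroots), (goodF4.gl K).xw [r, s] = (goodF4.gl K).x r 1 * (goodF4.gl K).x s 1 :=
    fun r s => by rw [Cover.xw_cons, Cover.xw_one]
  obtain ⟨y, hy, e⟩ := invTF4a hφ hK a ha h
  simp only [List.map_cons, List.map_nil, List.mem_cons, List.not_mem_nil, or_false] at hy
  rcases hy with rfl | rfl
  · obtain ⟨g, hg, e⟩ := e.trans (key (gs := [[5, 11], [26, 34, 36]]) (B := [47, 44]) (by decide +kernel))
    have := h1 hg (e.trans (h2 ⟨47, by decide⟩ ⟨44, by decide⟩))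
    rw [centF4a _ (goodF4.gl_R3 K)] at this
    refine ⟨1, g, hg, SetLike.le_def.1 ?_ this⟩
    rw [Cover.PJ_eq, Cover.U, ← Cover.US_union, ← Cover.US_union]
    refine ((goodF4.gl K).US_mono fun r => ?_).trans le_sup_left
    change (goodF4.Pos r ∨ r = _) ∨ r = _ → goodF4.Pos r ∨ ∀ i, ¬ clF4 i = 1 → goodF4.vec r i = 0
    revert r; decide +kernel
  · obtain ⟨g, hg, e⟩ := e.trans (key (gs := [[13, 21, 5], [26, 34, 42]]) (B := [39, 45]) (by decide +kernel))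
    have := h1 hg (e.trans (h2 ⟨39, by decide⟩ ⟨45, by decide⟩))
    rw [centF4b _ (goodF4.gl_R3 K)] at this
    refine ⟨0, g, hg, SetLike.le_def.1 ?_ this⟩
    rw [Cover.PJ_eq, ← Cover.US_union, ← Cover.US_union, ← Cover.US_union, ← Cover.US_union]
    refine ((goodF4.gl K).US_mono fun r => ?_).trans le_sup_left
    change (((r = _ ∨ r = _) ∨ r = _) ∨ r = _) ∨ goodF4.Pos r ∧ r.1 ∉ [27, 25, 34, 26] →
      goodF4.Pos r ∨ ∀ i, ¬ clF4 i = 0 → goodF4.vec r i = 0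
    revert r; decide +kernel

end CfsgH6
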