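import Cfsg.Agent.H6.PoinAll
import Cfsg.Agent.H6.GoodAll
import Cfsg.Agent.H6.SimpleAll2

/-! The centre of the Weyl group; generation by the Coxeter element and reflections. -/

set_option autoImplicit false

namespace CfsgH6

open Cfsg.Lie

variable {D : ChevalleyDatum}

/-- a word in a Coxeter group -/
def mw {n : ℕ} (M : CoxeterMatrix (Fin n)) (w : List ℕ) : M.Group :=
  (w.map fun i => if h : i < n then M.simple ⟨i, h⟩ else 1).prod

theorem mw_range {n : ℕ} (M : CoxeterMatrix (Fin n)) : mw M (List.range n) = ((List.finRange n).map M.simple).prod := by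
  rw [mw, ← List.map_coe_finRange_eq_range, List.map_map]
  exact congrArg _ (List.map_congr_left fun i _ => dif_pos i.2)

theorem mw_append {n : ℕ} (M : CoxeterMatrix (Fin n)) (v w : List ℕ) : mw M (v ++ w) = mw M v * mw M w := by
  simp [mw]

theorem mw_single {n : ℕ} (M : CoxeterMatrix (Fin n)) (i : Fin n) : mw M [i] = M.simple i := by simp [mw]

namespace Good

variable (G : Good D) {M : CoxeterMatrix (Fin D.rank)}

theorem center_W {rk : List ℕ} (hc : ConnOK D rk) {w : Equiv.Perm (Fin D.nroots)} (hw : w ∈ G.W)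
    (h : ∀ i, w * G.σ i = G.σ i * w) : w = 1 ∨ w = Fin.revPerm := by
  have h1 : ∀ i, w (G.sm i) = G.sm i ∨ w (G.sm i) = (G.sm i).rev := fun i => G.eq_sm_of_support fun j hj => by
    have := congrArg (fun v : Equiv.Perm _ => G.vec (v (G.sm i)) j) (h i)
    simp only [Equiv.Perm.mul_apply, G.σ_sm, (lin_W hw).rev, G.vec_rev, G.σ_vec, G.vec_sm, if_neg hj] at this
    omega
  by_cases e : ∀ i, w (G.sm i) = G.sm i
  · exact .inl (eq_one_of_pos hw fun i => (e i).symm ▸ G.pos_sm i)
  by_cases e' : ∃ i, w (G.sm i) = G.sm i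
  · obtain ⟨i, hi, j, hj, h2⟩ := G.conn hc {i | w (G.sm i) = G.sm i} e' (not_forall.1 e)
    have := A_W hw (G.sm i) (G.sm j)
    rw [hi, (h1 j).resolve_left hj, G.A_rev_right, G.A_sm, G.sm_val] at this
    omega
  refine .inr (Equiv.ext fun r => G.vec_inj fun j => ?_)
  rw [lin_W hw, Fin.revPerm_apply, G.vec_rev]
  simp [fun i => (h1 i).resolve_left (not_exists.1 e' i), G.vec_rev, G.vec_sm]

variable (h : ∃ cs : CoxeterSystem M G.W, ∀ i, (cs.simple i : Equiv.Perm (Fin D.nroots)) = G.σ i)
include h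

theorem exists_mw : ∃ φ : M.Group →* Equiv.Perm (Fin D.nroots), Function.Injective φ ∧ (∀ g, φ g ∈ G.W) ∧
    ∀ w, φ (mw M w) = G.wN w := by
  obtain ⟨cs, h⟩ := h
  refine ⟨G.W.subtype.comp cs.mulEquiv.symm.toMonoidHom, Subtype.val_injective.comp cs.mulEquiv.symm.injective,
    fun g => (cs.mulEquiv.symm g).2, fun w => ?_⟩
  rw [mw, wN, map_list_prod, List.map_map]
  refine congrArg _ (List.map_congr_left fun i _ => ?_)
  simp only [Function.comp_apply]
  split_ifs
  exacts [h _, map_one _]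

theorem center_cases {rk : List ℕ} (hc : ConnOK D rk) : ∃ φ : M.Group →* Equiv.Perm (Fin D.nroots),
    Function.Injective φ ∧ (∀ g, φ g ∈ G.W) ∧ (∀ w, φ (mw M w) = G.wN w) ∧
      ∀ z ∈ Subgroup.center M.Group, z = 1 ∨ φ z = Fin.revPerm := by
  obtain ⟨φ, h1, h2, h3⟩ := G.exists_mw h
  refine ⟨φ, h1, h2, h3, fun z hz => (G.center_W hc (h2 z) fun i => ?_).imp_left (map_eq_one_iff φ h1).1⟩
  have : φ (M.simple i) = G.σ i := by rw [← mw_single, h3]; simp [wN]
  rw [← this, ← map_mul, ← map_mul, Subgroup.mem_center_iff.1 hz]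

theorem center_one {rk : List ℕ} (hc : ConnOK D rk) {w : List ℕ} (h1 : ∀ i, ¬ G.Pos (G.wN w (G.sm i)))
    (h2 : ∃ i, G.wN w (G.sm i) ≠ (G.sm i).rev) (c : M.Group) :
    Nat.card (Subgroup.center M.Group) = 1 ∧ Subgroup.center M.Group ≤ Subgroup.zpowers c := by
  obtain ⟨φ, -, h3, -, h4⟩ := G.center_cases h hc
  obtain ⟨i, h2⟩ := h2
  rw [show Subgroup.center M.Group = ⊥ from eq_bot_iff.2 fun z hz => (h4 z hz).resolve_right fun e =>
    h2 (by
      rw [G.longest_unique (J := Set.univ) (G.WJ_univ ▸ G.wN_mem w) (G.WJ_univ ▸ h3 z) (fun i _ => h1 i)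
        fun i _ => e ▸ G.not_pos_sm_rev i, e]; rfl)]
  exact ⟨Subgroup.card_bot, bot_le⟩

variable {T : Orb} (hl : T.l = D.rank) (ha : ∀ i j : Fin D.rank, D.cartan i (D.simple j) = T.a i j)
include hl ha

theorem center_two {rk : List ℕ} (hc : ConnOK D rk) (k : ℕ)
    (h1 : let z := (List.replicate k (List.range D.rank)).flatten
      T.notOne z = true ∧ T.isOne (z ++ z) = true ∧ ∀ i : Fin D.rank, T.isOne (z ++ [i.1] ++ (z ++ [i.1])) = true) :
    Nat.card (Subgroup.center M.Group) = 2 ∧
      Subgroup.center M.Group ≤ Subgroup.zpowers ((List.finRange D.rank).map M.simple).prod := by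
  obtain ⟨φ, a1, -, a2, a3⟩ := G.center_cases h hc
  obtain ⟨b1, b2, b3⟩ := h1
  have b4 : mw M (List.replicate k (List.range D.rank)).flatten = ((List.finRange D.rank).map M.simple).prod ^ k :=
    a1 (by rw [a2, G.wN_pow, map_pow, ← mw_range, a2])
  generalize (List.replicate k (List.range D.rank)).flatten = z at b1 b2 b3 b4
  have b5 : ∀ w, T.isOne w = true → mw M w = 1 := fun w e => a1 (by rw [a2, G.isOne_sound hl ha e, map_one])
  have b6 : mw M z ≠ 1 := fun e => G.notOne_sound hl ha b1 (by rw [← a2, e, map_one])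
  have b7 : mw M z ∈ Subgroup.center M.Group := Subgroup.mem_center_iff.2 fun g => by
    have : g ∈ Subgroup.centralizer {mw M z} := by
      refine (Subgroup.closure_le _).2 ?_ (M.toCoxeterSystem.subgroup_closure_range_simple.ge (Subgroup.mem_top g))
      rintro _ ⟨i, rfl⟩
      have c1 := b5 _ b2
      have c2 := b5 _ (b3 i)
      have c3 := M.toCoxeterSystem.simple_mul_simple_self i
      simp only [mw_append, mw_single] at c1 c2
      rw [SetLike.mem_coe, Subgroup.mem_centralizer_singleton_iff, CoxeterMatrix.toCoxeterSystem_simple, eq_inv_of_mul_eq_one_right c2, mul_inv_rev,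
        inv_eq_of_mul_eq_one_right c1]
      exact congrArg (· * _) (eq_inv_of_mul_eq_one_left c3)
    exact Subgroup.mem_centralizer_singleton_iff.1 this
  have b8 : ∀ a ∈ Subgroup.center M.Group, a = 1 ∨ a = mw M z := fun a e =>
    (a3 a e).imp_right fun e' => a1 (e'.trans ((a3 _ b7).resolve_left b6).symm)
  refine ⟨?_, fun a e => ?_⟩
  · rw [← Set.ncard_pair b6.symm, ← Nat.card_coe_set_eq]
    refine congrArg (fun s : Set M.Group => Nat.card s)
      (Set.ext fun a => ⟨b8 a, ?_⟩ : (Subgroup.center M.Group : Set M.Group) = {1, mw M z})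
    rintro (rfl | rfl)
    exacts [one_mem _, b7]
  · rcases b8 a e with rfl | rfl
    exacts [one_mem _, b4 ▸ Subgroup.pow_mem _ (Subgroup.mem_zpowers _) k]

theorem gen_cox (S : Finset (Fin D.rank)) (L : List (List ℕ))
    (h1 : T.isOne (List.range D.rank ++ (List.range D.rank).reverse) = true ∧
      (∀ i ∈ S, ∀ j ∈ S, i = j ∨ T.notOne [i.1, j.1] = true) ∧ ∀ j : Fin D.rank,
      (∀ b ∈ L.getD j [], b = 8 ∨ b = 9 ∨ ∃ i ∈ S, i.1 = b) ∧ T.isOne (j.1 :: (L.getD j []).flatMap fun b =>
        if b = 8 then List.range D.rank else if b = 9 then (List.range D.rank).reverse else [b]) = true) :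
    ∃ R : Finset M.Group, R.card = S.card ∧ (∀ t ∈ R, ∃ (g : M.Group) (i : Fin D.rank), t = g * M.simple i * g⁻¹) ∧
      Subgroup.closure (({((List.finRange D.rank).map M.simple).prod} : Set M.Group) ∪ ↑R) = ⊤ := by
  classical
  obtain ⟨φ, a1, -, a2⟩ := G.exists_mw h
  have b5 : ∀ w, T.isOne w = true → mw M w = 1 := fun w e => a1 (by rw [a2, G.isOne_sound hl ha e, map_one])
  refine ⟨S.image M.simple, Finset.card_image_of_injOn fun i hi j hj e => (h1.2.1 i hi j hj).resolve_right fun e' =>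
    G.notOne_sound hl ha e' ?_, fun t ht => ?_, eq_top_iff.2 (M.toCoxeterSystem.subgroup_closure_range_simple.ge.trans
      ((Subgroup.closure_le _).2 ?_))⟩
  · rw [← a2, ← List.singleton_append, mw_append, mw_single, mw_single, e, ← map_one φ]
    exact congrArg φ (M.toCoxeterSystem.simple_mul_simple_self j)
  · obtain ⟨i, -, rfl⟩ := Finset.mem_image.1 ht
    exact ⟨1, i, by simp⟩
  rintro _ ⟨j, rfl⟩
  have c1 := b5 _ (h1.2.2 j).2
  rw [← List.singleton_append, mw_append, mw_single] at c1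
  rw [CoxeterMatrix.toCoxeterSystem_simple, eq_inv_of_mul_eq_one_left c1]
  refine inv_mem ?_
  have c2 := (h1.2.2 j).1
  generalize L.getD j [] = l at c2
  have c3 : mw M (List.range D.rank) ∈ Subgroup.closure (({((List.finRange D.rank).map M.simple).prod} : Set M.Group) ∪
    ↑(S.image M.simple)) := Subgroup.subset_closure (.inl (mw_range M))
  induction l with
  | nil => exact one_mem _
  | cons b l ih =>
    rw [List.flatMap_cons, mw_append]
    refine mul_mem ?_ (ih fun b hb => c2 b (List.mem_cons_of_mem _ hb))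
    split_ifs with e e'
    · exact c3
    · rw [eq_inv_of_mul_eq_one_right ((mw_append ..).symm.trans (b5 _ h1.1))]; exact inv_mem c3
    · obtain ⟨i, hi, rfl⟩ := ((c2 b (by simp)).resolve_left e).resolve_left e'
      exact Subgroup.subset_closure (.inr (by rw [mw_single]; exact Finset.mem_coe.2 (Finset.mem_image_of_mem _ hi)))

end Good

end CfsgH6
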